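import Mathlib
import Cfsg.Prelude.Def_GeometricClasses
import Cfsg.Agent.Lib.Helper71.Asch0

/-!
# S5630 piece B1 (helper46, for helper71): reducible groups lie in class 1
-/

set_option autoImplicit false

namespace Cfsg.Agent.Lib.Helper46.ASB1

open Matrix Cfsg.Geo Cfsg.Agent.Lib.Helper71.Asch
open scoped Kronecker

variable {n : ℕ} {F : Type*} [Field F] [Fintype F]

/-- B1: reducible groups lie in class 1. -/
theorem B1 (H : Subgroup (GL (Fin n) F)) (h : ¬ ActsIrreducibly (matrixSet H)) : InCls H := by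
  unfold ActsIrreducibly at h
  push Not at h
  obtain ⟨W, hW, hbot, htop⟩ := h
  refine ⟨subspaceStabilizer W, Or.inl ⟨W, hbot, htop, rfl⟩, ?_⟩
  have key : ∀ g' ∈ H, ∀ v ∈ W, g'.1 *ᵥ v ∈ W := by
    intro g' hg' v hv
    have h1 := hW g'.1 ⟨g', hg', rfl⟩
    have h2 : Matrix.toLin' g'.1 v ∈ W.map (Matrix.toLin' g'.1) := Submodule.mem_map_of_mem hv
    rw [Matrix.toLin'_apply] at h2
    exact h1 h2
  intro g hg v
  constructor
  · intro hv
    exact key g hg v hv
  · intro hv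
    have h3 := key g⁻¹ (H.inv_mem hg) _ hv
    have h4 : (g⁻¹ : GL (Fin n) F).1 *ᵥ (g.1 *ᵥ v) = v := by
      rw [Matrix.mulVec_mulVec, ← Units.val_mul, inv_mul_cancel, Units.val_one, Matrix.one_mulVec]
    rw [← h4]
    exact h3

end Cfsg.Agent.Lib.Helper46.ASB1
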