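import Mathlib
import Cfsg.Prelude.Def_GeometricClasses
import Cfsg.Agent.Lib.Helper71.Asch0

/-!
# S5630 pieces B3s and B3a (helper46, for helper71): the homogeneous form with `d = 1` or `k = 1`
-/

set_option autoImplicit false

namespace Cfsg.Agent.Lib.Helper46.ASB3s

open Matrix Cfsg.Geo Cfsg.Agent.Lib.Helper71.Asch
open scoped Kronecker

variable {n : ℕ} {F : Type*} [Field F] [Fintype F]

/-- B3s: in the homogeneous form with `d = 1` the group is scalar. -/
theorem B3s {k : ℕ} (e : Fin n ≃ Fin 1 × Fin k) (P : GL (Fin n) F) (R : Subgroup (GL (Fin 1) F))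
    (N : Subgroup (GL (Fin n) F)) (h1 : ∀ x ∈ N, ∃ y ∈ R, x.1 = tmat e P y.1 1) :
    N ≤ scalars (Fin n) F := by
  intro x hx
  obtain ⟨y, -, hy⟩ := h1 x hx
  obtain ⟨c, hc⟩ : ∃ c : F, y.1 = c • (1 : Matrix (Fin 1) (Fin 1) F) := by
    refine ⟨y.1 0 0, ?_⟩
    ext i j
    rw [Subsingleton.elim i 0, Subsingleton.elim j 0]
    simp
  have hre : Matrix.reindex e.symm e.symm ((c • (1 : Matrix (Fin 1) (Fin 1) F)) ⊗ₖ
      (1 : Matrix (Fin k) (Fin k) F)) = c • (1 : Matrix (Fin n) (Fin n) F) := by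
    ext i j
    rw [Matrix.reindex_apply]
    show ((c • (1 : Matrix (Fin 1) (Fin 1) F)) ⊗ₖ (1 : Matrix (Fin k) (Fin k) F)) (e i) (e j) = _
    rw [Matrix.kroneckerMap_apply, Matrix.smul_apply, Matrix.smul_apply, Matrix.one_apply,
      Matrix.one_apply, Matrix.one_apply, if_pos (Subsingleton.elim _ _)]
    by_cases hij : i = j
    · subst hij
      simp
    · have h2 : (e i).2 ≠ (e j).2 := by
        intro h2
        exact hij (e.injective (Prod.ext (Subsingleton.elim _ _) h2))
      rw [if_neg h2, if_neg hij]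
      simp
  have hx1 : x.1 = c • (1 : Matrix (Fin n) (Fin n) F) := by
    rw [hy]
    unfold tmat
    rw [hc, hre, Matrix.mul_smul, Matrix.smul_mul, mul_one, ← Units.val_mul, mul_inv_cancel,
      Units.val_one]
  rw [mem_scalars_iff]
  by_cases hc0 : c = 0
  · have h0 : x.1 = 0 := by rw [hx1, hc0, zero_smul]
    have h2 : (1 : Matrix (Fin n) (Fin n) F) = 0 := by
      have h3 := x.mul_inv
      rw [h0, zero_mul] at h3
      exact h3.symm
    refine ⟨1, ?_⟩
    rw [h0, Units.val_one, one_smul, h2]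
  · exact ⟨Units.mk0 _ hc0, hx1⟩

omit [Fintype F] in
/-- the rectangular form of `tmat` when `k = 1` -/
theorem tmat_eq {d : ℕ} (e : Fin n ≃ Fin d × Fin 1) (P : GL (Fin n) F) :
    ∃ (A : Matrix (Fin n) (Fin d) F) (B : Matrix (Fin d) (Fin n) F), A * B = 1 ∧ B * A = 1 ∧
      ∀ y : Matrix (Fin d) (Fin d) F, tmat e P y 1 = A * y * B := by
  set e' : Fin n ≃ Fin d := e.trans (Equiv.prodUnique (Fin d) (Fin 1)) with he'
  set E : Matrix (Fin n) (Fin d) F := (1 : Matrix (Fin d) (Fin d) F).submatrix e' id with hE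
  set E' : Matrix (Fin d) (Fin n) F := (1 : Matrix (Fin d) (Fin d) F).submatrix id e' with hE'
  have hEE' : E * E' = 1 := by
    rw [hE, hE', ← Matrix.submatrix_mul _ _ e' id e' Function.bijective_id, Matrix.one_mul,
      Matrix.submatrix_one_equiv]
  have hE'E : E' * E = 1 := by
    rw [hE, hE', ← Matrix.submatrix_mul _ _ id e' id e'.bijective, Matrix.one_mul,
      Matrix.submatrix_id_id]
  have hsub : ∀ y : Matrix (Fin d) (Fin d) F, E * y * E' = y.submatrix e' e' := by
    intro y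
    have h1 : E * y = y.submatrix e' id := by
      rw [hE]
      have := Matrix.submatrix_mul (1 : Matrix (Fin d) (Fin d) F) y e' id id
        Function.bijective_id
      rw [Matrix.one_mul, Matrix.submatrix_id_id] at this
      exact this.symm
    rw [h1, hE']
    have := Matrix.submatrix_mul y (1 : Matrix (Fin d) (Fin d) F) e' id e' Function.bijective_id
    rw [Matrix.mul_one] at this
    exact this.symm
  refine ⟨P.1 * E, E' * (P⁻¹ : GL (Fin n) F).1, ?_, ?_, ?_⟩
  · calc P.1 * E * (E' * (P⁻¹ : GL (Fin n) F).1)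
        = P.1 * (E * E') * (P⁻¹ : GL (Fin n) F).1 := by simp only [Matrix.mul_assoc]
      _ = 1 := by
        rw [hEE', Matrix.mul_one, ← Units.val_mul, mul_inv_cancel, Units.val_one]
  · calc E' * (P⁻¹ : GL (Fin n) F).1 * (P.1 * E)
        = E' * ((P⁻¹ : GL (Fin n) F).1 * P.1) * E := by simp only [Matrix.mul_assoc]
      _ = 1 := by
        rw [← Units.val_mul, inv_mul_cancel, Units.val_one, Matrix.mul_one, hE'E]
  · intro y
    have h2 : Matrix.reindex e.symm e.symm (y ⊗ₖ (1 : Matrix (Fin 1) (Fin 1) F))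
        = y.submatrix e' e' := by
      ext i j
      simp [Matrix.reindex_apply, Matrix.kroneckerMap_apply, he', Matrix.one_apply,
        Subsingleton.elim (e i).2 (e j).2]
    unfold tmat
    rw [h2, ← hsub y]
    simp only [Matrix.mul_assoc]

/-- B3a: in the homogeneous form with `k = 1` the group is absolutely irreducible. -/
theorem B3a {d : ℕ} (e : Fin n ≃ Fin d × Fin 1) (P : GL (Fin n) F) (R : Subgroup (GL (Fin d) F))
    (N : Subgroup (GL (Fin n) F)) (hR : ActsAbsolutelyIrreducibly (matrixSet R))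
    (h2 : ∀ y ∈ R, ∃ x ∈ N, x.1 = tmat e P y.1 1) :
    ActsAbsolutelyIrreducibly (matrixSet N) := by
  obtain ⟨A, B, hAB, hBA, hAyB⟩ := tmat_eq e P
  have hmem : ∀ y ∈ R, A * y.1 * B ∈ matrixSet N := by
    intro y hy
    obtain ⟨x, hx, hxy⟩ := h2 y hy
    refine ⟨x, hx, ?_⟩
    show x.1 = _
    rw [hxy, hAyB]
  have hABv : ∀ v : Fin n → F, A *ᵥ (B *ᵥ v) = v := by
    intro v
    rw [Matrix.mulVec_mulVec, hAB, Matrix.one_mulVec]
  constructor
  · intro W hW
    set W' : Submodule F (Fin d → F) := W.comap A.mulVecLin with hW'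
    have hinv : ∀ s ∈ matrixSet R, W'.map (Matrix.toLin' s) ≤ W' := by
      rintro _ ⟨y, hy, rfl⟩
      rintro _ ⟨u, hu, rfl⟩
      rw [Matrix.toLin'_apply]
      show A.mulVecLin (y.1 *ᵥ u) ∈ W
      rw [Matrix.mulVecLin_apply]
      have hu' : A *ᵥ u ∈ W := hu
      have h3 : A *ᵥ (y.1 *ᵥ u) = (A * y.1 * B) *ᵥ (A *ᵥ u) := by
        rw [Matrix.mulVec_mulVec, Matrix.mulVec_mulVec, Matrix.mul_assoc (A * y.1) B A, hBA,
          Matrix.mul_one]
      rw [h3]
      have h4 := hW _ (hmem y hy)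
      have h5 : Matrix.toLin' (A * y.1 * B) (A *ᵥ u) ∈ W.map (Matrix.toLin' (A * y.1 * B)) :=
        Submodule.mem_map_of_mem hu'
      rw [Matrix.toLin'_apply] at h5
      exact h4 h5
    rcases hR.1 W' hinv with h | h
    · left
      rw [eq_bot_iff]
      intro v hv
      have h6 : B *ᵥ v ∈ W' := by
        show A.mulVecLin (B *ᵥ v) ∈ W
        rw [Matrix.mulVecLin_apply, hABv]
        exact hv
      rw [h, Submodule.mem_bot] at h6
      rw [Submodule.mem_bot, ← hABv v, h6, Matrix.mulVec_zero]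
    · right
      rw [eq_top_iff]
      intro v _
      have h6 : B *ᵥ v ∈ W' := by
        rw [h]
        exact Submodule.mem_top
      have h7 : A.mulVecLin (B *ᵥ v) ∈ W := h6
      rw [Matrix.mulVecLin_apply, hABv] at h7
      exact h7
  · intro M hM
    have hM' : ∀ s ∈ matrixSet R, (B * M * A) * s = s * (B * M * A) := by
      rintro _ ⟨y, hy, rfl⟩
      have h3 := hM _ (hmem y hy)
      calc B * M * A * y.1 = B * (M * (A * y.1 * B)) * A := by
            simp only [Matrix.mul_assoc]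
            rw [hBA, Matrix.mul_one]
        _ = B * ((A * y.1 * B) * M) * A := by rw [h3]
        _ = y.1 * (B * M * A) := by
            simp only [Matrix.mul_assoc]
            rw [← Matrix.mul_assoc B A, hBA, Matrix.one_mul]
    obtain ⟨c, hc⟩ := hR.2 _ hM'
    refine ⟨c, ?_⟩
    calc M = (A * B) * M * (A * B) := by rw [hAB, Matrix.one_mul, Matrix.mul_one]
      _ = A * (B * M * A) * B := by simp only [Matrix.mul_assoc]
      _ = c • (1 : Matrix (Fin n) (Fin n) F) := by
        rw [hc, Matrix.mul_smul, Matrix.smul_mul, Matrix.mul_one, hAB]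

end Cfsg.Agent.Lib.Helper46.ASB3s
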