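import Mathlib
import Cfsg.Prelude.Def_GeometricClasses
import Cfsg.Agent.Lib.Helper71.Asch0

/-!
# S5630 piece B4 (helper46, for helper71): existence of a minimal non-scalar normal subgroup
-/

set_option autoImplicit false

namespace Cfsg.Agent.Lib.Helper46.ASB4

open Matrix Cfsg.Geo Cfsg.Agent.Lib.Helper71.Asch
open scoped Kronecker

variable {n : ℕ} {F : Type*} [Field F] [Fintype F]

/-- an irreducible group in dimension at least two is not scalar -/
theorem not_le_scalars (hn : 2 ≤ n) (H : Subgroup (GL (Fin n) F))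
    (hH : ActsIrreducibly (matrixSet H)) : ¬ H ≤ scalars (Fin n) F := by
  intro hs
  set i0 : Fin n := ⟨0, by omega⟩ with hi0
  set W : Submodule F (Fin n → F) := Submodule.span F {Pi.single i0 (1 : F)} with hW
  have hinv : ∀ s ∈ matrixSet H, W.map (Matrix.toLin' s) ≤ W := by
    rintro _ ⟨g, hg, rfl⟩
    obtain ⟨c, hc⟩ := (mem_scalars_iff g).mp (hs hg)
    rintro _ ⟨v, hv, rfl⟩
    rw [Matrix.toLin'_apply]
    show g.1 *ᵥ v ∈ W
    rw [hc, Matrix.smul_mulVec, Matrix.one_mulVec]
    exact W.smul_mem _ hv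
  rcases hH W hinv with h | h
  · have hmem : Pi.single i0 (1 : F) ∈ W := Submodule.subset_span rfl
    rw [h, Submodule.mem_bot] at hmem
    have := congrFun hmem i0
    simp at this
  · have h1 : Module.finrank F W ≤ 1 := by
      rw [hW]
      exact (finrank_span_le_card _).trans (by simp)
    rw [h, finrank_top, Module.finrank_fintype_fun_eq_card, Fintype.card_fin] at h1
    omega

/-- B4: a minimal non-scalar normal subgroup exists. -/
theorem B4 (hn : 2 ≤ n) (H : Subgroup (GL (Fin n) F))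
    (hH : ActsAbsolutelyIrreducibly (matrixSet H)) : ∃ L, IsMinNS H L := by
  have hHns := not_le_scalars hn H hH.1
  set 𝒮 : Set (Subgroup (GL (Fin n) F)) :=
    {L | L ≤ H ∧ Nrm H L ∧ ¬ L ≤ scalars (Fin n) F} with h𝒮
  have hne : 𝒮.Nonempty := by
    refine ⟨H, le_rfl, ?_, hHns⟩
    intro h hh x hx
    exact H.mul_mem (H.mul_mem hh hx) (H.inv_mem hh)
  have hwf : WellFounded ((· < ·) : Subgroup (GL (Fin n) F) → Subgroup (GL (Fin n) F) → Prop) :=
    wellFounded_lt
  obtain ⟨L, hL, hmin⟩ := hwf.has_min 𝒮 hne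
  refine ⟨L, hL.1, hL.2.1, hL.2.2, ?_⟩
  intro L' hL' hN'
  by_cases hs : L' ≤ scalars (Fin n) F
  · exact Or.inl hs
  · right
    have hmem : L' ∈ 𝒮 := ⟨hL'.trans hL.1, hN', hs⟩
    rcases lt_or_eq_of_le hL' with h | h
    · exact absurd h (hmin L' hmem)
    · exact h

end Cfsg.Agent.Lib.Helper46.ASB4
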