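import Mathlib
import Cfsg.Prelude.Def_GeometricClasses
import Cfsg.Agent.Lib.Helper71.Asch0

/-!
# S5630 piece B7core (helper46, for helper71): the form-free part of the residual class conditions
-/

set_option autoImplicit false

namespace Cfsg.Agent.Lib.Helper46.ASB7core

open Matrix Cfsg.Geo Cfsg.Agent.Lib.Helper71.Asch
open scoped Kronecker commutatorElement

variable {n : ℕ} {F : Type*} [Field F] [Fintype F]

omit [Fintype F] in
theorem scalar_comm (z : GL (Fin n) F) (hz : z ∈ scalars (Fin n) F) (g : GL (Fin n) F) :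
    g * z = z * g := by
  obtain ⟨c, hc⟩ := (mem_scalars_iff z).mp hz
  apply Units.ext
  rw [Units.val_mul, Units.val_mul, hc, Matrix.smul_mul, Matrix.mul_smul, one_mul, mul_one]

theorem comm_central_left {G : Type*} [Group G] (z a b : G) (hz : ∀ g : G, g * z = z * g) :
    ⁅z * a, b⁆ = ⁅a, b⁆ := by
  rw [commutatorElement_def, commutatorElement_def, _root_.mul_inv_rev]
  have h1 : z * a * b * (a⁻¹ * z⁻¹) * b⁻¹ = z * (a * b * a⁻¹) * z⁻¹ * b⁻¹ := by group
  rw [h1, ← hz (a * b * a⁻¹), mul_inv_cancel_right]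

theorem comm_central_right {G : Type*} [Group G] (z a b : G) (hz : ∀ g : G, g * z = z * g) :
    ⁅a, z * b⁆ = ⁅a, b⁆ := by
  rw [commutatorElement_def, commutatorElement_def, _root_.mul_inv_rev, ← mul_assoc a z b, hz a]
  have h1 : z * a * b * a⁻¹ * (b⁻¹ * z⁻¹) = z * (a * b * a⁻¹ * b⁻¹) * z⁻¹ := by group
  rw [h1, ← hz (a * b * a⁻¹ * b⁻¹), mul_inv_cancel_right]

/-- B7core: the form-free part of the residual class conditions. -/
theorem B7core (H L : Subgroup (GL (Fin n) F)) (hLH : L ≤ H) (hN : Nrm H L)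
    (hLa : ActsAbsolutelyIrreducibly (matrixSet L)) (hc : ⁅L, L⁆ = L)
    (hs : IsSimpleGroup (L ⧸ (scalars (Fin n) F).subgroupOf L))
    (hna : ¬ IsMulCommutative (L ⧸ (scalars (Fin n) F).subgroupOf L))
    (hnosub : ∀ F₀ : Subfield F, F₀ ≠ ⊤ → ¬ RealisableOver F₀ (matrixSet L)) :
    IsResidualCore H L := by
  refine ⟨hLH, hN, hc, hs, hna, ?_, hLa, hnosub⟩
  intro h _ hh
  have hcomm : ⁅L, L⁆ ≤ Subgroup.centralizer ({h} : Set (GL (Fin n) F)) := by
    rw [Subgroup.commutator_le]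
    intro a ha b hb
    rw [Subgroup.mem_centralizer_iff]
    intro h' hh'
    rw [Set.mem_singleton_iff] at hh'
    subst hh'
    have hza := scalar_comm _ (hh a ha)
    have hzb := scalar_comm _ (hh b hb)
    have h1 : h' * ⁅a, b⁆ * h'⁻¹ = ⁅(h' * a * h'⁻¹ * a⁻¹) * a, (h' * b * h'⁻¹ * b⁻¹) * b⁆ := by
      rw [commutatorElement_def, commutatorElement_def]
      group
    rw [comm_central_left _ _ _ hza, comm_central_right _ _ _ hzb] at h1
    exact mul_inv_eq_iff_eq_mul.mp h1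
  rw [hc] at hcomm
  have hmat : ∀ s ∈ matrixSet L, h.1 * s = s * h.1 := by
    rintro _ ⟨x, hx, rfl⟩
    have h2 := (Subgroup.mem_centralizer_iff.mp (hcomm hx)) h rfl
    have h3 := congrArg Units.val h2
    rw [Units.val_mul, Units.val_mul] at h3
    exact h3
  obtain ⟨c, hc'⟩ := hLa.2 h.1 hmat
  rw [mem_scalars_iff]
  by_cases hc0 : c = 0
  · have h0 : h.1 = 0 := by rw [hc', hc0, zero_smul]
    have h1 : (1 : Matrix (Fin n) (Fin n) F) = 0 := by
      have h2 := h.mul_inv
      rw [h0, zero_mul] at h2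
      exact h2.symm
    refine ⟨1, ?_⟩
    rw [h0, Units.val_one, one_smul, h1]
  · exact ⟨Units.mk0 c hc0, hc'⟩

end Cfsg.Agent.Lib.Helper46.ASB7core
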