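import Cfsg.Agent.Lib.Helper98.O72Defs
import Cfsg.Agent.Lib.Helper98.O72Fix
import Cfsg.Agent.Lib.Helper96.SpTI
import Cfsg.Agent.Lib.Helper4.SpHalf

/-!
Project O72 (S5972), piece HALF (for helper98): symmetric twin of
`Cfsg.Agent.Lib.Helper4.SpHalf.exists_nd_half`.
-/

set_option autoImplicit false
set_option linter.unusedSectionVars false
set_option linter.unusedVariables false

namespace Cfsg.Agent.Lib.Helper98.O72

open Module Polynomial Cfsg.Agent.Lib.Helper96.Sp Cfsg.Agent.Lib.Helper96.BG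
open Cfsg.Agent.Lib.Helper4.SpHalf (pow_mem_of_map_le aeval_restrict_apply aeval_mem_of_map_le
  isom_pow adjoint_aeval aeval_pow_card_pow)

universe u v

variable {F : Type*} [Field F] [Fintype F] {V : Type*} [AddCommGroup V] [Module F V]
  [FiniteDimensional F V] {B : LinearMap.BilinForm F V}

/-- PIECE HALF. -/
theorem exists_nd_half (hS : B.IsSymm) (hchar2 : (2 : F) ≠ 0) (hN : ND B ⊤)
    (T : Module.End F V) (hT : Isom B T) (r : ℕ) [Fact r.Prime] (hr2 : r ≠ 2) (hTr : T ^ r = 1)
    (i : ℕ) (hi0 : 0 < i) (hdvd : r ∣ Fintype.card F ^ (i / 2) + 1)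
    (U U' P : Submodule F V) (hU : U.map T ≤ U) (hU' : U'.map T ≤ U')
    (hUi : finrank F U = i) (hU'i : finrank F U' = i) (hUU : Orth B U U) (hUU' : Orth B U' U')
    (hP : P = U ⊔ U') (hPnd : ND B P)
    (hirr : ∀ Z : Submodule F V, Z ≤ P → Z.map T ≤ Z → i ∣ finrank F Z)
    (hfix : ∀ v ∈ P, T v = v → v = 0) :
    ∃ Z : Submodule F V, Z ≤ P ∧ Z.map T ≤ Z ∧ ND B Z ∧ finrank F Z = i := by
  classical
  have hr : r.Prime := Fact.out
  set s := Fintype.card F ^ (i / 2) with hs
  have hs1 : 1 ≤ s := Nat.one_le_pow _ _ Fintype.card_pos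
  set S : Module.End F V := T ^ s with hSdef
  have hTS : T * S = 1 := by
    obtain ⟨k, hk⟩ := hdvd
    rw [hSdef, ← pow_succ', hk, pow_mul, hTr, one_pow]
  have hc : Commute T S := Commute.pow_right (Commute.refl T) s
  have hTSa : ∀ x : V, T (S x) = x := fun x => by
    rw [← Module.End.mul_apply, hTS, Module.End.one_apply]
  have hUP : U ≤ P := by rw [hP]; exact le_sup_left
  have hU'P : U' ≤ P := by rw [hP]; exact le_sup_right
  have hPinv : P.map T ≤ P := by
    rw [hP, Submodule.map_sup]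
    exact sup_le_sup hU hU'
  have hPT : ∀ x ∈ P, T x ∈ P := fun x hx => hPinv (Submodule.mem_map_of_mem hx)
  have hPS : ∀ x ∈ P, S x ∈ P := pow_mem_of_map_le T P hPinv s
  -- consequences of `hirr`
  have hsmall : ∀ Z : Submodule F V, Z ≤ P → Z.map T ≤ Z → finrank F Z < i → Z = ⊥ := by
    intro Z hZP hZ hlt
    have h0 : finrank F Z = 0 := Nat.eq_zero_of_dvd_of_lt (hirr Z hZP hZ) hlt
    exact Submodule.finrank_eq_zero.mp h0
  have hfull : ∀ Z : Submodule F V, Z ≤ P → Z.map T ≤ Z → Z ≠ ⊥ → finrank F Z ≤ i →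
      finrank F Z = i := by
    intro Z hZP hZ hne hle
    have hpos : 0 < finrank F Z := by
      rcases Nat.eq_zero_or_pos (finrank F Z) with h | h
      · exact absurd (Submodule.finrank_eq_zero.mp h) hne
      · exact h
    exact le_antisymm hle (Nat.le_of_dvd hpos (hirr Z hZP hZ))
  -- a nonzero vector of `U`
  have hUne : U ≠ ⊥ := by
    intro h
    rw [h, finrank_bot] at hUi
    omega
  obtain ⟨u₀, hu₀U, hu₀⟩ := (Submodule.ne_bot_iff U).mp hUne
  -- (1) the characteristic polynomial of `T` on `U`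
  have hUT : ∀ x ∈ U, T x ∈ U := fun x hx => hU (Submodule.mem_map_of_mem hx)
  set f : F[X] := (T.restrict hUT).charpoly with hf
  have hfmonic : f.Monic := LinearMap.charpoly_monic _
  have hfdeg : f.natDegree = i := by
    rw [hf, LinearMap.charpoly_natDegree, hUi]
  set A : Module.End F V := aeval T f with hAdef
  set A' : Module.End F V := aeval S f with hA'def
  have hAU : ∀ u ∈ U, A u = 0 := by
    intro u hu
    have h1 := aeval_restrict_apply T U hUT f ⟨u, hu⟩
    rw [hf, LinearMap.aeval_self_charpoly] at h1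
    rw [hAdef, hf, ← h1]
    rfl
  -- (2) Frobenius
  have hA's : A' = A ^ s := by
    rw [hA'def, hAdef, hSdef, hs]
    exact aeval_pow_card_pow T f (i / 2)
  have hA'U : ∀ u ∈ U, A' u = 0 := by
    intro u hu
    obtain ⟨s', hs'⟩ : ∃ s', s = s' + 1 := ⟨s - 1, by omega⟩
    rw [hA's, hs', pow_succ, Module.End.mul_apply, hAU u hu, map_zero]
  -- (3) adjoint
  have hadj : ∀ w u : V, B (A w) u = B w (A' u) := fun w u =>
    adjoint_aeval T S hT hTS hc f w u
  -- (4) `A` kills `U'`, hence `P`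
  have hAU' : ∀ u' ∈ U', A u' = 0 := by
    intro u' hu'
    have hy : A u' ∈ U' := aeval_mem_of_map_le T U' hU' f u' hu'
    apply hPnd (A u') (hU'P hy)
    intro v hv
    rw [hP] at hv
    obtain ⟨u, hu, u'', hu'', rfl⟩ := Submodule.mem_sup.mp hv
    rw [map_add, hadj u' u, hA'U u hu, map_zero, hUU' (A u') hy u'' hu'', add_zero]
  have hAP : ∀ v ∈ P, A v = 0 := by
    intro v hv
    rw [hP] at hv
    obtain ⟨u, hu, u'', hu'', rfl⟩ := Submodule.mem_sup.mp hv
    rw [map_add, hAU u hu, hAU' u'' hu'', add_zero]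
  -- (5) an anisotropic vector
  have hex : ∃ v ∈ P, B v v ≠ 0 := by
    by_contra hcon
    push Not at hcon
    apply hu₀
    apply hPnd u₀ (hUP hu₀U)
    intro w hw
    have h1 := hcon (u₀ + w) (P.add_mem (hUP hu₀U) hw)
    simp only [map_add, LinearMap.add_apply] at h1
    rw [hcon u₀ (hUP hu₀U), hcon w hw, sym_swap hS hchar2 w u₀] at h1
    have h2 : (2 : F) * B u₀ w = 0 := by linear_combination h1
    exact (mul_eq_zero.mp h2).resolve_left hchar2
  obtain ⟨v, hvP, hv⟩ := hex
  have hv0 : v ≠ 0 := by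
    rintro rfl
    exact hv (map_zero (B 0))
  -- (6) the cyclic subspace
  set Z : Submodule F V := Submodule.span F (Set.range (fun j : Fin i => (T ^ (j : ℕ)) v)) with hZ
  have hgen : ∀ j : ℕ, j < i → (T ^ j) v ∈ Z := fun j hj =>
    Submodule.subset_span ⟨⟨j, hj⟩, rfl⟩
  have hvZ : v ∈ Z := by
    have := hgen 0 hi0
    rwa [pow_zero, Module.End.one_apply] at this
  have htop : (T ^ i) v ∈ Z := by
    have h1 := hAP v hvP
    rw [hAdef, aeval_eq_sum_range, hfdeg, Finset.sum_range_succ, LinearMap.add_apply,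
      LinearMap.sum_apply] at h1
    have h2 : f.coeff i = 1 := by
      rw [← hfdeg]; exact hfmonic.coeff_natDegree
    rw [h2, one_smul] at h1
    have h3 : (T ^ i) v = - ∑ j ∈ Finset.range i, (f.coeff j • T ^ j) v :=
      eq_neg_of_add_eq_zero_right h1
    rw [h3]
    apply Z.neg_mem
    apply Z.sum_mem
    intro j hj
    rw [LinearMap.smul_apply]
    exact Z.smul_mem _ (hgen j (Finset.mem_range.mp hj))
  have hZinv : Z.map T ≤ Z := by
    rw [hZ, Submodule.map_span_le]
    rintro _ ⟨j, rfl⟩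
    show T ((T ^ (j : ℕ)) v) ∈ Z
    rw [← Module.End.mul_apply, ← pow_succ']
    by_cases hj : (j : ℕ) + 1 < i
    · exact hgen _ hj
    · have : (j : ℕ) + 1 = i := by have := j.2; omega
      rw [this]
      exact htop
  have hZP : Z ≤ P := by
    rw [hZ, Submodule.span_le]
    rintro _ ⟨j, rfl⟩
    exact pow_mem_of_map_le T P hPinv _ v hvP
  have hZne : Z ≠ ⊥ := by
    intro h
    rw [h, Submodule.mem_bot] at hvZ
    exact hv0 hvZ
  have hZle : finrank F Z ≤ i := by
    have h1 := finrank_range_le_card (R := F) (fun j : Fin i => (T ^ (j : ℕ)) v)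
    rw [Fintype.card_fin] at h1
    exact h1
  have hZi : finrank F Z = i := hfull Z hZP hZinv hZne hZle
  have hTvZ : T v ∈ Z := hZinv (Submodule.mem_map_of_mem hvZ)
  -- (7) nondegeneracy
  set R : Submodule F V := Z ⊓ B.orthogonal Z with hR
  have hRinv : R.map T ≤ R := by
    rw [hR]
    exact (Submodule.map_inf_le T).trans (inf_le_inf hZinv (perp_invariant hN hT hZinv))
  have hRZ : R ≤ Z := inf_le_left
  have hRne : R ≠ Z := by
    intro h
    have h1 : v ∈ R := by rw [h]; exact hvZ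
    have h2 : v ∈ B.orthogonal Z := h1.2
    have h3 := (mem_perp_iff' hS hchar2).mp h2 v hvZ
    exact hv h3
  have hRlt : finrank F R < i := by
    rw [← hZi]
    exact Submodule.finrank_lt_finrank_of_lt (lt_of_le_of_ne hRZ hRne)
  have hR0 : R = ⊥ := hsmall R (hRZ.trans hZP) hRinv hRlt
  exact ⟨Z, hZP, hZinv, nd_of_inf_perp hS hchar2 hR0, hZi⟩

end Cfsg.Agent.Lib.Helper98.O72
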