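import Mathlib
import Cfsg.Prelude.Def_GeometricClasses
import Cfsg.Prelude.Def_LieClassical
import Cfsg.Agent.Lib.Helper7.GUOrder
import Cfsg.Agent.Lib.Helper7.HermCount
import Cfsg.Agent.Lib.Helper50.SubfMax
import Cfsg.Agent.Lib.Helper53.SUCent
import Cfsg.Agent.Lib.Helper19.ASUFS

/-!
# Project SUP (helper71), piece U8c (helper46)

For the subfield of index 2 and odd `n` the hermitian form itself is rational on a rational
structure of an absolutely irreducible subgroup of `GU`, and `q` is odd.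
-/

set_option autoImplicit false

namespace Cfsg.Agent.Lib.Helper46.SUPU8c

open Matrix Cfsg.Geo

variable {n : ℕ} {F : Type*} [Field F] [Fintype F] {q : ℕ}

/-- the ring homomorphism `x ↦ x ^ q` -/
def U8c_sig (hF : Fintype.card F = q ^ 2) : F →+* F where
  toFun x := x ^ q
  map_one' := one_pow q
  map_mul' x y := mul_pow x y q
  map_zero' := zero_pow (Cfsg.Agent.Lib.Helper7.herm_q_ne_zero hF)
  map_add' x y := Cfsg.Agent.Lib.Helper7.herm_add_pow hF x y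

theorem U8c_sig_apply (hF : Fintype.card F = q ^ 2) (x : F) : U8c_sig hF x = x ^ q := rfl

/-- the Gram matrix of the columns of `C` -/
theorem U8c_gram (hF : Fintype.card F = q ^ 2) (C : Matrix (Fin n) (Fin n) F) (i j : Fin n) :
    (Cᵀ * C.map (U8c_sig hF)) i j =
      Cfsg.hermForm n F q (C *ᵥ Pi.single i 1) (C *ᵥ Pi.single j 1) := by
  rw [Matrix.mulVec_single_one, Matrix.mulVec_single_one]
  simp only [Cfsg.hermForm, Matrix.mul_apply, Matrix.transpose_apply, Matrix.map_apply,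
    U8c_sig_apply, Matrix.col_apply]

/-- the Gram matrix is invariant under the rational conjugates of unitary matrices -/
theorem U8c_inv (hF : Fintype.card F = q ^ 2) (B x : GL (Fin n) F) (hx : x ∈ Cfsg.GU n F q)
    (C : Matrix (Fin n) (Fin n) F) (hC : C = (B⁻¹ : GL (Fin n) F).1)
    (hy : (B.1 * x.1 * C).map (U8c_sig hF) = B.1 * x.1 * C) :
    (B.1 * x.1 * C)ᵀ * (Cᵀ * C.map (U8c_sig hF)) * (B.1 * x.1 * C) =
      Cᵀ * C.map (U8c_sig hF) := by
  have hxu : x.1ᵀ * x.1.map (U8c_sig hF) = 1 :=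
    (Cfsg.Agent.Lib.Helper53.AutPSU.mem_GU_mat hF x).mp hx
  have hCB : C * B.1 = 1 := by
    rw [hC, ← Units.val_mul, inv_mul_cancel, Units.val_one]
  have hCy : C * (B.1 * x.1 * C) = x.1 * C := by
    rw [← Matrix.mul_assoc, ← Matrix.mul_assoc, hCB, Matrix.one_mul]
  calc (B.1 * x.1 * C)ᵀ * (Cᵀ * C.map (U8c_sig hF)) * (B.1 * x.1 * C)
      = (C * (B.1 * x.1 * C))ᵀ * (C * (B.1 * x.1 * C)).map (U8c_sig hF) := by
        rw [Matrix.transpose_mul C, Matrix.map_mul, hy]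
        simp only [Matrix.mul_assoc]
    _ = (x.1 * C)ᵀ * (x.1 * C).map (U8c_sig hF) := by rw [hCy]
    _ = Cᵀ * (x.1ᵀ * x.1.map (U8c_sig hF)) * C.map (U8c_sig hF) := by
        rw [Matrix.transpose_mul, Matrix.map_mul]
        simp only [Matrix.mul_assoc]
    _ = Cᵀ * C.map (U8c_sig hF) := by rw [hxu, Matrix.mul_one]

omit [Fintype F] in
theorem U8c_symm (Δ : Matrix (Fin n) (Fin n) F) (hs : Δᵀ = Δ) (u v : Fin n → F) :
    u ⬝ᵥ (Δ *ᵥ v) = v ⬝ᵥ (Δ *ᵥ u) := by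
  rw [Matrix.dotProduct_mulVec, ← Matrix.mulVec_transpose, hs, dotProduct_comm]

omit [Fintype F] in
theorem U8c_conj (Δ y : Matrix (Fin n) (Fin n) F) (h : yᵀ * Δ * y = Δ) (u : Fin n → F) :
    (y *ᵥ u) ⬝ᵥ (Δ *ᵥ (y *ᵥ u)) = u ⬝ᵥ (Δ *ᵥ u) := by
  have h1 : u ⬝ᵥ (Δ *ᵥ u) = u ⬝ᵥ ((yᵀ * Δ * y) *ᵥ u) := by rw [h]
  rw [h1, ← Matrix.mulVec_mulVec, ← Matrix.mulVec_mulVec, Matrix.dotProduct_mulVec u yᵀ,
    Matrix.vecMul_transpose]

omit [Fintype F] in
theorem U8c_nondeg (Δ : Matrix (Fin n) (Fin n) F) (hdet : Δ.det ≠ 0) (v : Fin n → F)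
    (hv : v ≠ 0) : ∃ x : Fin n → F, x ⬝ᵥ (Δ *ᵥ v) ≠ 0 := by
  classical
  have h1 : Δ *ᵥ v ≠ 0 := fun h => hv (Matrix.eq_zero_of_mulVec_eq_zero hdet h)
  obtain ⟨i, hi⟩ := Function.ne_iff.mp h1
  refine ⟨Pi.single i 1, ?_⟩
  rw [single_one_dotProduct]
  exact hi

/-- U8c: for the subfield of index 2 and odd `n` the form itself is rational, and `q` is odd. -/
theorem U8c (hF : Fintype.card F = q ^ 2) (hodd : Odd n) (hn : 2 ≤ n)
    (L : Subgroup (GL (Fin n) F)) (hL : L ≤ Cfsg.GU n F q)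
    (hLa : ActsAbsolutelyIrreducibly (matrixSet L)) (F₁ : Subfield F)
    (hcard : Fintype.card F = Nat.card F₁ ^ 2) (B : GL (Fin n) F)
    (hB : ∀ s ∈ matrixSet L, ∀ i j, (B.1 * s * (B⁻¹ : GL (Fin n) F).1) i j ∈ F₁)
    (ζ : F) (hζ : ζ ≠ 0)
    (hrat : IsFormRationalStructure (Cfsg.hermForm n F q) F₁ ζ B⁻¹) :
    IsFormRationalStructure (Cfsg.hermForm n F q) F₁ 1 B⁻¹ ∧ Odd q := by
  classical
  have hq0 : q ≠ 0 := Cfsg.Agent.Lib.Helper7.herm_q_ne_zero hF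
  have hcq : Nat.card F₁ = q := by
    have h : Nat.card F₁ ^ 2 = q ^ 2 := by rw [← hcard, hF]
    exact Nat.pow_left_injective (by norm_num : (2 : ℕ) ≠ 0) h
  have hfix : ∀ a ∈ F₁, a ^ q = a := by
    intro a ha
    have h := Cfsg.Agent.Lib.Helper50.pow_card_of_mem F₁ ha
    rwa [hcq] at h
  have hfix' : ∀ a : F, a ^ q = a → a ∈ F₁ := by
    intro a ha
    apply Cfsg.Agent.Lib.Helper50.mem_of_pow_card_eq F₁ a
    rwa [hcq]
  obtain ⟨C, hC⟩ : ∃ C : Matrix (Fin n) (Fin n) F, C = (B⁻¹ : GL (Fin n) F).1 := ⟨_, rfl⟩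
  obtain ⟨Γ, hΓ⟩ : ∃ Γ : Matrix (Fin n) (Fin n) F, Γ = Cᵀ * C.map (U8c_sig hF) := ⟨_, rfl⟩
  obtain ⟨Δ, hΔ⟩ : ∃ Δ : Matrix (Fin n) (Fin n) F, Δ = ζ • Γ := ⟨_, rfl⟩
  have hmem_single : ∀ k : Fin n, ∀ l, (Pi.single k (1 : F) : Fin n → F) l ∈ F₁ := by
    intro k l
    by_cases h : l = k
    · subst h
      rw [Pi.single_eq_same]
      exact F₁.one_mem
    · rw [Pi.single_eq_of_ne h]
      exact F₁.zero_mem
  have hΓf : ∀ i j, Γ i j =
      Cfsg.hermForm n F q (C *ᵥ Pi.single i 1) (C *ᵥ Pi.single j 1) := by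
    intro i j
    rw [hΓ]
    exact U8c_gram hF C i j
  have hΔmem : ∀ i j, Δ i j ∈ F₁ := by
    intro i j
    rw [hΔ, Matrix.smul_apply, smul_eq_mul, hΓf, hC]
    exact hrat _ _ (hmem_single i) (hmem_single j)
  have hΓconj : ∀ i j, Γ j i = Γ i j ^ q := by
    intro i j
    rw [hΓf, hΓf]
    exact Cfsg.Agent.Lib.Helper7.hf_conj hF n _ _
  obtain ⟨ε, hε⟩ : ∃ ε : F, ε = ζ / ζ ^ q := ⟨_, rfl⟩
  have hζq : ζ ^ q ≠ 0 := pow_ne_zero q hζ
  have hΔsymm : ∀ i j, Δ j i = ε * Δ i j := by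
    intro i j
    have h1 : Δ i j ^ q = Δ i j := hfix _ (hΔmem i j)
    have h2 : Δ i j = ζ * Γ i j := by rw [hΔ, Matrix.smul_apply, smul_eq_mul]
    have h3 : Δ j i = ζ * Γ i j ^ q := by rw [hΔ, Matrix.smul_apply, smul_eq_mul, hΓconj]
    rw [h2, mul_pow] at h1
    rw [h3, h2, hε, ← h1]
    field_simp
  have hCdet : C.det ≠ 0 := by
    rw [hC]
    exact ((Matrix.isUnit_iff_isUnit_det _).mp (B⁻¹ : GL (Fin n) F).isUnit).ne_zero
  have hΓdet : Γ.det ≠ 0 := by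
    rw [hΓ, Matrix.det_mul, Matrix.det_transpose]
    have h2 : (C.map (U8c_sig hF)).det = U8c_sig hF C.det := by
      rw [RingHom.map_det]
      rfl
    rw [h2]
    exact mul_ne_zero hCdet ((map_ne_zero (U8c_sig hF)).mpr hCdet)
  have hΔdet : Δ.det ≠ 0 := by
    rw [hΔ, Matrix.det_smul]
    exact mul_ne_zero (pow_ne_zero _ hζ) hΓdet
  have hne : ∃ i j, Δ i j ≠ 0 := by
    by_contra hcon
    push Not at hcon
    apply hΔdet
    have h0 : Δ = 0 := by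
      ext i j
      exact hcon i j
    rw [h0]
    haveI : Nonempty (Fin n) := ⟨⟨0, by omega⟩⟩
    exact Matrix.det_zero
  obtain ⟨i₀, j₀, hij⟩ := hne
  have hε2 : ε * ε = 1 := by
    have h1 := hΔsymm i₀ j₀
    have h2 := hΔsymm j₀ i₀
    rw [h1] at h2
    have h3 : (ε * ε - 1) * Δ i₀ j₀ = 0 := by linear_combination -h2
    rcases mul_eq_zero.mp h3 with h | h
    · linear_combination h
    · exact absurd h hij
  have hε1 : ε = 1 := by
    by_contra hne1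
    have hεm : ε = -1 := by
      have h : (ε - 1) * (ε + 1) = 0 := by linear_combination hε2
      rcases mul_eq_zero.mp h with h | h
      · exact absurd (sub_eq_zero.mp h) hne1
      · linear_combination h
    have hT : Δᵀ = -Δ := by
      ext i j
      rw [Matrix.transpose_apply, Matrix.neg_apply, hΔsymm i j, hεm]
      ring
    have hd : Δ.det = -Δ.det := by
      have h1 : Δᵀ.det = (-Δ).det := by rw [hT]
      rw [Matrix.det_transpose, Matrix.det_neg, Fintype.card_fin, hodd.neg_one_pow] at h1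
      linear_combination h1
    have h2 : (2 : F) * Δ.det = 0 := by linear_combination hd
    rcases mul_eq_zero.mp h2 with h | h
    · apply hne1
      rw [hεm]
      linear_combination (-1 : F) * h
    · exact hΔdet h
  have hζfix : ζ ^ q = ζ := by
    have h : ζ / ζ ^ q = 1 := by
      rw [← hε]
      exact hε1
    exact ((div_eq_one_iff_eq hζq).mp h).symm
  have hζmem : ζ ∈ F₁ := hfix' ζ hζfix
  refine ⟨?_, ?_⟩
  · intro u v hu hv
    have h := hrat u v hu hv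
    have e : (1 : F) * Cfsg.hermForm n F q ((B⁻¹ : GL (Fin n) F).1 *ᵥ u)
        ((B⁻¹ : GL (Fin n) F).1 *ᵥ v) =
        ζ⁻¹ * (ζ * Cfsg.hermForm n F q ((B⁻¹ : GL (Fin n) F).1 *ᵥ u)
          ((B⁻¹ : GL (Fin n) F).1 *ᵥ v)) := by
      rw [one_mul, ← mul_assoc, inv_mul_cancel₀ hζ, one_mul]
    rw [e]
    exact F₁.mul_mem (F₁.inv_mem hζmem) h
  · by_contra hodd_q
    have heven : Even q := Nat.not_odd_iff_even.mp hodd_q
    have hc : ringChar F = 2 := by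
      rw [FiniteField.even_card_iff_char_two, hF]
      exact Nat.even_iff.mp (Nat.even_pow.mpr ⟨heven, by norm_num⟩)
    have h2 : (2 : F) = 0 := by
      haveI : CharP F 2 := ringChar.of_eq hc
      exact CharTwo.two_eq_zero
    have hsym : Δᵀ = Δ := by
      ext i j
      rw [Matrix.transpose_apply, hΔsymm i j, hε1, one_mul]
    have hbs : ∀ u v : Fin n → F, u ⬝ᵥ (Δ *ᵥ v) = v ⬝ᵥ (Δ *ᵥ u) :=
      fun u v => U8c_symm Δ hsym u v
    have hQadd : ∀ u v : Fin n → F,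
        (u + v) ⬝ᵥ (Δ *ᵥ (u + v)) = u ⬝ᵥ (Δ *ᵥ u) + v ⬝ᵥ (Δ *ᵥ v) := by
      intro u v
      rw [Matrix.mulVec_add, add_dotProduct, dotProduct_add, dotProduct_add, hbs v u]
      linear_combination (u ⬝ᵥ Δ *ᵥ v) * h2
    have hQsmul : ∀ (c : F) (u : Fin n → F),
        (c • u) ⬝ᵥ (Δ *ᵥ (c • u)) = c ^ 2 * (u ⬝ᵥ (Δ *ᵥ u)) := by
      intro c u
      rw [Matrix.mulVec_smul, smul_dotProduct, dotProduct_smul, smul_eq_mul, smul_eq_mul]
      ring
    have hinv : ∀ x ∈ L, ∀ u : Fin n → F,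
        ((B.1 * x.1 * C) *ᵥ u) ⬝ᵥ (Δ *ᵥ ((B.1 * x.1 * C) *ᵥ u)) = u ⬝ᵥ (Δ *ᵥ u) := by
      intro x hx u
      apply U8c_conj
      have hy : (B.1 * x.1 * C).map (U8c_sig hF) = B.1 * x.1 * C := by
        ext i j
        rw [Matrix.map_apply, U8c_sig_apply]
        apply hfix
        rw [hC]
        exact hB x.1 ⟨x, hx, rfl⟩ i j
      have h := U8c_inv hF B x (hL hx) C hC hy
      rw [← hΓ] at h
      rw [hΔ, Matrix.mul_smul, Matrix.smul_mul, h]
    have hCB : C * B.1 = 1 := by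
      rw [hC, ← Units.val_mul, inv_mul_cancel, Units.val_one]
    have hBC : B.1 * C = 1 := by
      rw [hC, ← Units.val_mul, mul_inv_cancel, Units.val_one]
    obtain ⟨W, hW⟩ : ∃ W : Submodule F (Fin n → F),
        ∀ w, w ∈ W ↔ (B.1 *ᵥ w) ⬝ᵥ (Δ *ᵥ (B.1 *ᵥ w)) = 0 :=
      ⟨{ carrier := {w | (B.1 *ᵥ w) ⬝ᵥ (Δ *ᵥ (B.1 *ᵥ w)) = 0}
         add_mem' := by
          intro a b ha hb
          have ha' : (B.1 *ᵥ a) ⬝ᵥ (Δ *ᵥ (B.1 *ᵥ a)) = 0 := ha
          have hb' : (B.1 *ᵥ b) ⬝ᵥ (Δ *ᵥ (B.1 *ᵥ b)) = 0 := hb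
          show (B.1 *ᵥ (a + b)) ⬝ᵥ (Δ *ᵥ (B.1 *ᵥ (a + b))) = 0
          rw [Matrix.mulVec_add, hQadd, ha', hb', add_zero]
         zero_mem' := by
          show (B.1 *ᵥ (0 : Fin n → F)) ⬝ᵥ (Δ *ᵥ (B.1 *ᵥ (0 : Fin n → F))) = 0
          rw [Matrix.mulVec_zero, zero_dotProduct]
         smul_mem' := by
          intro c a ha
          have ha' : (B.1 *ᵥ a) ⬝ᵥ (Δ *ᵥ (B.1 *ᵥ a)) = 0 := ha
          show (B.1 *ᵥ (c • a)) ⬝ᵥ (Δ *ᵥ (B.1 *ᵥ (c • a))) = 0
          rw [Matrix.mulVec_smul, hQsmul, ha', mul_zero] }, fun w => Iff.rfl⟩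
    have hWinv : ∀ s ∈ matrixSet L, W.map (Matrix.toLin' s) ≤ W := by
      rintro s ⟨x, hx, rfl⟩ _ ⟨w, hw, rfl⟩
      have hw' : (B.1 *ᵥ w) ⬝ᵥ (Δ *ᵥ (B.1 *ᵥ w)) = 0 := (hW w).mp hw
      rw [hW, Matrix.toLin'_apply]
      have e : B.1 *ᵥ (x.1 *ᵥ w) = (B.1 * x.1 * C) *ᵥ (B.1 *ᵥ w) := by
        rw [Matrix.mulVec_mulVec, Matrix.mulVec_mulVec, Matrix.mul_assoc (B.1 * x.1), hCB,
          Matrix.mul_one]
      rw [e, hinv x hx, hw']
    have hQe : ∀ i : Fin n,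
        (Pi.single i (1 : F) : Fin n → F) ⬝ᵥ (Δ *ᵥ Pi.single i 1) = Δ i i := by
      intro i
      rw [Matrix.mulVec_single_one, single_one_dotProduct]
      rfl
    rcases hLa.1 W hWinv with hbot | htop
    · -- `W = ⊥`: a non-zero singular vector gives a contradiction
      obtain ⟨i0, i1, h01⟩ : ∃ i0 i1 : Fin n, i0 ≠ i1 :=
        ⟨⟨0, by omega⟩, ⟨1, by omega⟩, by simp [Fin.ext_iff]⟩
      have hv : ∃ v : Fin n → F, v ≠ 0 ∧ v ⬝ᵥ (Δ *ᵥ v) = 0 := by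
        by_cases h00 : Δ i0 i0 = 0
        · refine ⟨Pi.single i0 1, ?_, ?_⟩
          · intro h
            have h' := congrFun h i0
            rw [Pi.single_eq_same] at h'
            exact one_ne_zero h'
          · rw [hQe, h00]
        · obtain ⟨a, ha⟩ := FiniteField.isSquare_of_char_two hc (Δ i1 i1 / Δ i0 i0)
          refine ⟨a • Pi.single i0 1 + Pi.single i1 1, ?_, ?_⟩
          · intro h
            have h' := congrFun h i1
            simp [Pi.single_apply, h01, Ne.symm h01] at h'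
          · rw [hQadd, hQsmul, hQe, hQe]
            have h3 : a ^ 2 * Δ i0 i0 = Δ i1 i1 := by
              rw [pow_two, ← ha]
              field_simp
            rw [h3]
            linear_combination Δ i1 i1 * h2
      obtain ⟨v, hv0, hQv⟩ := hv
      have hBCv : B.1 *ᵥ (C *ᵥ v) = v := by
        rw [Matrix.mulVec_mulVec, hBC, Matrix.one_mulVec]
      have hw : C *ᵥ v ∈ W := by
        rw [hW, hBCv]
        exact hQv
      rw [hbot, Submodule.mem_bot] at hw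
      apply hv0
      rw [← hBCv, hw, Matrix.mulVec_zero]
    · -- `W = ⊤`: the form is symplectic, so `n` is even
      have hQ0 : ∀ v : Fin n → F, v ⬝ᵥ (Δ *ᵥ v) = 0 := by
        intro v
        have hBCv : B.1 *ᵥ (C *ᵥ v) = v := by
          rw [Matrix.mulVec_mulVec, hBC, Matrix.one_mulVec]
        have hw : C *ᵥ v ∈ W := by
          rw [htop]
          trivial
        rw [hW, hBCv] at hw
        exact hw
      have hsymp : IsSymplecticForm (fun u v : Fin n → F => u ⬝ᵥ (Δ *ᵥ v)) := by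
        refine ⟨⟨?_, ?_, ?_, ?_⟩, ?_, ?_, ?_⟩
        · intro x y v
          exact add_dotProduct x y _
        · intro c x v
          show (c • x) ⬝ᵥ (Δ *ᵥ v) = c * (x ⬝ᵥ (Δ *ᵥ v))
          rw [smul_dotProduct, smul_eq_mul]
        · intro v x y
          show v ⬝ᵥ (Δ *ᵥ (x + y)) = v ⬝ᵥ (Δ *ᵥ x) + v ⬝ᵥ (Δ *ᵥ y)
          rw [Matrix.mulVec_add, dotProduct_add]
        · intro c v x
          show v ⬝ᵥ (Δ *ᵥ (c • x)) = c * (v ⬝ᵥ (Δ *ᵥ x))
          rw [Matrix.mulVec_smul, dotProduct_smul, smul_eq_mul]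
        · intro v w
          show v ⬝ᵥ (Δ *ᵥ w) = -(w ⬝ᵥ (Δ *ᵥ v))
          rw [hbs v w]
          linear_combination (w ⬝ᵥ Δ *ᵥ v) * h2
        · intro v
          exact hQ0 v
        · intro v hv
          obtain ⟨x, hx⟩ := U8c_nondeg Δ hΔdet v hv
          refine ⟨⟨x, hx⟩, ⟨x, ?_⟩⟩
          show v ⬝ᵥ (Δ *ᵥ x) ≠ 0
          rw [hbs v x]
          exact hx
      have hev := Cfsg.Agent.Lib.Helper19.ASUFS.even_of_symplectic _ hsymp
      exact (Nat.not_even_iff_odd.mpr hodd) hev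

end Cfsg.Agent.Lib.Helper46.SUPU8c
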