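import Cfsg.Agent.Lib.Helper98.O72Defs
import Cfsg.Agent.Lib.Helper98.O72Fix
import Cfsg.Agent.Lib.Helper96.SpTI

/-!
Project O72 (S5972), piece TISUB (for helper98): singular vectors and totally isotropic
subspaces of nondegenerate symmetric spaces over finite fields of odd characteristic.
-/

set_option autoImplicit false
set_option linter.unusedSectionVars false
set_option linter.unusedVariables false

namespace Cfsg.Agent.Lib.Helper98.O72

open Module Polynomial Cfsg.Agent.Lib.Helper96.Sp Cfsg.Agent.Lib.Helper96.BG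

universe u v

variable {F : Type*} [Field F] [Fintype F] {V : Type*} [AddCommGroup V] [Module F V]
  [FiniteDimensional F V] {B : LinearMap.BilinForm F V}

/-- a nonzero nondegenerate space has an anisotropic vector -/
theorem tisub_aniso (hS : B.IsSymm) (hchar2 : (2 : F) ≠ 0) {K : Submodule F V} (hK : ND B K)
    (hK0 : K ≠ ⊥) : ∃ e ∈ K, B e e ≠ 0 := by
  by_contra hcon
  push Not at hcon
  obtain ⟨v, hv, hv0⟩ := (Submodule.ne_bot_iff _).mp hK0
  apply hv0
  apply hK v hv
  intro u hu
  have h1 := hcon (v + u) (K.add_mem hv hu)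
  simp only [map_add, LinearMap.add_apply] at h1
  rw [hcon v hv, hcon u hu, sym_swap hS hchar2 u v] at h1
  have h2 : (2 : F) * B v u = 0 := by linear_combination h1
  exact (mul_eq_zero.mp h2).resolve_left hchar2

/-- splitting off an anisotropic line -/
theorem tisub_line (hS : B.IsSymm) (hchar2 : (2 : F) ≠ 0) {K : Submodule F V} (hK : ND B K)
    {e : V} (he : e ∈ K) (hee : B e e ≠ 0) :
    ∃ K' : Submodule F V, K' ≤ K ∧ ND B K' ∧ finrank F K' + 1 = finrank F K ∧
      ∀ x ∈ K', B e x = 0 := by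
  have hL : ND B (Submodule.span F {e}) := by
    intro u hu h
    obtain ⟨c, rfl⟩ := Submodule.mem_span_singleton.mp hu
    have h1 := h e (Submodule.mem_span_singleton_self e)
    rw [map_smul, LinearMap.smul_apply, smul_eq_mul] at h1
    rw [(mul_eq_zero.mp h1).resolve_right hee, zero_smul]
  have hLK : Submodule.span F {e} ≤ K := (Submodule.span_singleton_le_iff_mem e K).mpr he
  obtain ⟨h1, h2, h3⟩ := nd_rel hS hchar2 hL hK hLK
  have he0 : e ≠ 0 := by
    rintro rfl
    exact hee (map_zero (B 0))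
  rw [finrank_span_singleton he0] at h3
  refine ⟨K ⊓ B.orthogonal (Submodule.span F {e}), inf_le_left, h1, by omega, ?_⟩
  intro x hx
  exact (mem_perp_iff.mp hx.2) e (Submodule.mem_span_singleton_self e)

/-- splitting off a hyperbolic plane through a singular vector -/
theorem tisub_plane (hS : B.IsSymm) (hchar2 : (2 : F) ≠ 0) {K : Submodule F V} (hK : ND B K)
    {v : V} (hv : v ∈ K) (hv0 : v ≠ 0) (hvv : B v v = 0) :
    ∃ K' : Submodule F V, K' ≤ K ∧ ND B K' ∧ finrank F K' + 2 = finrank F K ∧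
      (∀ x ∈ K', B v x = 0) ∧ ∀ c : F, c • v ∈ K' → c = 0 := by
  obtain ⟨w, hw, hvw⟩ : ∃ w ∈ K, B v w ≠ 0 := by
    by_contra hcon
    push Not at hcon
    exact hv0 (hK v hv hcon)
  have hwv : B w v ≠ 0 := by
    rw [sym_swap hS hchar2]
    exact hvw
  have hli : LinearIndependent F ![v, w] := by
    rw [LinearIndependent.pair_iff]
    intro s t hst
    have h2 : B v (s • v + t • w) = 0 := by rw [hst, map_zero]
    rw [map_add, map_smul, map_smul, hvv, smul_zero, zero_add, smul_eq_mul] at h2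
    have ht : t = 0 := (mul_eq_zero.mp h2).resolve_right hvw
    have h1 : B (s • v + t • w) w = 0 := by rw [hst, map_zero, LinearMap.zero_apply]
    rw [ht, zero_smul, add_zero, map_smul, LinearMap.smul_apply, smul_eq_mul] at h1
    exact ⟨(mul_eq_zero.mp h1).resolve_right hvw, ht⟩
  have hvP : v ∈ Submodule.span F (Set.range ![v, w]) := Submodule.subset_span ⟨0, rfl⟩
  have hwP : w ∈ Submodule.span F (Set.range ![v, w]) := Submodule.subset_span ⟨1, rfl⟩
  have hH : ND B (Submodule.span F (Set.range ![v, w])) := by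
    intro u hu h
    obtain ⟨cf, hcf⟩ := (Submodule.mem_span_range_iff_exists_fun F).mp hu
    rw [Fin.sum_univ_two] at hcf
    obtain ⟨α, β, rfl⟩ : ∃ α β : F, α • v + β • w = u := ⟨cf 0, cf 1, hcf⟩
    have h1 := h v hvP
    rw [map_add, LinearMap.add_apply, map_smul, map_smul, LinearMap.smul_apply,
      LinearMap.smul_apply, hvv, smul_zero, zero_add, smul_eq_mul] at h1
    have hβ : β = 0 := (mul_eq_zero.mp h1).resolve_right hwv
    have h2 := h w hwP
    rw [hβ, zero_smul, add_zero, map_smul, LinearMap.smul_apply, smul_eq_mul] at h2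
    rw [(mul_eq_zero.mp h2).resolve_right hvw, hβ, zero_smul, zero_smul, add_zero]
  have hHK : Submodule.span F (Set.range ![v, w]) ≤ K := by
    rw [Submodule.span_le]
    rintro _ ⟨k, rfl⟩
    fin_cases k
    · exact hv
    · exact hw
  have hfin : finrank F (Submodule.span F (Set.range ![v, w])) = 2 := by
    rw [finrank_span_eq_card hli]
    simp
  obtain ⟨h1, h2, h3⟩ := nd_rel hS hchar2 hH hK hHK
  rw [hfin] at h3
  refine ⟨K ⊓ B.orthogonal (Submodule.span F (Set.range ![v, w])), inf_le_left, h1, by omega,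
    ?_, ?_⟩
  · intro x hx
    exact (mem_perp_iff.mp hx.2) v hvP
  · intro c hc
    have h4 := (mem_perp_iff.mp hc.2) w hwP
    rw [map_smul, smul_eq_mul] at h4
    exact (mul_eq_zero.mp h4).resolve_right hwv

/-- PIECE TISUB (first half). -/
theorem exists_singular (hS : B.IsSymm) (hchar2 : (2 : F) ≠ 0) {K : Submodule F V}
    (hK : ND B K) (h3 : 3 ≤ finrank F K) : ∃ v ∈ K, v ≠ 0 ∧ B v v = 0 := by
  classical
  have hK0 : K ≠ ⊥ := by
    rintro rfl
    rw [finrank_bot] at h3
    omega
  obtain ⟨e1, he1, ha1⟩ := tisub_aniso hS hchar2 hK hK0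
  obtain ⟨K1, hK1K, hK1, hf1, ho1⟩ := tisub_line hS hchar2 hK he1 ha1
  have hK10 : K1 ≠ ⊥ := by
    rintro rfl
    rw [finrank_bot] at hf1
    omega
  obtain ⟨e2, he2, ha2⟩ := tisub_aniso hS hchar2 hK1 hK10
  obtain ⟨K2, hK2K1, hK2, hf2, ho2⟩ := tisub_line hS hchar2 hK1 he2 ha2
  have hK20 : K2 ≠ ⊥ := by
    rintro rfl
    rw [finrank_bot] at hf2
    omega
  obtain ⟨e3, he3, ha3⟩ := tisub_aniso hS hchar2 hK2 hK20
  have h12 : B e1 e2 = 0 := ho1 e2 he2
  have h13 : B e1 e3 = 0 := ho1 e3 (hK2K1 he3)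
  have h23 : B e2 e3 = 0 := ho2 e3 he3
  have h21 : B e2 e1 = 0 := by rw [sym_swap hS hchar2]; exact h12
  have h31 : B e3 e1 = 0 := by rw [sym_swap hS hchar2]; exact h13
  have h32 : B e3 e2 = 0 := by rw [sym_swap hS hchar2]; exact h23
  have hodd : Fintype.card F % 2 = 1 := by
    apply FiniteField.odd_card_of_char_ne_two
    intro h2
    apply hchar2
    have h4 := CharP.cast_eq_zero F (ringChar F)
    rw [h2] at h4
    exact_mod_cast h4
  have hd1 : degree (C (B e1 e1) * X ^ 2) = 2 := degree_C_mul_X_pow 2 ha1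
  have hd2 : degree (C (B e2 e2) * X ^ 2 + C (B e3 e3)) = 2 := by
    have h5 : degree (C (B e2 e2) * X ^ 2) = 2 := degree_C_mul_X_pow 2 ha2
    rw [degree_add_C (by rw [h5]; norm_num), h5]
  obtain ⟨x, y, hxy⟩ := FiniteField.exists_root_sum_quadratic hd1 hd2 hodd
  simp only [eval_mul, eval_C, eval_pow, eval_X, eval_add] at hxy
  refine ⟨x • e1 + y • e2 + e3, ?_, ?_, ?_⟩
  · exact K.add_mem (K.add_mem (K.smul_mem x he1) (K.smul_mem y (hK1K he2)))
      (hK1K (hK2K1 he3))
  · intro h0
    have h1 : B (x • e1 + y • e2 + e3) e3 = 0 := by rw [h0, map_zero, LinearMap.zero_apply]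
    simp only [map_add, map_smul, LinearMap.add_apply, LinearMap.smul_apply, smul_eq_mul, h13,
      h23, mul_zero, zero_add] at h1
    exact ha3 h1
  · simp only [map_add, map_smul, LinearMap.add_apply, LinearMap.smul_apply, smul_eq_mul, h12,
      h13, h23, h21, h31, h32, mul_zero, zero_add, add_zero]
    linear_combination hxy

/-- PIECE TISUB (second half). -/
theorem exists_ti_sub (hS : B.IsSymm) (hchar2 : (2 : F) ≠ 0) (hN : ND B ⊤)
    (K : Submodule F V) (hK : ND B K) (w : ℕ) (hw : 2 * w + 1 ≤ finrank F K) :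
    ∃ U : Submodule F V, U ≤ K ∧ Orth B U U ∧ finrank F U = w := by
  induction w generalizing K with
  | zero =>
    refine ⟨⊥, bot_le, ?_, finrank_bot F V⟩
    intro u hu v _
    rw [(Submodule.mem_bot F).mp hu, map_zero, LinearMap.zero_apply]
  | succ w ih =>
    obtain ⟨v, hv, hv0, hvv⟩ := exists_singular hS hchar2 hK (by omega)
    obtain ⟨K', hK'K, hK', hf, ho, hc⟩ := tisub_plane hS hchar2 hK hv hv0 hvv
    obtain ⟨U', hU'K', hU'o, hU'f⟩ := ih K' hK' (by omega)
    refine ⟨U' ⊔ Submodule.span F {v}, ?_, ?_, ?_⟩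
    · exact sup_le (le_trans hU'K' hK'K) ((Submodule.span_singleton_le_iff_mem v K).mpr hv)
    · intro a ha b hb
      obtain ⟨a1, ha1, a2, ha2, rfl⟩ := Submodule.mem_sup.mp ha
      obtain ⟨b1, hb1, b2, hb2, rfl⟩ := Submodule.mem_sup.mp hb
      obtain ⟨c, rfl⟩ := Submodule.mem_span_singleton.mp ha2
      obtain ⟨d, rfl⟩ := Submodule.mem_span_singleton.mp hb2
      have e1 := hU'o a1 ha1 b1 hb1
      have e2 : B v b1 = 0 := ho b1 (hU'K' hb1)
      have e3 : B a1 v = 0 := by
        rw [sym_swap hS hchar2]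
        exact ho a1 (hU'K' ha1)
      simp only [map_add, map_smul, LinearMap.add_apply, LinearMap.smul_apply, smul_eq_mul, e1,
        e2, e3, hvv, mul_zero, add_zero]
    · have h1 := Submodule.finrank_sup_add_finrank_inf_eq U' (Submodule.span F {v})
      have h2 : U' ⊓ Submodule.span F {v} = ⊥ := by
        rw [eq_bot_iff]
        rintro x ⟨hx1, hx2⟩
        obtain ⟨c, rfl⟩ := Submodule.mem_span_singleton.mp hx2
        rw [Submodule.mem_bot, hc c (hU'K' hx1), zero_smul]
      rw [h2, finrank_bot, finrank_span_singleton hv0, hU'f] at h1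
      omega

end Cfsg.Agent.Lib.Helper98.O72
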