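import Mathlib
import Cfsg.Prelude.Def_GeometricClasses
import Cfsg.Prelude.Def_LieClassical
import Cfsg.Agent.Lib.Helper65.SLCN47
import Cfsg.Agent.Lib.Helper18.Symp
import Cfsg.Agent.Lib.Helper97.SpGen
import Cfsg.Agent.Lib.Helper97.SpOver2

/-! Project SPP (helper71; S5805/S5844), piece NS4 (helper46): `Sp_{2m}(q)` is contained in no
tensor product subgroup (decomposable tensors). -/

set_option autoImplicit false

namespace Cfsg.Agent.Lib.Helper46.SPPNS4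

open Matrix Cfsg.Geo
open scoped Kronecker

variable {n : ℕ} {F : Type*} [Field F] [Fintype F]

omit [Fintype F] in
/-- `Sp` is transitive on non-zero vectors -/
theorem ns4_trans (m : ℕ) (v w : Fin m ⊕ Fin m → F) (hv : v ≠ 0) (hw : w ≠ 0) :
    ∃ g ∈ Cfsg.spGL m F, g.1 *ᵥ v = w := by
  have hs := Cfsg.Agent.Lib.Helper97.sympForm_symp (F := F) m
  have partner : ∀ u : Fin m ⊕ Fin m → F, u ≠ 0 → ∃ x, Cfsg.sympForm m F u x = 1 := by
    intro u hu
    obtain ⟨x, hx⟩ := (hs.nondegenerate u hu).2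
    refine ⟨(Cfsg.sympForm m F u x)⁻¹ • x, ?_⟩
    rw [hs.bilinear.smul_right, inv_mul_cancel₀ hx]
  obtain ⟨v', hv'⟩ := partner v hv
  obtain ⟨w', hw'⟩ := partner w hw
  obtain ⟨A, -, hAv, -⟩ := Cfsg.Agent.Lib.Helper18.exists_closure_pair m v v' w w' hv' hw'
  refine ⟨Matrix.nonsingInvUnit A.1 (SymplecticGroup.symplectic_det A.2), ?_, hAv⟩
  rw [Cfsg.Agent.Lib.Helper97.mem_spGL_iff]
  intro x y
  have h1 := Cfsg.Agent.Lib.Helper18.symplectic_isometry m A.1 A.2 x y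
  rw [Cfsg.Agent.Lib.Helper18.sympB_eq_sympForm, Cfsg.Agent.Lib.Helper18.sympB_eq_sympForm,
    Matrix.toLin'_apply, Matrix.toLin'_apply] at h1
  exact h1

omit [Fintype F] in
theorem ns4_glReindex_mulVec {ι κ : Type} [Fintype ι] [DecidableEq ι] [Fintype κ] [DecidableEq κ]
    (e : ι ≃ κ) (k : GL κ F) (x : κ → F) :
    ((glReindex e.symm k : GL ι F) : Matrix ι ι F) *ᵥ (x ∘ e) = (k.1 *ᵥ x) ∘ e := by
  have hval : ((glReindex e.symm k : GL ι F) : Matrix ι ι F) = k.1.submatrix e e := rfl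
  rw [hval, Matrix.submatrix_mulVec_equiv]
  congr 2
  ext i
  simp

omit [Fintype F] in
theorem ns4_mulVec_inj {ι : Type} [Fintype ι] [DecidableEq ι] (P : GL ι F) :
    Function.Injective (fun v => P.1 *ᵥ v) := by
  intro a b hab
  have h := congrArg (fun v => (P⁻¹ : GL ι F).1 *ᵥ v) hab
  simp only [Matrix.mulVec_mulVec] at h
  have e : (P⁻¹ : GL ι F).1 * P.1 = 1 := by
    rw [← Units.val_mul, inv_mul_cancel, Units.val_one]
  rw [e, Matrix.one_mulVec, Matrix.one_mulVec] at h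
  exact h

/-- NS4 -/
theorem NS4 (m : ℕ) (hm : 2 ≤ m) {n₁ n₂ : ℕ} (h1 : 2 ≤ n₁) (h2 : 2 ≤ n₂)
    (e : (Fin m ⊕ Fin m) ≃ Fin n₁ × Fin n₂) (P : GL (Fin m ⊕ Fin m) F) :
    ¬ Cfsg.spGL m F ≤ tensorProductSubgroup n₁ n₂ e P := by
  classical
  unfold tensorProductSubgroup
  intro hle
  let a0 : Fin n₁ := ⟨0, by omega⟩
  let a1 : Fin n₁ := ⟨1, by omega⟩
  let b0 : Fin n₂ := ⟨0, by omega⟩
  let b1 : Fin n₂ := ⟨1, by omega⟩
  have ha : a0 ≠ a1 := by
    intro h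
    have := congrArg Fin.val h
    simp [a0, a1] at this
  have hb : b0 ≠ b1 := by
    intro h
    have := congrArg Fin.val h
    simp [b0, b1] at this
  have hy : (Pi.single (a0, b0) 1 : Fin n₁ × Fin n₂ → F) ∈
      Cfsg.Agent.Lib.Helper65.SLCN47.Dec2 n₁ n₂ F := by
    refine ⟨Pi.single a0 1, Pi.single b0 1, ?_⟩
    rintro ⟨i, j⟩
    by_cases hi : i = a0
    · by_cases hj : j = b0
      · subst hi; subst hj; simp
      · subst hi; simp [Pi.single_apply, hj]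
    · simp [Pi.single_apply, hi]
  have hx : (Pi.single (a0, b0) 1 + Pi.single (a1, b1) 1 : Fin n₁ × Fin n₂ → F) ∉
      Cfsg.Agent.Lib.Helper65.SLCN47.Dec2 n₁ n₂ F := by
    rintro ⟨u, v, huv⟩
    have e1 := huv (a0, b0)
    have e2 := huv (a1, b1)
    have e3 := huv (a0, b1)
    simp [Pi.single_apply, ha, hb, ha.symm, hb.symm] at e1 e2 e3
    rcases e3 with h | h
    · rw [h, zero_mul] at e1; exact one_ne_zero e1
    · rw [h, mul_zero] at e2; exact one_ne_zero e2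
  have hy0 : (Pi.single (a0, b0) 1 : Fin n₁ × Fin n₂ → F) ≠ 0 := by
    intro h
    have e1 := congrFun h (a0, b0)
    simp at e1
  have hx0 : (Pi.single (a0, b0) 1 + Pi.single (a1, b1) 1 : Fin n₁ × Fin n₂ → F) ≠ 0 := by
    intro h
    have e1 := congrFun h (a0, b0)
    simp [Pi.single_apply, ha, hb, ha.symm, hb.symm] at e1
  have hinjP := ns4_mulVec_inj P
  have hne : ∀ z : Fin n₁ × Fin n₂ → F, z ≠ 0 → P.1 *ᵥ (z ∘ e) ≠ 0 := by
    intro z hz h0
    apply hz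
    have h3 : z ∘ e = 0 := by
      apply hinjP
      show P.1 *ᵥ (z ∘ e) = P.1 *ᵥ 0
      rw [h0, Matrix.mulVec_zero]
    funext a
    have h4 := congrFun h3 (e.symm a)
    simpa using h4
  obtain ⟨g, hg, hgv⟩ := ns4_trans m _ _ (hne _ hy0) (hne _ hx0)
  obtain ⟨h, ⟨k, hk, rfl⟩, rfl⟩ := hle hg
  have h1' : ((MulAut.conj P).toMonoidHom ((glReindex e.symm).toMonoidHom k) :
      GL (Fin m ⊕ Fin m) F).1 *ᵥ
      (P.1 *ᵥ ((Pi.single (a0, b0) 1 : Fin n₁ × Fin n₂ → F) ∘ e)) =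
      P.1 *ᵥ ((k.1 *ᵥ (Pi.single (a0, b0) 1 : Fin n₁ × Fin n₂ → F)) ∘ e) := by
    have e1 : ((MulAut.conj P).toMonoidHom ((glReindex e.symm).toMonoidHom k) :
        GL (Fin m ⊕ Fin m) F) = P * glReindex e.symm k * P⁻¹ := rfl
    rw [e1, Units.val_mul, Units.val_mul, Matrix.mulVec_mulVec, mul_assoc, mul_assoc,
      ← Units.val_mul P⁻¹ P, inv_mul_cancel, Units.val_one, mul_one, ← Matrix.mulVec_mulVec,
      ns4_glReindex_mulVec]
  rw [h1'] at hgv
  have h2' := hinjP hgv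
  apply hx
  have h3 : k.1 *ᵥ (Pi.single (a0, b0) 1 : Fin n₁ × Fin n₂ → F) =
      Pi.single (a0, b0) 1 + Pi.single (a1, b1) 1 := by
    funext a
    have h4 := congrFun h2' (e.symm a)
    simpa using h4
  rw [← h3]
  exact Cfsg.Agent.Lib.Helper65.SLCN47.kron_mulVec_dec k hk _ hy

end Cfsg.Agent.Lib.Helper46.SPPNS4
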