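import Mathlib
import Cfsg.Prelude.Def_GeometricClasses
import Cfsg.Prelude.Def_LieClassical
import Cfsg.Agent.Lib.Helper33.O9TSQ
import Cfsg.Agent.Lib.Helper50.SUQTFS

/-! Project U9 (helper44, S5832), piece TSQU (helper46): from a hermitian form `G₁ ⊗ₖ G₂` with
`Aᵀ G₂ A^σ = c • G₁` to a unitary tensor square structure, after replacing `P` by `P (1 ⊗ A)`
(unitary twin of `Helper33/O9TSQ.lean`). -/

set_option autoImplicit false

namespace Cfsg.Agent.Lib.Helper44.U9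

open Matrix Cfsg.Geo Cfsg.Agent.Lib.Helper71.Asch
open scoped Kronecker
open Cfsg.Agent.Lib.Helper44.O9 Cfsg.Agent.Lib.Helper50.SUQTFS

variable {n : ℕ} {F : Type*} [Field F] [Fintype F] {q : ℕ}

omit [Fintype F] in
theorem TSQU_formOfGram_eq {κ : Type} [Fintype κ] (G : Matrix κ κ F) (x y : κ → F) :
    formOfGram (fun c : F => c ^ q) G x y = x ⬝ᵥ (G *ᵥ (fun b => (y b) ^ q)) := by
  unfold formOfGram
  simp only [dotProduct, mulVec, Finset.mul_sum, mul_assoc]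

theorem TSQU_map_mulVec (hF : Fintype.card F = q ^ 2) {κ : Type} [Fintype κ] (T : Matrix κ κ F)
    (y : κ → F) :
    (fun b => ((T *ᵥ y) b) ^ q) = (T.map (fun c : F => c ^ q)) *ᵥ (fun b => (y b) ^ q) := by
  funext b
  simp only [mulVec, dotProduct, Matrix.map_apply]
  rw [suqtfs_sum_pow hF]
  apply Finset.sum_congr rfl
  intro j _
  rw [mul_pow]

theorem TSQU_conj (hF : Fintype.card F = q ^ 2) {κ : Type} [Fintype κ] (G T : Matrix κ κ F)
    (x y : κ → F) :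
    formOfGram (fun c : F => c ^ q) G (T *ᵥ x) (T *ᵥ y) =
      formOfGram (fun c : F => c ^ q) (Tᵀ * G * T.map (fun c : F => c ^ q)) x y := by
  rw [TSQU_formOfGram_eq, TSQU_formOfGram_eq, TSQU_map_mulVec hF]
  calc (T *ᵥ x) ⬝ᵥ (G *ᵥ (T.map (fun c : F => c ^ q) *ᵥ (fun b => (y b) ^ q)))
      = (x ᵥ* Tᵀ) ⬝ᵥ (G *ᵥ (T.map (fun c : F => c ^ q) *ᵥ (fun b => (y b) ^ q))) := by
        rw [Matrix.vecMul_transpose]
    _ = x ⬝ᵥ (Tᵀ *ᵥ (G *ᵥ (T.map (fun c : F => c ^ q) *ᵥ (fun b => (y b) ^ q)))) :=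
        (Matrix.dotProduct_mulVec x Tᵀ _).symm
    _ = x ⬝ᵥ ((Tᵀ * G * T.map (fun c : F => c ^ q)) *ᵥ (fun b => (y b) ^ q)) := by
        rw [Matrix.mulVec_mulVec, Matrix.mulVec_mulVec]

theorem TSQU_kron (hF : Fintype.card F = q ^ 2) (G₁ G₂ : Matrix (Fin 3) (Fin 3) F)
    (A : Matrix (Fin 3) (Fin 3) F) (c : F)
    (hA : Aᵀ * G₂ * A.map (fun x : F => x ^ q) = c • G₁) :
    ((1 : Matrix (Fin 3) (Fin 3) F) ⊗ₖ A)ᵀ * (G₁ ⊗ₖ G₂) *
        (((1 : Matrix (Fin 3) (Fin 3) F) ⊗ₖ A).map (fun x : F => x ^ q)) =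
      G₁ ⊗ₖ (c • G₁) := by
  have hq := (suqtfs_q_pos hF).ne'
  have h1 : ((1 : Matrix (Fin 3) (Fin 3) F) ⊗ₖ A)ᵀ = (1 : Matrix (Fin 3) (Fin 3) F) ⊗ₖ Aᵀ := by
    ext ⟨i, j⟩ ⟨k, l⟩
    simp [Matrix.kroneckerMap_apply, Matrix.one_apply, eq_comm]
  have h2 : (((1 : Matrix (Fin 3) (Fin 3) F) ⊗ₖ A).map (fun x : F => x ^ q)) =
      (1 : Matrix (Fin 3) (Fin 3) F) ⊗ₖ (A.map (fun x : F => x ^ q)) := by
    ext ⟨i, j⟩ ⟨k, l⟩
    simp only [Matrix.map_apply, Matrix.kroneckerMap_apply, Matrix.one_apply]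
    by_cases h : i = k
    · simp [h]
    · simp [h, zero_pow hq]
  rw [h1, h2, ← Matrix.mul_kronecker_mul, ← Matrix.mul_kronecker_mul, one_mul, mul_one, hA]

theorem TSQU (hF : Fintype.card F = q ^ 2) (f : (Fin n → F) → (Fin n → F) → F)
    (e : Fin n ≃ Fin 3 × Fin 3) (P : GL (Fin n) F)
    (G₁ G₂ : Matrix (Fin 3) (Fin 3) F) (hh1 : ∀ a b, G₁ a b = (G₁ b a) ^ q) (hd1 : G₁.det ≠ 0)
    (hid : ∀ x y : Fin 3 × Fin 3 → F,
      f (P.1 *ᵥ (x ∘ e)) (P.1 *ᵥ (y ∘ e)) = formOfGram (fun c : F => c ^ q) (G₁ ⊗ₖ G₂) x y)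
    (A : GL (Fin 3) F) (c : F) (hc : c ≠ 0)
    (hA : A.1ᵀ * G₂ * A.1.map (fun x : F => x ^ q) = c • G₁) :
    ∃ (P' : GL (Fin n) F) (f₁ : (Fin 3 → F) → (Fin 3 → F) → F), IsUnitaryFormPow q f₁ ∧
      IsTensorPowerFormStructure (fun x : F => x ^ q) f f₁
        (e.trans (finTwoArrowEquiv (Fin 3)).symm) P' ∧
      tensorWreathSubgroup 3 2 (e.trans (finTwoArrowEquiv (Fin 3)).symm) P' =
        tensorWreathSubgroup 3 2 (e.trans (finTwoArrowEquiv (Fin 3)).symm) P := by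
  classical
  refine ⟨P * glReindex (e.trans (finTwoArrowEquiv (Fin 3)).symm).symm
      (glReindex (finTwoArrowEquiv (Fin 3)).symm (TSQ_K A)), formOfGram (fun c : F => c ^ q) G₁,
    suqtfs_unitary hF G₁ hd1 hh1, ⟨c, hc, ?_⟩, ?_⟩
  · intro x y
    have hmv : ∀ z : (Fin 2 → Fin 3) → F,
        ((P * glReindex (e.trans (finTwoArrowEquiv (Fin 3)).symm).symm
          (glReindex (finTwoArrowEquiv (Fin 3)).symm (TSQ_K A)) : GL (Fin n) F) :
            Matrix (Fin n) (Fin n) F) *ᵥ (z ∘ (e.trans (finTwoArrowEquiv (Fin 3)).symm)) =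
          P.1 *ᵥ ((((1 : Matrix (Fin 3) (Fin 3) F) ⊗ₖ A.1) *ᵥ
            (z ∘ (finTwoArrowEquiv (Fin 3)).symm)) ∘ e) := by
      intro z
      rw [Units.val_mul, ← Matrix.mulVec_mulVec, TSQ_val]
      congr 1
      have : z ∘ (e.trans (finTwoArrowEquiv (Fin 3)).symm) =
          (z ∘ (finTwoArrowEquiv (Fin 3)).symm) ∘ e := rfl
      rw [this, Matrix.submatrix_mulVec_equiv]
      congr 2
      ext u
      simp
    rw [hmv x, hmv y, hid, TSQU_conj hF, TSQU_kron hF G₁ G₂ A.1 c hA, suqtfs_gram hF]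
    unfold formOfGram
    rw [← Equiv.sum_comp (finTwoArrowEquiv (Fin 3)), Finset.mul_sum]
    apply Finset.sum_congr rfl
    intro a _
    rw [← Equiv.sum_comp (finTwoArrowEquiv (Fin 3)), Finset.mul_sum]
    apply Finset.sum_congr rfl
    intro b _
    have hft : ∀ a : Fin 2 → Fin 3, (finTwoArrowEquiv (Fin 3)) a = (a 0, a 1) := fun a => rfl
    simp only [Function.comp_apply, Equiv.symm_apply_apply]
    simp only [hft, Fin.prod_univ_two, Matrix.kroneckerMap_apply, Matrix.smul_apply,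
      smul_eq_mul]
    ring
  · unfold tensorWreathSubgroup
    exact TSQ_map_conj _ P _ (Subgroup.mem_map_of_mem _ (TSQ_pure A))

end Cfsg.Agent.Lib.Helper44.U9
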