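import Mathlib
import Cfsg.Prelude.Def_GeometricClasses
import Cfsg.Prelude.Def_LieClassical

/-!
# Project OMP (helper71), piece T0 (helper46)

Transport of a quadratic form `Q` on `κ → F` along `e : κ ≃ Fin n`: non-degeneracy (`T0a`),
invariance under the reindexed group (`T0b`), Gram determinant (`T0c`).
-/

set_option autoImplicit false

namespace Cfsg.Agent.Lib.Helper46.OMPT0

open Matrix Cfsg.Geo

variable {n : ℕ} {F : Type*} [Field F] [Fintype F]

section Transport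

variable {κ : Type} [Fintype κ] [DecidableEq κ]

/-- transport of vectors: `v ↦ v ∘ e.symm` -/
def tv (e : κ ≃ Fin n) : (κ → F) ≃ₗ[F] (Fin n → F) := LinearEquiv.funCongrLeft F F e.symm

/-- the transported quadratic form on `Fin n → F` -/
def tQ (e : κ ≃ Fin n) (Q : (κ → F) → F) : (Fin n → F) → F := fun v => Q (v ∘ e)

omit [Fintype F] in
theorem T0_polar (e : κ ≃ Fin n) (Q : (κ → F) → F) (x y : Fin n → F) :
    QuadraticMap.polar (tQ e Q) x y = QuadraticMap.polar Q (x ∘ e) (y ∘ e) := rfl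

omit [Fintype F] [Fintype κ] [DecidableEq κ] in
theorem T0_comp (e : κ ≃ Fin n) (x : κ → F) : (x ∘ e.symm) ∘ e = x := by
  funext k
  simp

omit [Fintype F] in
theorem T0_key (e : κ ≃ Fin n) (g : GL κ F) (v : Fin n → F) :
    ((glReindex e g : GL (Fin n) F).1 *ᵥ v) ∘ e = g.1 *ᵥ (v ∘ e) := by
  have h : (glReindex e g : GL (Fin n) F).1 = g.1.submatrix e.symm e.symm := rfl
  rw [h, Matrix.submatrix_mulVec_equiv]
  funext k
  simp

omit [Fintype F] [Fintype κ] in
theorem T0_single (e : κ ≃ Fin n) (i : Fin n) :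
    (Pi.single i (1 : F) : Fin n → F) ∘ e = Pi.single (e.symm i) 1 := by
  funext k
  simp only [Function.comp_apply, Pi.single_apply]
  by_cases h : e k = i
  · rw [if_pos h, if_pos ((Equiv.apply_eq_iff_eq_symm_apply e).mp h)]
  · rw [if_neg h, if_neg (fun h' => h ((Equiv.apply_eq_iff_eq_symm_apply e).mpr h'))]

/-- T0a -/
theorem T0a (e : κ ≃ Fin n) (Q : (κ → F) → F) (hQ : IsNondegenerateQuadraticForm Q) :
    IsNondegenerateQuadraticForm (tQ e Q) := by
  refine ⟨?_, ⟨?_, ?_, ?_, ?_⟩, ?_⟩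
  · intro c v
    exact hQ.smul c (v ∘ e)
  · intro x y v
    exact hQ.polar_bilinear.add_left (x ∘ e) (y ∘ e) (v ∘ e)
  · intro c x v
    exact hQ.polar_bilinear.smul_left c (x ∘ e) (v ∘ e)
  · intro v x y
    exact hQ.polar_bilinear.add_right (v ∘ e) (x ∘ e) (y ∘ e)
  · intro c v x
    exact hQ.polar_bilinear.smul_right c (v ∘ e) (x ∘ e)
  · intro v hv
    have hv' : v ∘ e ≠ 0 := by
      intro h0
      apply hv
      funext i
      have h1 := congrFun h0 (e.symm i)
      simpa using h1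
    obtain ⟨⟨x, hx⟩, ⟨y, hy⟩⟩ := hQ.nondegenerate (v ∘ e) hv'
    refine ⟨⟨x ∘ e.symm, ?_⟩, ⟨y ∘ e.symm, ?_⟩⟩
    · rw [T0_polar, T0_comp]
      exact hx
    · rw [T0_polar, T0_comp]
      exact hy

/-- T0b -/
theorem T0b (e : κ ≃ Fin n) (Q : (κ → F) → F) (H : Subgroup (GL κ F))
    (hH : H ≤ omegaGL Q) :
    FixesQuadForm (matrixSet (H.map (glReindex e).toMonoidHom)) (tQ e Q) := by
  rintro s ⟨g', ⟨g, hg, rfl⟩, rfl⟩ v
  obtain ⟨h, -, rfl⟩ := hH hg
  have hiso : ∀ u : κ → F, Q ((h : GL κ F).1 *ᵥ u) = Q u := fun u => h.2 u u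
  show Q (((glReindex e (h : GL κ F) : GL (Fin n) F).1 *ᵥ v) ∘ e) = Q (v ∘ e)
  rw [T0_key, hiso]

/-- T0c -/
theorem T0c (e : κ ≃ Fin n) (Q : (κ → F) → F) :
    (gramMatrix (QuadraticMap.polar (tQ e Q))).det = (gramMatrix (QuadraticMap.polar Q)).det := by
  have h : gramMatrix (QuadraticMap.polar (tQ e Q)) =
      Matrix.reindex e e (gramMatrix (QuadraticMap.polar Q)) := by
    ext i j
    show QuadraticMap.polar (tQ e Q) (Pi.single i 1) (Pi.single j 1) =
      QuadraticMap.polar Q (Pi.single (e.symm i) 1) (Pi.single (e.symm j) 1)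
    rw [T0_polar, T0_single, T0_single]
  rw [h, Matrix.det_reindex_self]

end Transport

end Cfsg.Agent.Lib.Helper46.OMPT0
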