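import Mathlib
import Cfsg.Prelude.Def_GeometricClasses
import Cfsg.Prelude.Def_LieClassical

/-!
# Project OMP (helper71), piece T1 (helper46)

Transport of the subspace-stabiliser clauses (singular / non-degenerate / plus type) back along
`glReindex e`, `e : κ ≃ Fin n`.
-/

set_option autoImplicit false

namespace Cfsg.Agent.Lib.Helper46.OMPT1

open Matrix Cfsg.Geo

variable {n : ℕ} {F : Type*} [Field F] [Fintype F]

section Transport

variable {κ : Type} [Fintype κ] [DecidableEq κ]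

/-- transport of vectors: `v ↦ v ∘ e.symm` -/
def tv (e : κ ≃ Fin n) : (κ → F) ≃ₗ[F] (Fin n → F) := LinearEquiv.funCongrLeft F F e.symm

/-- the transported quadratic form on `Fin n → F` -/
def tQ (e : κ ≃ Fin n) (Q : (κ → F) → F) : (Fin n → F) → F := fun v => Q (v ∘ e)

/-- the transported subspace -/
def tW (e : κ ≃ Fin n) (W' : Submodule F (Fin n → F)) : Submodule F (κ → F) :=
  W'.comap (tv e).toLinearMap

omit [Fintype F] [Fintype κ] [DecidableEq κ] in
theorem T1_tv_apply (e : κ ≃ Fin n) (v : κ → F) : tv e v = v ∘ e.symm := rfl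

omit [Fintype F] [Fintype κ] [DecidableEq κ] in
theorem T1_tv_symm_apply (e : κ ≃ Fin n) (w : Fin n → F) : (tv e).symm w = w ∘ e := by
  apply (tv e).injective
  rw [LinearEquiv.apply_symm_apply, T1_tv_apply]
  funext i
  simp

omit [Fintype F] [Fintype κ] [DecidableEq κ] in
theorem T1_mem (e : κ ≃ Fin n) (W' : Submodule F (Fin n → F)) (v : κ → F) :
    v ∈ tW e W' ↔ v ∘ e.symm ∈ W' := Iff.rfl

omit [Fintype F] [Fintype κ] [DecidableEq κ] in
theorem T1_comp (e : κ ≃ Fin n) (x : κ → F) : (x ∘ e.symm) ∘ e = x := by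
  funext k
  simp

omit [Fintype F] [Fintype κ] [DecidableEq κ] in
theorem T1_comp' (e : κ ≃ Fin n) (x : Fin n → F) : (x ∘ e) ∘ e.symm = x := by
  funext k
  simp

omit [Fintype F] in
theorem T1_key (e : κ ≃ Fin n) (g : GL κ F) (v : κ → F) :
    (glReindex e g : GL (Fin n) F).1 *ᵥ (v ∘ e.symm) = (g.1 *ᵥ v) ∘ e.symm := by
  have h : (glReindex e g : GL (Fin n) F).1 = g.1.submatrix e.symm e.symm := rfl
  rw [h, Matrix.submatrix_mulVec_equiv]
  congr 2
  funext k
  simp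

omit [Fintype F] in
theorem T1_polar (e : κ ≃ Fin n) (Q : (κ → F) → F) (x y : Fin n → F) :
    QuadraticMap.polar (tQ e Q) x y = QuadraticMap.polar Q (x ∘ e) (y ∘ e) := rfl

/-- T1 -/
theorem T1 (e : κ ≃ Fin n) (Q : (κ → F) → F) (H : Subgroup (GL κ F))
    (W' : Submodule F (Fin n → F)) :
    (H.map (glReindex e).toMonoidHom ≤ subspaceStabilizer W' → H ≤ subspaceStabilizer (tW e W')) ∧
    (W' ≠ ⊥ → tW e W' ≠ ⊥) ∧ (W' ≠ ⊤ → tW e W' ≠ ⊤) ∧
    Module.finrank F (tW e W') = Module.finrank F W' ∧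
    (IsTotallySingularQuad (tQ e Q) W' → IsTotallySingularQuad Q (tW e W')) ∧
    (IsNondegenerateOn (QuadraticMap.polar (tQ e Q)) W' →
      IsNondegenerateOn (QuadraticMap.polar Q) (tW e W')) ∧
    (IsPlusTypeOn Q (tW e W') → IsPlusTypeOn (tQ e Q) W') := by
  have hfin : Module.finrank F (tW e W') = Module.finrank F W' := by
    unfold tW
    rw [Submodule.comap_equiv_eq_map_symm]
    exact LinearEquiv.finrank_map_eq (tv e).symm W'
  refine ⟨?_, ?_, ?_, hfin, ?_, ?_, ?_⟩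
  · -- stabiliser
    intro hs g hg
    have hΦ : glReindex e g ∈ subspaceStabilizer W' := hs ⟨g, hg, rfl⟩
    have hΦ' : ∀ w : Fin n → F, w ∈ W' ↔ (glReindex e g : GL (Fin n) F).1 *ᵥ w ∈ W' := hΦ
    show ∀ v : κ → F, v ∈ tW e W' ↔ g.1 *ᵥ v ∈ tW e W'
    intro v
    rw [T1_mem, T1_mem, ← T1_key]
    exact hΦ' (v ∘ e.symm)
  · -- `≠ ⊥`
    intro hW hbot
    apply hW
    rw [eq_bot_iff]
    intro w hw
    have h1 : w ∘ e ∈ tW e W' := by
      rw [T1_mem, T1_comp']
      exact hw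
    rw [hbot, Submodule.mem_bot] at h1
    rw [Submodule.mem_bot]
    rw [← T1_comp' e w, h1]
    rfl
  · -- `≠ ⊤`
    intro hW htop
    apply hW
    rw [eq_top_iff]
    intro w _
    have h1 : w ∘ e ∈ tW e W' := by
      rw [htop]
      trivial
    rw [T1_mem, T1_comp'] at h1
    exact h1
  · -- totally singular
    intro hts w hw
    have h1 := hts (w ∘ e.symm) ((T1_mem e W' w).mp hw)
    have h2 : tQ e Q (w ∘ e.symm) = Q w := by
      show Q ((w ∘ e.symm) ∘ e) = Q w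
      rw [T1_comp]
    rw [← h2]
    exact h1
  · -- non-degenerate
    intro hnd w hw hw0
    have hw' : w ∘ e.symm ∈ W' := (T1_mem e W' w).mp hw
    have hw0' : w ∘ e.symm ≠ 0 := by
      intro h0
      apply hw0
      rw [← T1_comp e w, h0]
      rfl
    obtain ⟨⟨x, hx, hx0⟩, ⟨y, hy, hy0⟩⟩ := hnd (w ∘ e.symm) hw' hw0'
    refine ⟨⟨x ∘ e, ?_, ?_⟩, ⟨y ∘ e, ?_, ?_⟩⟩
    · rw [T1_mem, T1_comp']
      exact hx
    · rw [T1_polar, T1_comp] at hx0
      exact hx0
    · rw [T1_mem, T1_comp']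
      exact hy
    · rw [T1_polar, T1_comp] at hy0
      exact hy0
  · -- plus type
    rintro ⟨U, hU, hUs, hUr⟩
    refine ⟨U.map (tv e).toLinearMap, ?_, ?_, ?_⟩
    · rintro _ ⟨u, hu, rfl⟩
      exact hU hu
    · rintro _ ⟨u, hu, rfl⟩
      show Q ((tv e u) ∘ e) = 0
      rw [T1_tv_apply, T1_comp]
      exact hUs u hu
    · rw [LinearEquiv.finrank_map_eq (tv e) U, hUr, hfin]

end Transport

end Cfsg.Agent.Lib.Helper46.OMPT1
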