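import Mathlib
import Cfsg.Prelude.Def_GeometricClasses
import Cfsg.Prelude.Def_LieClassical
import Cfsg.Agent.Lib.Helper7.GUOrder
import Cfsg.Agent.Lib.Helper7.HermCount
import Cfsg.Agent.Lib.Helper18.SubfUA
import Cfsg.Agent.Lib.Helper18.UnitaryTv
import Cfsg.Agent.Lib.Helper93.SUPair

/-!
# Project SUP (helper71), piece U8b (helper46)

For a subfield of odd index the scalar of a form-rational structure can be absorbed into the
base change.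
-/

set_option autoImplicit false

namespace Cfsg.Agent.Lib.Helper46.SUPU8b

open Matrix Cfsg.Geo

variable {n : ℕ} {F : Type*} [Field F] [Fintype F] {q : ℕ}

/-- an element of the subfield not fixed by `x ↦ x ^ q` -/
theorem U8b_exists_theta (F₁ : Subfield F) (s : ℕ) (hs : Nat.card F₁ = s ^ 2)
    (hpow : ∀ x : F₁, (x : F) ^ q = (x : F) ^ s) : ∃ θ ∈ F₁, θ ^ q ≠ θ := by
  classical
  haveI : Fintype F₁ := Fintype.ofFinite F₁
  have hF₁ : Fintype.card F₁ = s ^ 2 := by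
    rw [← Nat.card_eq_fintype_card]
    exact hs
  obtain ⟨ξ, hξ⟩ := Cfsg.Agent.Lib.Helper93.exists_not_fixed (F := ↥F₁) (q := s) hF₁
  refine ⟨(ξ : F), ξ.2, ?_⟩
  rw [hpow ξ]
  intro h
  apply hξ
  apply Subtype.ext
  rw [← h]
  rfl

/-- some entry of the Gram matrix of the columns of `P` is non-zero -/
theorem U8b_gram_ne (hF : Fintype.card F = q ^ 2) (hn : 1 ≤ n) (P : GL (Fin n) F) :
    ∃ i j : Fin n, Cfsg.hermForm n F q (P.1 *ᵥ Pi.single i 1) (P.1 *ᵥ Pi.single j 1) ≠ 0 := by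
  classical
  by_contra hall
  push Not at hall
  obtain ⟨j⟩ : Nonempty (Fin n) := ⟨⟨0, hn⟩⟩
  have hu : P.1 *ᵥ (Pi.single j 1 : Fin n → F) ≠ 0 := by
    intro h0
    have h1 : (P⁻¹ : GL (Fin n) F).1 *ᵥ (P.1 *ᵥ (Pi.single j 1 : Fin n → F)) = Pi.single j 1 := by
      rw [Matrix.mulVec_mulVec, ← Units.val_mul, inv_mul_cancel, Units.val_one,
        Matrix.one_mulVec]
    rw [h0, Matrix.mulVec_zero] at h1
    have h2 := congrFun h1 j
    rw [Pi.single_eq_same] at h2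
    exact zero_ne_one h2
  obtain ⟨x, hx⟩ := Cfsg.Agent.Lib.Helper18.exists_herm_ne_zero hF _ hu
  apply hx
  have hxw : x = ∑ i, ((P⁻¹ : GL (Fin n) F).1 *ᵥ x) i • (P.1 *ᵥ (Pi.single i 1 : Fin n → F)) := by
    have h1 : P.1 *ᵥ ((P⁻¹ : GL (Fin n) F).1 *ᵥ x) = x := by
      rw [Matrix.mulVec_mulVec, ← Units.val_mul, mul_inv_cancel, Units.val_one,
        Matrix.one_mulVec]
    have h2 := pi_eq_sum_univ' ((P⁻¹ : GL (Fin n) F).1 *ᵥ x)
    have h3 : P.1 *ᵥ ((P⁻¹ : GL (Fin n) F).1 *ᵥ x) =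
        P.1 *ᵥ ∑ i, ((P⁻¹ : GL (Fin n) F).1 *ᵥ x) i • (Pi.single i 1 : Fin n → F) :=
      congrArg (fun w => P.1 *ᵥ w) h2
    rw [h1, Matrix.mulVec_sum] at h3
    refine h3.trans ?_
    apply Finset.sum_congr rfl
    intro i _
    rw [Matrix.mulVec_smul]
  rw [hxw, Cfsg.Agent.Lib.Helper7.hf_sum_left]
  apply Finset.sum_eq_zero
  intro i _
  rw [Cfsg.Agent.Lib.Helper7.hf_smul_left, hall i j, mul_zero]

/-- U8b: for a subfield of odd index the scalar can be absorbed into the base change. -/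
theorem U8b (hF : Fintype.card F = q ^ 2) (hn : 1 ≤ n) (F₁ : Subfield F) (r : ℕ) (hr : Odd r)
    (hcard : Fintype.card F = Nat.card F₁ ^ r) (P : GL (Fin n) F) (ζ : F) (hζ : ζ ≠ 0)
    (hrat : IsFormRationalStructure (Cfsg.hermForm n F q) F₁ ζ P) :
    ∃ P' : GL (Fin n) F, IsFormRationalStructure (Cfsg.hermForm n F q) F₁ 1 P' ∧
      subfieldSubgroup F₁ P' = subfieldSubgroup F₁ P := by
  classical
  obtain ⟨s, hs, hpow⟩ := Cfsg.Agent.Lib.Helper18.exists_sqrt_card hF F₁ r hr hcard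
  obtain ⟨θ, hθ, hθq⟩ := U8b_exists_theta F₁ s hs hpow
  obtain ⟨i, j, hγ⟩ := U8b_gram_ne hF hn P
  have hmem_single : ∀ k : Fin n, ∀ l, (Pi.single k (1 : F) : Fin n → F) l ∈ F₁ := by
    intro k l
    by_cases h : l = k
    · subst h
      rw [Pi.single_eq_same]
      exact F₁.one_mem
    · rw [Pi.single_eq_of_ne h]
      exact F₁.zero_mem
  have hδ1 := hrat (Pi.single i 1) (Pi.single j 1) (hmem_single i) (hmem_single j)
  have hδ2 := hrat (Pi.single j 1) (Pi.single i 1) (hmem_single j) (hmem_single i)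
  obtain ⟨γ, hγdef⟩ : ∃ γ : F,
      γ = Cfsg.hermForm n F q (P.1 *ᵥ Pi.single i 1) (P.1 *ᵥ Pi.single j 1) := ⟨_, rfl⟩
  have hγ' : Cfsg.hermForm n F q (P.1 *ᵥ Pi.single j 1) (P.1 *ᵥ Pi.single i 1) = γ ^ q := by
    rw [hγdef]
    exact Cfsg.Agent.Lib.Helper7.hf_conj hF n _ _
  rw [hγ'] at hδ2
  rw [← hγdef] at hδ1 hγ
  have hq0 : q ≠ 0 := Cfsg.Agent.Lib.Helper7.herm_q_ne_zero hF
  have hγq : γ ^ q ≠ 0 := pow_ne_zero q hγ
  have hζq : ζ ^ q ≠ 0 := pow_ne_zero q hζ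
  -- `ε := ζ ^ q / ζ`
  obtain ⟨ε, hεdef⟩ : ∃ ε : F, ε = ζ ^ q / ζ := ⟨_, rfl⟩
  have hε_mem : ε ∈ F₁ := by
    have h1 : ε = (ζ * γ) ^ q / (ζ * γ ^ q) := by
      rw [hεdef, mul_pow]
      field_simp
    rw [h1]
    exact F₁.div_mem (F₁.pow_mem hδ1 q) hδ2
  have hε0 : ε ≠ 0 := by
    rw [hεdef]
    exact div_ne_zero hζq hζ
  have hεq : ε ^ q = ε⁻¹ := by
    rw [hεdef, div_pow, Cfsg.Agent.Lib.Helper7.herm_pow_pow hF, inv_div]
  -- `μ ∈ F₁`, `μ ≠ 0`, `μ ^ q = ε * μ`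
  have hμ : ∃ μ ∈ F₁, μ ≠ 0 ∧ μ ^ q = ε * μ := by
    by_cases h1 : 1 + ε⁻¹ = 0
    · have hε1 : ε = -1 := by
        have h2 : ε⁻¹ = -1 := by linear_combination h1
        have h3 : ε = (ε⁻¹)⁻¹ := (inv_inv ε).symm
        rw [h3, h2]
        norm_num
      refine ⟨θ - θ ^ q, F₁.sub_mem hθ (F₁.pow_mem hθ q), sub_ne_zero.mpr (Ne.symm hθq), ?_⟩
      rw [Cfsg.Agent.Lib.Helper7.herm_sub_pow hF, Cfsg.Agent.Lib.Helper7.herm_pow_pow hF, hε1]
      ring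
    · refine ⟨1 + ε⁻¹, F₁.add_mem F₁.one_mem (F₁.inv_mem hε_mem), h1, ?_⟩
      rw [Cfsg.Agent.Lib.Helper7.herm_add_pow hF, one_pow, inv_pow, hεq, inv_inv]
      field_simp
      ring
  obtain ⟨μ, hμ_mem, hμ0, hμq⟩ := hμ
  -- `ξ := ζ / μ` is fixed
  have hξ0 : ζ / μ ≠ 0 := div_ne_zero hζ hμ0
  have hξq : (ζ / μ) ^ q = ζ / μ := by
    rw [div_pow, hμq, hεdef]
    field_simp
  obtain ⟨l, hl0, hl⟩ := Cfsg.Agent.Lib.Helper7.herm_norm_surj hF (ζ / μ) hξ0 hξq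
  -- the scalar matrix `z`
  obtain ⟨z, hzdef⟩ : ∃ z : GL (Fin n) F, z = Units.map
      (Matrix.scalar (Fin n) : F →+* Matrix (Fin n) (Fin n) F).toMonoidHom (Units.mk0 l hl0) :=
    ⟨_, rfl⟩
  have hz : z.1 = l • (1 : Matrix (Fin n) (Fin n) F) := by
    rw [hzdef]
    simp [Matrix.smul_one_eq_diagonal]
  have hP' : ∀ u : Fin n → F, (P * z).1 *ᵥ u = l • (P.1 *ᵥ u) := by
    intro u
    rw [Units.val_mul, hz, Matrix.mul_smul, Matrix.mul_one, Matrix.smul_mulVec]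
  refine ⟨P * z, ?_, ?_⟩
  · intro u v hu hv
    have h := hrat u v hu hv
    rw [one_mul, hP', hP', Cfsg.Agent.Lib.Helper7.hf_smul_left,
      Cfsg.Agent.Lib.Helper7.hf_smul_right]
    have e : l * (l ^ q * Cfsg.hermForm n F q (P.1 *ᵥ u) (P.1 *ᵥ v)) =
        μ⁻¹ * (ζ * Cfsg.hermForm n F q (P.1 *ᵥ u) (P.1 *ᵥ v)) := by
      rw [← mul_assoc, ← pow_succ', hl]
      field_simp
    rw [e]
    exact F₁.mul_mem (F₁.inv_mem hμ_mem) h
  · unfold subfieldSubgroup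
    have hzX : z ∈ (Matrix.GeneralLinearGroup.map (F₁.subtype : F₁ →+* F)).range ⊔
        scalars (Fin n) F := by
      apply Subgroup.mem_sup_right
      rw [hzdef]
      exact ⟨Units.mk0 l hl0, rfl⟩
    have hconj : (MulAut.conj (P * z)).toMonoidHom =
        (MulAut.conj P).toMonoidHom.comp (MulAut.conj z).toMonoidHom := by
      rw [map_mul]
      rfl
    rw [hconj, ← Subgroup.map_map, Cfsg.Agent.Lib.Helper18.map_conj_of_mem _ z hzX]

end Cfsg.Agent.Lib.Helper46.SUPU8b
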