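import Cfsg.Agent.Lib.Helper46.BlichD

/-!
# Blichfeldt's theorem, part E: commuting Sylow subgroups and the abelian Hall subgroup

* `sylow_commute`: for a group with a faithful character of degree `n` and primes
  `p ≠ q` larger than `n + 1`, every Sylow `p`-subgroup centralizes some Sylow `q`-subgroup.
* `blichfeldt_hall`: such a group has an abelian Hall `π`-subgroup, `π` the set of primes
  larger than `n + 1`.
-/

universe u

namespace Cfsg.Agent.Lib.Helper46

open Cfsg Cfsg.Agent.Lib.Helper4

theorem card_centralizer_lt {G : Type*} [Group G] [Finite G] (x : G)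
    (hx : x ∉ Subgroup.center G) :
    Nat.card (Subgroup.centralizer ({x} : Set G)) < Nat.card G := by
  have hle : Nat.card (Subgroup.centralizer ({x} : Set G)) ≤ Nat.card G :=
    Subgroup.card_le_card_group _
  rcases hle.lt_or_eq with h | h
  · exact h
  · exfalso
    apply hx
    have htop := Subgroup.eq_top_of_card_eq _ h
    rw [Subgroup.mem_center_iff]
    intro g
    have hg : g ∈ Subgroup.centralizer ({x} : Set G) := by rw [htop]; exact Subgroup.mem_top g
    exact (Subgroup.mem_centralizer_iff.1 hg x rfl).symm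

theorem isPGroup_zpowers {G : Type*} [Group G] (p : ℕ) (x : G) (hx : ∃ a, x ^ (p ^ a) = 1) :
    IsPGroup p (Subgroup.zpowers x) := by
  obtain ⟨a, ha⟩ := hx
  intro ⟨y, hy⟩
  obtain ⟨k, rfl⟩ := Subgroup.mem_zpowers_iff.1 hy
  refine ⟨a, ?_⟩
  apply Subtype.ext
  simp only [Subgroup.coe_pow, Subgroup.coe_one]
  rw [← zpow_natCast, ← zpow_mul, mul_comm, zpow_mul, zpow_natCast, ha, one_zpow]

/-- One step of the induction: inside a subgroup `L` for which the commuting statement holds and
which contains a Sylow `q`-subgroup of `G`, every `p`-subgroup of `L` centralizes a Sylow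
`q`-subgroup of `G`. -/
theorem sylow_step {G : Type*} [Group G] [Finite G] (p q : ℕ) [Fact p.Prime] [Fact q.Prime]
    (L : Subgroup G)
    (ih : ∀ P' : Sylow p L, ∃ Q' : Sylow q L, ∀ x ∈ P', ∀ y ∈ Q', x * y = y * x)
    (P₀ : Subgroup G) (hP₀ : IsPGroup p P₀) (hP₀L : P₀ ≤ L) (Q₀ : Sylow q G)
    (hQ₀L : (Q₀ : Subgroup G) ≤ L) :
    ∃ Q : Sylow q G, ∀ x ∈ P₀, ∀ y ∈ Q, x * y = y * x := by
  have hP' : IsPGroup p (P₀.subgroupOf L) := hP₀.comap_subtype
  obtain ⟨P', hP'le⟩ := hP'.exists_le_sylow
  obtain ⟨Q', hQ'⟩ := ih P'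
  obtain ⟨Q, hQ⟩ := sylow_lift L (Q₀ : Subgroup G) hQ₀L Q₀.card_eq_multiplicity Q'
  refine ⟨Q, ?_⟩
  intro x hx y hy
  have hy' : y ∈ (Q : Subgroup G) := hy
  rw [hQ] at hy'
  obtain ⟨b, hb, rfl⟩ := Subgroup.mem_map.1 hy'
  have hxL : x ∈ L := hP₀L hx
  have hxP' : (⟨x, hxL⟩ : L) ∈ P' := hP'le (Subgroup.mem_subgroupOf.2 hx)
  have := hQ' ⟨x, hxL⟩ hxP' b hb
  exact congrArg Subtype.val this

/-- Blichfeldt: Sylow subgroups for distinct large primes can be chosen to commute
elementwise. -/
theorem sylow_commute (n : ℕ) : ∀ (N : ℕ) (G : Type u) [Group G] [Finite G], Nat.card G = N →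
    ∀ (χ : G → ℂ), IsCharacter G χ → (∀ g : G, χ g = χ 1 → g = 1) → charDegree χ = n →
    ∀ (p q : ℕ) [Fact p.Prime] [Fact q.Prime], p ≠ q → n + 1 < p → n + 1 < q →
    ∀ P : Sylow p G, ∃ Q : Sylow q G, ∀ x ∈ P, ∀ y ∈ Q, x * y = y * x := by
  intro N
  induction N using Nat.strong_induction_on with
  | _ N ih =>
    intro G _ _ hN χ hχ hf hn p q _ _ hpq hpn hqn P
    have hp : p.Prime := Fact.out
    have hq : q.Prime := Fact.out
    -- the induction hypothesis for proper subgroups
    have ihL : ∀ L : Subgroup G, Nat.card L < Nat.card G → ∀ P' : Sylow p L,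
        ∃ Q' : Sylow q L, ∀ x ∈ P', ∀ y ∈ Q', x * y = y * x := by
      intro L hL
      have hfL : ∀ g : L, (fun h : L => χ h) g = (fun h : L => χ h) 1 → g = 1 := by
        intro g hg
        exact Subtype.ext (hf g hg)
      exact ih (Nat.card L) (hN ▸ hL) L rfl (fun h : L => χ h) (isCharacter_restrict L hχ) hfL hn
        p q hpq hpn hqn
    have hPab := sylow_comm_of_lt χ hχ hf n hn p (by omega) P
    by_contra hcon
    have hstar : ∀ x y : G, (∃ a, x ^ (p ^ a) = 1) → (∃ b, y ^ (q ^ b) = 1) → x * y = y * x →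
        x ∈ Subgroup.center G ∨ y ∈ Subgroup.center G := by
      intro x y hx hy hxy
      by_contra hnc
      push_neg at hnc
      obtain ⟨hxc, hyc⟩ := hnc
      obtain ⟨g, hg⟩ := exists_conj_mem_sylow P x hx
      set x' := g * x * g⁻¹ with hx'
      set y' := g * y * g⁻¹ with hy'
      have hx'c : x' ∉ Subgroup.center G := by
        intro h
        apply hxc
        have h2 := (inferInstance : (Subgroup.center G).Normal).conj_mem x' h g⁻¹
        have h3 : g⁻¹ * x' * g⁻¹⁻¹ = x := by rw [hx']; group
        rwa [h3] at h2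
      have hy'c : y' ∉ Subgroup.center G := by
        intro h
        apply hyc
        have h2 := (inferInstance : (Subgroup.center G).Normal).conj_mem y' h g⁻¹
        have h3 : g⁻¹ * y' * g⁻¹⁻¹ = y := by rw [hy']; group
        rwa [h3] at h2
      have hy'q : ∃ b, y' ^ (q ^ b) = 1 := by
        obtain ⟨b, hb⟩ := hy
        exact ⟨b, by rw [hy', conj_pow, hb, mul_one, mul_inv_cancel]⟩
      have hx'p : ∃ a, x' ^ (p ^ a) = 1 := by
        obtain ⟨a, ha⟩ := hx
        exact ⟨a, by rw [hx', conj_pow, ha, mul_one, mul_inv_cancel]⟩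
      have hx'y' : x' * y' = y' * x' := by
        have h1 : x' * y' = g * (x * y) * g⁻¹ := by rw [hx', hy']; group
        have h2 : y' * x' = g * (y * x) * g⁻¹ := by rw [hx', hy']; group
        rw [h1, h2, hxy]
      -- a Sylow `q`-subgroup containing `y'`
      obtain ⟨Q₀, hQ₀⟩ := (isPGroup_zpowers q y' hy'q).exists_le_sylow
      have hy'Q₀ : y' ∈ Q₀ := hQ₀ (Subgroup.mem_zpowers y')
      have hQ₀ab := sylow_comm_of_lt χ hχ hf n hn q (by omega) Q₀
      have hQ₀L : (Q₀ : Subgroup G) ≤ Subgroup.centralizer ({y'} : Set G) := by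
        intro z hz
        rw [Subgroup.mem_centralizer_iff]
        intro h hh
        rw [Set.mem_singleton_iff] at hh
        subst hh
        exact hQ₀ab _ hy'Q₀ z hz
      have hxL : Subgroup.zpowers x' ≤ Subgroup.centralizer ({y'} : Set G) := by
        rw [Subgroup.zpowers_le, Subgroup.mem_centralizer_iff]
        intro h hh
        rw [Set.mem_singleton_iff] at hh
        subst hh
        exact hx'y'.symm
      obtain ⟨Q₁, hQ₁⟩ := sylow_step p q (Subgroup.centralizer ({y'} : Set G))
        (ihL _ (card_centralizer_lt y' hy'c)) (Subgroup.zpowers x')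
        (isPGroup_zpowers p x' hx'p) hxL Q₀ hQ₀L
      have hQ₁L : (Q₁ : Subgroup G) ≤ Subgroup.centralizer ({x'} : Set G) := by
        intro z hz
        rw [Subgroup.mem_centralizer_iff]
        intro h hh
        rw [Set.mem_singleton_iff] at hh
        subst hh
        exact hQ₁ _ (Subgroup.mem_zpowers _) z hz
      have hPL : (P : Subgroup G) ≤ Subgroup.centralizer ({x'} : Set G) := by
        intro z hz
        rw [Subgroup.mem_centralizer_iff]
        intro h hh
        rw [Set.mem_singleton_iff] at hh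
        subst hh
        exact hPab _ hg z hz
      obtain ⟨Q₂, hQ₂⟩ := sylow_step p q (Subgroup.centralizer ({x'} : Set G))
        (ihL _ (card_centralizer_lt x' hx'c)) (P : Subgroup G) P.isPGroup' hPL Q₁ hQ₁L
      exact hcon ⟨Q₂, hQ₂⟩
    have hall := comm_of_star χ hχ hf n hn p q hp hq hpq hpn hqn hstar
    apply hcon
    obtain ⟨Q⟩ := (inferInstance : Nonempty (Sylow q G))
    refine ⟨Q, fun x hx y hy => hall x y ?_ ?_⟩
    · obtain ⟨k, hk⟩ := P.isPGroup' ⟨x, hx⟩
      exact ⟨k, congrArg Subtype.val hk⟩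
    · obtain ⟨k, hk⟩ := Q.isPGroup' ⟨y, hy⟩
      exact ⟨k, congrArg Subtype.val hk⟩

/-- The subgroup of central elements whose order involves only primes larger than `n + 1`. -/
def centralPi (G : Type*) [Group G] (n : ℕ) : Subgroup G where
  carrier := {z | z ∈ Subgroup.center G ∧ ∀ q : ℕ, q.Prime → q ∣ orderOf z → n + 1 < q}
  one_mem' := by
    refine ⟨Subgroup.one_mem _, ?_⟩
    intro q hq hdvd
    rw [orderOf_one, Nat.dvd_one] at hdvd
    exact absurd hdvd hq.ne_one
  mul_mem' := by
    rintro z w ⟨hz, hz'⟩ ⟨hw, hw'⟩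
    refine ⟨Subgroup.mul_mem _ hz hw, ?_⟩
    intro q hq hdvd
    have hcomm : Commute z w := Subgroup.mem_center_iff.1 hw z
    have h1 : q ∣ Nat.lcm (orderOf z) (orderOf w) := dvd_trans hdvd hcomm.orderOf_mul_dvd_lcm
    have h2 : q ∣ orderOf z * orderOf w := dvd_trans h1 (Nat.lcm_dvd_mul _ _)
    rcases (Nat.Prime.dvd_mul hq).1 h2 with h | h
    · exact hz' q hq h
    · exact hw' q hq h
  inv_mem' := by
    rintro z ⟨hz, hz'⟩
    refine ⟨Subgroup.inv_mem _ hz, ?_⟩
    intro q hq hdvd
    rw [orderOf_inv] at hdvd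
    exact hz' q hq hdvd

/-- **Blichfeldt's theorem**: a finite group with a faithful character of degree `n` has an
abelian Hall `π`-subgroup, where `π` is the set of primes larger than `n + 1`. -/
theorem blichfeldt_hall (n : ℕ) : ∀ (N : ℕ) (G : Type u) [Group G] [Finite G], Nat.card G = N →
    ∀ (χ : G → ℂ), IsCharacter G χ → (∀ g : G, χ g = χ 1 → g = 1) → charDegree χ = n →
    ∃ A : Subgroup G, (∀ x ∈ A, ∀ y ∈ A, x * y = y * x) ∧
      (∀ q : ℕ, q.Prime → q ∣ Nat.card A → n + 1 < q) ∧
      ∀ q : ℕ, q.Prime → q ∣ A.index → q ≤ n + 1 := by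
  intro N
  induction N using Nat.strong_induction_on with
  | _ N ih =>
    intro G _ _ hN χ hχ hf hn
    by_cases hcase : ∃ p : ℕ, p.Prime ∧ n + 1 < p ∧ ∃ x : G, (∃ a, x ^ (p ^ a) = 1) ∧
        x ∉ Subgroup.center G
    · -- a non-central `p`-element: pass to its centralizer
      obtain ⟨p, hp, hpn, x, hxp, hxc⟩ := hcase
      haveI : Fact p.Prime := ⟨hp⟩
      set L : Subgroup G := Subgroup.centralizer ({x} : Set G) with hL
      have hlt : Nat.card L < N := hN ▸ card_centralizer_lt x hxc
      have hfL : ∀ g : L, (fun h : L => χ h) g = (fun h : L => χ h) 1 → g = 1 := by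
        intro g hg
        exact Subtype.ext (hf g hg)
      obtain ⟨A₀, hab, hcard, hidx⟩ := ih (Nat.card L) hlt L rfl (fun h : L => χ h)
        (isCharacter_restrict L hχ) hfL hn
      -- a Sylow `p`-subgroup containing `x`
      obtain ⟨P, hP⟩ := (isPGroup_zpowers p x hxp).exists_le_sylow
      have hxP : x ∈ P := hP (Subgroup.mem_zpowers x)
      have hPab := sylow_comm_of_lt χ hχ hf n hn p (by omega) P
      have hPL : (P : Subgroup G) ≤ L := by
        intro z hz
        rw [hL, Subgroup.mem_centralizer_iff]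
        intro h hh
        rw [Set.mem_singleton_iff] at hh
        subst hh
        exact hPab _ hxP z hz
      refine ⟨A₀.map L.subtype, ?_, ?_, ?_⟩
      · intro a ha b hb
        obtain ⟨a', ha', rfl⟩ := Subgroup.mem_map.1 ha
        obtain ⟨b', hb', rfl⟩ := Subgroup.mem_map.1 hb
        exact congrArg Subtype.val (hab a' ha' b' hb')
      · intro q hq hdvd
        have h1 : Nat.card (A₀.map L.subtype) = Nat.card A₀ :=
          Nat.card_congr (A₀.equivMapOfInjective L.subtype L.subtype_injective).symm.toEquiv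
        rw [h1] at hdvd
        exact hcard q hq hdvd
      · intro q hq hdvd
        rw [Subgroup.index_map_subtype] at hdvd
        rcases (Nat.Prime.dvd_mul hq).1 hdvd with h | h
        · exact hidx q hq h
        · by_contra hqn
          push_neg at hqn
          haveI : Fact q.Prime := ⟨hq⟩
          by_cases hpq : p = q
          · subst hpq
            exact not_dvd_index_of_card_le L (P : Subgroup G) hPL P.card_eq_multiplicity h
          · obtain ⟨Q, hQ⟩ := sylow_commute n (Nat.card G) G rfl χ hχ hf hn p q hpq hpn hqn P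
            have hQL : (Q : Subgroup G) ≤ L := by
              intro z hz
              rw [hL, Subgroup.mem_centralizer_iff]
              intro h hh
              rw [Set.mem_singleton_iff] at hh
              subst hh
              exact hQ _ hxP z hz
            exact not_dvd_index_of_card_le L (Q : Subgroup G) hQL Q.card_eq_multiplicity h
    · -- all `p`-elements for large `p` are central
      push_neg at hcase
      refine ⟨centralPi G n, ?_, ?_, ?_⟩
      · intro a ha b hb
        exact Subgroup.mem_center_iff.1 hb.1 a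
      · intro q hq hdvd
        haveI : Fact q.Prime := ⟨hq⟩
        obtain ⟨z, hz⟩ := exists_prime_orderOf_dvd_card' q hdvd
        have h1 : orderOf (z : G) = q := by rw [Subgroup.orderOf_coe, hz]
        exact z.2.2 q hq (by rw [h1])
      · intro q hq hdvd
        by_contra hqn
        push_neg at hqn
        haveI : Fact q.Prime := ⟨hq⟩
        obtain ⟨Q⟩ := (inferInstance : Nonempty (Sylow q G))
        have hQA : (Q : Subgroup G) ≤ centralPi G n := by
          intro z hz
          obtain ⟨k, hk⟩ := Q.isPGroup' ⟨z, hz⟩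
          have hzk : z ^ (q ^ k) = 1 := congrArg Subtype.val hk
          refine ⟨hcase q hq hqn z ⟨k, hzk⟩, ?_⟩
          intro r hr hrdvd
          have h1 : r ∣ q ^ k := dvd_trans hrdvd (orderOf_dvd_of_pow_eq_one hzk)
          have h2 : r ∣ q := hr.dvd_of_dvd_pow h1
          have h3 : r = q := (Nat.prime_dvd_prime_iff_eq hr hq).1 h2
          rw [h3]; exact hqn
        exact not_dvd_index_of_card_le (centralPi G n) (Q : Subgroup G) hQA
          Q.card_eq_multiplicity hdvd

end Cfsg.Agent.Lib.Helper46
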