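import Mathlib
import Cfsg.Agent.Lib.Helper46.BlichE

/-!
# Brauer–Leonard, part 1: group theory

Let `P` be a Sylow `p`-subgroup of the finite group `G` such that every non-identity element of
`P` has the same centralizer `C = C_G(P)` as `P`.  We collect the group-theoretic facts used in
the character-theoretic argument: the set `A` of `p`-singular elements of `C` is a TI-set with
normalizer `N = N_G(P)`, the index `e = |N : C|` divides `|P| - 1`, and `C` retracts onto `P`
by a power map.
-/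

set_option autoImplicit false

namespace Cfsg.Agent.Lib.Helper46.BL1

open Subgroup

/-- The abstract configuration used in the character theory. -/
structure BLData {G : Type*} [Group G] (P C N : Subgroup G) (A : Set G) : Prop where
  hPC : P ≤ C
  hCN : C ≤ N
  hcent : ∀ x ∈ P, ∀ c ∈ C, x * c = c * x
  hNP : ∀ n ∈ N, ∀ x ∈ P, n * x * n⁻¹ ∈ P
  hNC : ∀ n ∈ N, ∀ c ∈ C, n * c * n⁻¹ ∈ C
  hfree : ∀ n ∈ N, ∀ x ∈ P, x ≠ 1 → n * x * n⁻¹ = x → n ∈ C
  hAC : ∀ a ∈ A, a ∈ C
  hTI : ∀ t ∈ A, ∀ g : G, g * t * g⁻¹ ∈ A → g ∈ N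
  hNA : ∀ n ∈ N, ∀ a ∈ A, n * a * n⁻¹ ∈ A
  hAcl : ∀ c ∈ C, ∀ g : G, g * c * g⁻¹ ∈ A → c ∈ A
  h1A : (1 : G) ∉ A
  hcoset : ∀ c ∈ C, ∀ x ∈ P, ∀ y ∈ P, x * c ∉ A → y * c ∉ A → x = y

section

variable {G : Type*} [Group G] [Finite G] {p : ℕ} [hp : Fact p.Prime] (P : Sylow p G)

/-- A `p`-element centralizing `P` lies in `P`. -/
theorem pelt {y : G} (hy : y ∈ centralizer ((P : Subgroup G) : Set G))
    (hq : ∃ a, y ^ (p ^ a) = 1) : y ∈ (P : Subgroup G) := by
  have h1 : IsPGroup p (zpowers y) := isPGroup_zpowers p y hq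
  have h2 : zpowers y ≤ normalizer ((P : Subgroup G) : Set G) := by
    rw [zpowers_le]
    exact centralizer_le_normalizer _ hy
  have h3 : IsPGroup p (zpowers y ⊔ (P : Subgroup G) : Subgroup G) :=
    IsPGroup.to_sup_of_normal_right' h1 P.2 h2
  have h4 := P.3 h3 le_sup_right
  have h5 : y ∈ zpowers y ⊔ (P : Subgroup G) :=
    (le_sup_left : zpowers y ≤ zpowers y ⊔ (P : Subgroup G)) (mem_zpowers y)
  rw [h4] at h5
  exact h5

theorem exists_pow_eq_one {y : G} (hy : y ∈ (P : Subgroup G)) : ∃ a, y ^ (p ^ a) = 1 := by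
  obtain ⟨a, ha⟩ := P.2 ⟨y, hy⟩
  refine ⟨a, ?_⟩
  have := congrArg Subtype.val ha
  simpa using this

theorem pow_card_P {y : G} (hy : y ∈ (P : Subgroup G)) : y ^ Nat.card P = 1 := by
  have h : (⟨y, hy⟩ : (P : Subgroup G)) ^ Nat.card (P : Subgroup G) = 1 := pow_card_eq_one'
  have h2 := congrArg Subtype.val h
  simpa only [Subgroup.coe_pow, Subgroup.coe_one] using h2

theorem coprime_index : Nat.Coprime (P : Subgroup G).index (Nat.card P) := by
  obtain ⟨a, ha⟩ := IsPGroup.iff_card.mp P.2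
  have h1 : ¬ p ∣ (P : Subgroup G).index := P.not_dvd_index
  have h2 : Nat.Coprime p (P : Subgroup G).index := (Nat.Prime.coprime_iff_not_dvd hp.out).mpr h1
  have h3 : Nat.card P = p ^ a := ha
  rw [h3]
  exact (Nat.Coprime.pow_left a h2).symm

/-- The `p'`-power map is injective on `P`. -/
theorem eq_one_of_pow_index {x : G} (hx : x ∈ (P : Subgroup G))
    (h : x ^ (P : Subgroup G).index = 1) : x = 1 := by
  have h1 := pow_card_P P hx
  have h2 := pow_gcd_eq_one.mpr ⟨h, h1⟩
  rw [Nat.Coprime.gcd_eq_one (coprime_index P), pow_one] at h2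
  exact h2

/-- The `p'`-power of an element of `C` lies in `P`. -/
theorem pow_index_mem {c : G} (hc : c ∈ centralizer ((P : Subgroup G) : Set G)) :
    c ^ (P : Subgroup G).index ∈ (P : Subgroup G) := by
  apply pelt P (pow_mem hc _)
  obtain ⟨a, ha⟩ := IsPGroup.iff_card.mp P.2
  refine ⟨a, ?_⟩
  have h3 : Nat.card P = p ^ a := ha
  rw [← h3, ← pow_mul, mul_comm]
  have h4 : Nat.card (P : Subgroup G) * (P : Subgroup G).index = Nat.card G :=
    Subgroup.card_mul_index _
  have h5 : Nat.card P * (P : Subgroup G).index = Nat.card G := h4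
  rw [h5]
  exact pow_card_eq_one'

variable (hstar : ∀ x ∈ (P : Subgroup G), x ≠ 1 →
    centralizer ({x} : Set G) = centralizer ((P : Subgroup G) : Set G))
include hstar

theorem P_le_C : (P : Subgroup G) ≤ centralizer ((P : Subgroup G) : Set G) := by
  intro x hx
  by_cases h1 : x = 1
  · rw [h1]; exact one_mem _
  · rw [← hstar x hx h1, mem_centralizer_iff]
    intro h hh
    rw [Set.mem_singleton_iff] at hh
    rw [hh]

theorem conj_mem_N {x g : G} (hx : x ∈ (P : Subgroup G)) (hx1 : x ≠ 1)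
    (hg : g * x * g⁻¹ ∈ (P : Subgroup G)) : g ∈ normalizer ((P : Subgroup G) : Set G) := by
  have hne : g * x * g⁻¹ ≠ 1 := by
    intro h
    apply hx1
    have h2 : x = g⁻¹ * (g * x * g⁻¹) * g := by group
    rw [h2, h]; group
  have hC := hstar _ hg hne
  have hincl : ∀ y ∈ (P : Subgroup G), g * y * g⁻¹ ∈ (P : Subgroup G) := by
    intro y hy
    apply pelt P
    · rw [← hC, mem_centralizer_iff]
      intro h hh
      rw [Set.mem_singleton_iff] at hh
      rw [hh]
      have hxy : x * y = y * x := mem_centralizer_iff.mp (P_le_C P hstar hy) x hx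
      calc g * x * g⁻¹ * (g * y * g⁻¹) = g * (x * y) * g⁻¹ := by group
        _ = g * (y * x) * g⁻¹ := by rw [hxy]
        _ = g * y * g⁻¹ * (g * x * g⁻¹) := by group
    · obtain ⟨a, ha⟩ := exists_pow_eq_one P hy
      exact ⟨a, by rw [conj_pow, ha]; group⟩
  rw [mem_normalizer_iff]
  intro h
  refine ⟨fun hh => hincl h hh, fun hh => ?_⟩
  let f : ↥(P : Subgroup G) → ↥(P : Subgroup G) := fun y => ⟨g * y * g⁻¹, hincl y y.2⟩
  have hinj : Function.Injective f := by
    intro a b hab
    have h2 := congrArg Subtype.val hab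
    simp only [f] at h2
    apply Subtype.ext
    have h3 : (a : G) = g⁻¹ * (g * a * g⁻¹) * g := by group
    rw [h3, h2]; group
  obtain ⟨y, hy⟩ := (Finite.injective_iff_surjective.mp hinj) ⟨g * h * g⁻¹, hh⟩
  have h2 := congrArg Subtype.val hy
  simp only [f] at h2
  have h3 : h = g⁻¹ * (g * h * g⁻¹) * g := by group
  rw [h3, ← h2]
  have h4 : g⁻¹ * (g * (y : G) * g⁻¹) * g = y := by group
  rw [h4]
  exact y.2

theorem N_conj_C {n c : G} (hn : n ∈ normalizer ((P : Subgroup G) : Set G))
    (hc : c ∈ centralizer ((P : Subgroup G) : Set G)) :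
    n * c * n⁻¹ ∈ centralizer ((P : Subgroup G) : Set G) := by
  rw [mem_centralizer_iff]
  intro h hh
  have h1 : n⁻¹ * h * n ∈ (P : Subgroup G) := (mem_normalizer_iff''.mp hn h).mp hh
  have h2 : n⁻¹ * h * n * c = c * (n⁻¹ * h * n) := mem_centralizer_iff.mp hc _ h1
  calc h * (n * c * n⁻¹) = n * (n⁻¹ * h * n * c) * n⁻¹ := by group
    _ = n * (c * (n⁻¹ * h * n)) * n⁻¹ := by rw [h2]
    _ = n * c * n⁻¹ * h := by group

/-- The configuration of Brauer–Leonard. -/
theorem blData : BLData (P : Subgroup G) (centralizer ((P : Subgroup G) : Set G))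
    (normalizer ((P : Subgroup G) : Set G))
    {c | c ∈ centralizer ((P : Subgroup G) : Set G) ∧ c ^ (P : Subgroup G).index ≠ 1} where
  hPC := P_le_C P hstar
  hCN := centralizer_le_normalizer _
  hcent := fun x hx c hc => mem_centralizer_iff.mp hc x hx
  hNP := fun n hn x hx => (mem_normalizer_iff.mp hn x).mp hx
  hNC := fun n hn c hc => N_conj_C P hstar hn hc
  hfree := by
    intro n hn x hx hx1 h
    rw [← hstar x hx hx1, mem_centralizer_iff]
    intro y hy
    rw [Set.mem_singleton_iff] at hy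
    rw [hy]
    calc x * n = n * x * n⁻¹ * n := by rw [h]
      _ = n * x := by group
  hAC := fun a ha => ha.1
  hTI := by
    intro t ht g hg
    have h1 := pow_index_mem P ht.1
    have h2 := pow_index_mem P hg.1
    rw [conj_pow] at h2
    exact conj_mem_N P hstar h1 ht.2 h2
  hNA := by
    intro n hn a ha
    refine ⟨N_conj_C P hstar hn ha.1, ?_⟩
    rw [conj_pow]
    intro h
    apply ha.2
    have h2 : a ^ (P : Subgroup G).index = n⁻¹ * (n * a ^ (P : Subgroup G).index * n⁻¹) * n := by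
      group
    rw [h2, h]; group
  hAcl := by
    intro c hc g hg
    refine ⟨hc, fun h => hg.2 ?_⟩
    rw [conj_pow, h]; group
  h1A := fun h => h.2 (one_pow _)
  hcoset := by
    intro c hc x hx y hy hxc hyc
    have hxC := P_le_C P hstar hx
    have hyC := P_le_C P hstar hy
    have h1 : (x * c) ^ (P : Subgroup G).index = 1 := by
      by_contra h
      exact hxc ⟨mul_mem hxC hc, h⟩
    have h2 : (y * c) ^ (P : Subgroup G).index = 1 := by
      by_contra h
      exact hyc ⟨mul_mem hyC hc, h⟩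
    have hcx : Commute x c := mem_centralizer_iff.mp hc x hx
    have hcy : Commute y c := mem_centralizer_iff.mp hc y hy
    rw [hcx.mul_pow] at h1
    rw [hcy.mul_pow] at h2
    have h3 : x ^ (P : Subgroup G).index = y ^ (P : Subgroup G).index := by
      rw [eq_inv_of_mul_eq_one_left h1, eq_inv_of_mul_eq_one_left h2]
    have hxy : Commute x y⁻¹ := by
      have : Commute x y := (mem_centralizer_iff.mp hyC x hx)
      exact this.inv_right
    have h4 : (x * y⁻¹) ^ (P : Subgroup G).index = 1 := by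
      rw [hxy.mul_pow, inv_pow, h3, mul_inv_cancel]
    have h5 := eq_one_of_pow_index P (mul_mem hx (inv_mem hy)) h4
    exact mul_inv_eq_one.mp h5

end

end Cfsg.Agent.Lib.Helper46.BL1
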