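import Mathlib
import Cfsg.Agent.Lib.Helper46.BL1

/-!
# Brauer–Leonard, part 1b: counting and transfer

`e = |N : C|` divides `|P| - 1`; the retraction of `C` onto `P`; Burnside's transfer theorem
in the case `N = C`.
-/

set_option autoImplicit false

namespace Cfsg.Agent.Lib.Helper46.BL1

open Subgroup

section count

variable {G : Type*} [Group G] [Finite G]

/-- `|N : C|` divides `|P| - 1`, by Burnside's orbit counting lemma. -/
theorem e_dvd {P C N : Subgroup G} {A : Set G} (h : BLData P C N A) (e : ℕ)
    (he : Nat.card N = e * Nat.card C) : e ∣ Nat.card P - 1 := by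
  classical
  let _i1 : SMul N P := ⟨fun n x => ⟨n * x * (n : G)⁻¹, h.hNP n n.2 x x.2⟩⟩
  have hsmul : ∀ (n : N) (x : P), ((n • x : P) : G) = n * x * (n : G)⁻¹ := fun n x => rfl
  let _i2 : MulAction N P :=
    { one_smul := fun x => Subtype.ext (by rw [hsmul]; simp)
      mul_smul := fun a b x => Subtype.ext (by rw [hsmul, hsmul, hsmul]; simp [mul_assoc]) }
  let _i3 : Fintype N := Fintype.ofFinite N
  let _i4 : Fintype P := Fintype.ofFinite P
  let _i5 : Fintype (MulAction.orbitRel.Quotient N P) := Fintype.ofFinite _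
  have hB := MulAction.sum_card_fixedBy_eq_card_orbits_mul_card_group N P
  have hfix : ∀ n : N, Fintype.card (MulAction.fixedBy P n) =
      if (n : G) ∈ C then Nat.card P else 1 := by
    intro n
    rw [Fintype.card_eq_nat_card]
    split_ifs with hn
    · have h1 : MulAction.fixedBy P n = Set.univ := by
        ext x
        simp only [MulAction.mem_fixedBy, Set.mem_univ, iff_true]
        apply Subtype.ext
        rw [hsmul]
        have h2 := h.hcent x x.2 n hn
        rw [← h2]; group
      rw [h1]; exact Nat.card_congr (Equiv.Set.univ _)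
    · have h1 : MulAction.fixedBy P n = {1} := by
        ext x
        simp only [MulAction.mem_fixedBy, Set.mem_singleton_iff]
        constructor
        · intro hx
          by_contra hx1
          have h2 := congrArg Subtype.val hx
          rw [hsmul] at h2
          exact hn (h.hfree n n.2 x x.2 (fun h3 => hx1 (Subtype.ext h3)) h2)
        · intro hx
          rw [hx]; apply Subtype.ext; rw [hsmul]; simp
      rw [h1]; simp
  rw [Finset.sum_congr rfl (fun n _ => hfix n)] at hB
  have hsum : ∑ n : N, (if (n : G) ∈ C then Nat.card P else 1) =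
      Nat.card C * Nat.card P + (Nat.card N - Nat.card C) := by
    rw [Finset.sum_ite, Finset.sum_const, Finset.sum_const, smul_eq_mul, smul_eq_mul, mul_one]
    have h1 : (Finset.univ.filter (fun n : N => (n : G) ∈ C)).card = Nat.card C := by
      rw [← Nat.card_congr (Subgroup.subgroupOfEquivOfLe h.hCN).toEquiv]
      rw [Nat.card_eq_fintype_card, Fintype.card_subtype]
      congr 1
    have h2 := Finset.card_filter_add_card_filter_not (s := (Finset.univ : Finset N))
      (fun n : N => (n : G) ∈ C)
    rw [Finset.card_univ, ← Nat.card_eq_fintype_card] at h2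
    rw [h1] at h2 ⊢
    omega
  rw [hsum, ← Nat.card_eq_fintype_card (α := N), he] at hB
  set a := Nat.card C with ha
  set q := Nat.card P with hq
  set k := Fintype.card (MulAction.orbitRel.Quotient N P) with hk
  have ha0 : 0 < a := Nat.card_pos
  have hq0 : 0 < q := Nat.card_pos
  have he0 : 0 < e := by
    rcases Nat.eq_zero_or_pos e with h0 | h0
    · have : Nat.card N = 0 := by rw [he, h0, zero_mul]
      have : 0 < Nat.card N := Nat.card_pos
      omega
    · exact h0
  have h3 : a ≤ e * a := Nat.le_mul_of_pos_left a he0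
  have h4 : a * (q + e) = a * (k * e + 1) := by
    have h5 : a * q + e * a = k * (e * a) + a := by omega
    calc a * (q + e) = a * q + e * a := by ring
      _ = k * (e * a) + a := h5
      _ = a * (k * e + 1) := by ring
  have h5 : q + e = k * e + 1 := Nat.eq_of_mul_eq_mul_left ha0 h4
  have hk0 : k ≠ 0 := by
    intro h0
    rw [h0] at h5
    omega
  obtain ⟨k', hk'⟩ := Nat.exists_eq_succ_of_ne_zero hk0
  refine ⟨k', ?_⟩
  rw [hk', Nat.succ_mul] at h5
  have : q = k' * e + 1 := by omega
  rw [this, Nat.add_sub_cancel, mul_comm]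

end count

section transfer

variable {G : Type*} [Group G] [Finite G] {p : ℕ} [hp : Fact p.Prime] (P : Sylow p G)

/-- Burnside: if `N_G(P) ≤ C_G(P)` there is a normal subgroup of index `|P|`. -/
theorem exists_normal_index
    (hNC : normalizer ((P : Subgroup G) : Set G) ≤ centralizer ((P : Subgroup G) : Set G)) :
    ∃ M : Subgroup G, M.Normal ∧ M.index = Nat.card P := by
  refine ⟨(MonoidHom.transferSylow P hNC).ker, MonoidHom.normal_ker _, ?_⟩
  have h := MonoidHom.ker_transferSylow_isComplement' P hNC
  exact h.symm.index_eq_card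

/-- Burnside: if `N_G(P) ≤ C_G(P)` every linear character of `P` extends to `G`. -/
theorem exists_lin_ext
    (hNC : normalizer ((P : Subgroup G) : Set G) ≤ centralizer ((P : Subgroup G) : Set G))
    (hq : 1 < Nat.card P) (l : (P : Subgroup G) →* ℂˣ) :
    ∃ L : G →* ℂˣ, ∀ x : (P : Subgroup G), L x = l x := by
  have hcop := coprime_index P
  obtain ⟨v, -, hv⟩ := Nat.exists_mul_mod_eq_one_of_coprime hcop hq
  refine ⟨(l ^ v).comp (MonoidHom.transferSylow P hNC), fun x => ?_⟩
  rw [MonoidHom.comp_apply, MonoidHom.transferSylow_eq_pow P hNC x x.2, MonoidHom.pow_apply]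
  have h1 : (⟨(x : G) ^ (P : Subgroup G).index, pow_mem x.2 _⟩ : (P : Subgroup G)) =
      x ^ (P : Subgroup G).index := Subtype.ext (by simp)
  have h2 : l x ^ Nat.card P = 1 := by
    rw [← map_pow]
    have : x ^ Nat.card P = 1 := pow_card_eq_one'
    rw [this, map_one]
  rw [h1, map_pow, ← pow_mul]
  conv_lhs => rw [← Nat.div_add_mod ((P : Subgroup G).index * v) (Nat.card P), hv]
  rw [pow_add, pow_mul, h2, one_pow, one_mul, pow_one]

variable (hstar : ∀ x ∈ (P : Subgroup G), x ≠ 1 →
    centralizer ({x} : Set G) = centralizer ((P : Subgroup G) : Set G))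
include hstar

/-- The retraction of `C` onto `P` is a power map. -/
theorem exists_retraction (hq : 1 < Nat.card P) :
    ∃ w : ℕ, (∀ x ∈ (P : Subgroup G), x ^ w = x) ∧
      (∀ c ∈ centralizer ((P : Subgroup G) : Set G), c ^ w ∈ (P : Subgroup G)) ∧
      (∀ c ∈ centralizer ((P : Subgroup G) : Set G),
        ∀ c' ∈ centralizer ((P : Subgroup G) : Set G), (c * c') ^ w = c ^ w * c' ^ w) ∧
      (∀ c ∈ centralizer ((P : Subgroup G) : Set G),
        c ^ (P : Subgroup G).index = 1 → c ^ w = 1) := by
  have hPC := P_le_C P hstar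
  have hPcomm : ∀ a ∈ (P : Subgroup G), ∀ b ∈ (P : Subgroup G), Commute a b :=
    fun a ha b hb => mem_centralizer_iff.mp (hPC hb) a ha
  have hP' : normalizer (((P.subtype hPC : Sylow p (centralizer ((P : Subgroup G) : Set G))) :
      Subgroup (centralizer ((P : Subgroup G) : Set G))) :
        Set (centralizer ((P : Subgroup G) : Set G))) ≤
      centralizer (((P.subtype hPC : Sylow p (centralizer ((P : Subgroup G) : Set G))) :
        Subgroup (centralizer ((P : Subgroup G) : Set G))) :
          Set (centralizer ((P : Subgroup G) : Set G))) := by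
    intro c _
    rw [mem_centralizer_iff]
    intro y hy
    have hy' : (y : G) ∈ (P : Subgroup G) := mem_subgroupOf.mp hy
    apply Subtype.ext
    have h1 := mem_centralizer_iff.mp c.2 (y : G) hy'
    simpa using h1
  set j := ((P.subtype hPC : Sylow p (centralizer ((P : Subgroup G) : Set G))) :
      Subgroup (centralizer ((P : Subgroup G) : Set G))).index with hj
  set m₀ := (P : Subgroup G).index with hm₀
  have hTP : ∀ c : centralizer ((P : Subgroup G) : Set G),
      ((MonoidHom.transferSylow (P.subtype hPC) hP' c :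
        centralizer ((P : Subgroup G) : Set G)) : G) ∈ (P : Subgroup G) := fun c =>
    mem_subgroupOf.mp (MonoidHom.transferSylow (P.subtype hPC) hP' c).2
  have key : ∀ c : centralizer ((P : Subgroup G) : Set G),
      ((MonoidHom.transferSylow (P.subtype hPC) hP' c :
        centralizer ((P : Subgroup G) : Set G)) : G) ^ m₀ = (c : G) ^ (m₀ * j) := by
    intro c
    have h1 : c ^ m₀ ∈ ((P.subtype hPC : Sylow p (centralizer ((P : Subgroup G) : Set G))) :
        Subgroup (centralizer ((P : Subgroup G) : Set G))) := by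
      show c ^ m₀ ∈ (P : Subgroup G).subgroupOf _
      rw [mem_subgroupOf]
      simpa using pow_index_mem P c.2
    have h2 := MonoidHom.transferSylow_eq_pow (P.subtype hPC) hP' (c ^ m₀) h1
    rw [map_pow] at h2
    have h4 := congrArg (fun z : ((P.subtype hPC : Sylow p (centralizer ((P : Subgroup G) : Set G))) :
        Subgroup (centralizer ((P : Subgroup G) : Set G))) =>
          ((z : centralizer ((P : Subgroup G) : Set G)) : G)) h2
    simp only [Subgroup.coe_pow] at h4
    rw [h4, pow_mul]
  have hcop : Nat.Coprime (m₀ * j) (Nat.card P) := by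
    apply Nat.Coprime.mul_left (coprime_index P)
    have h1 := coprime_index (P.subtype hPC)
    have h2 : Nat.card (P.subtype hPC : Sylow p (centralizer ((P : Subgroup G) : Set G))) =
        Nat.card P := Nat.card_congr (Subgroup.subgroupOfEquivOfLe hPC).toEquiv
    rw [h2] at h1
    exact h1
  obtain ⟨v, -, hv⟩ := Nat.exists_mul_mod_eq_one_of_coprime hcop hq
  have hF : ∀ c ∈ centralizer ((P : Subgroup G) : Set G), c ^ (m₀ * j) ∈ (P : Subgroup G) := by
    intro c hc
    rw [pow_mul]
    exact pow_mem (pow_index_mem P hc) _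
  refine ⟨m₀ * j * v, ?_, ?_, ?_, ?_⟩
  · intro x hx
    conv_lhs => rw [← Nat.div_add_mod (m₀ * j * v) (Nat.card P), hv]
    rw [pow_add, pow_mul, pow_card_P P hx, one_pow, one_mul, pow_one]
  · intro c hc
    rw [pow_mul]
    exact pow_mem (hF c hc) _
  · intro c hc c' hc'
    have h1 := key ⟨c, hc⟩
    have h2 := key ⟨c', hc'⟩
    have h3 := key (⟨c, hc⟩ * ⟨c', hc'⟩)
    rw [map_mul] at h3
    simp only [Subgroup.coe_mul] at h1 h2 h3
    rw [(hPcomm _ (hTP ⟨c, hc⟩) _ (hTP ⟨c', hc'⟩)).mul_pow, h1, h2] at h3
    rw [pow_mul, ← h3, (hPcomm _ (hF c hc) _ (hF c' hc')).mul_pow, ← pow_mul, ← pow_mul]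
  · intro c hc h1
    rw [mul_assoc, pow_mul, h1, one_pow]

end transfer

end Cfsg.Agent.Lib.Helper46.BL1
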