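import Mathlib
import Cfsg.Agent.Lib.Helper46.BL1b
import Cfsg.Agent.Lib.Helper83.Twist
import Cfsg.Agent.Lib.Helper4.CharDual
import Cfsg.Agent.Lib.Helper4.BrSpan
import Cfsg.Agent.Lib.Helper4.IndFun

/-!
# Brauer–Leonard, part 2: Fourier analysis on `P` and the structure of characters on `C`
-/

set_option autoImplicit false

namespace Cfsg.Agent.Lib.Helper46.BL2

open Cfsg Cfsg.Agent.Lib.Helper46.BL1
open scoped ComplexConjugate

section Fourier

variable {P : Type*} [Group P] [Fintype P]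

theorem hom_norm (l : P →* ℂˣ) (x : P) : ‖(l x : ℂ)‖ = 1 := by
  have h1 : (l x : ℂ) ^ orderOf x = 1 := by
    rw [← Units.val_pow_eq_pow_val, ← map_pow, pow_orderOf_eq_one, map_one, Units.val_one]
  exact Complex.norm_eq_one_of_pow_eq_one h1 (orderOf_pos x).ne'

theorem hom_conj (l : P →* ℂˣ) (x : P) : conj (l x : ℂ) = (((l x)⁻¹ : ℂˣ) : ℂ) := by
  rw [Units.val_inv_eq_inv_val, Complex.inv_eq_conj (hom_norm l x)]

theorem hom_orth (l m : P →* ℂˣ) [Decidable (l = m)] :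
    ∑ x : P, (l x : ℂ) * (((m x)⁻¹ : ℂˣ) : ℂ) = if l = m then (Fintype.card P : ℂ) else 0 := by
  classical
  have h := sum_hom_units ((Units.coeHom ℂ).comp (l * m⁻¹))
  have h1 : ∀ x : P, ((Units.coeHom ℂ).comp (l * m⁻¹)) x = (l x : ℂ) * (((m x)⁻¹ : ℂˣ) : ℂ) := by
    intro x
    simp
  rw [Finset.sum_congr rfl (fun x _ => h1 x)] at h
  rw [h]
  have h2 : ((Units.coeHom ℂ).comp (l * m⁻¹) = 1) ↔ l = m := by
    constructor
    · intro h3
      ext x
      have h4 := congrArg (fun f : P →* ℂ => f x) h3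
      simp only [h1, MonoidHom.one_apply] at h4
      have h5 : (l x * (m x)⁻¹ : ℂˣ) = 1 := by
        apply Units.ext
        rw [Units.val_mul, h4, Units.val_one]
      have h6 : l x = m x := by
        rw [mul_inv_eq_one] at h5
        exact h5
      rw [h6]
    · intro h3
      ext x
      rw [h1, h3, MonoidHom.one_apply, ← Units.val_mul, mul_inv_cancel, Units.val_one]
  by_cases hlm : l = m
  · rw [if_pos hlm, if_pos (h2.mpr hlm)]
  · rw [if_neg hlm, if_neg (fun h3 => hlm (h2.mp h3))]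
    simp

/-- Parseval on a finite group (bilinear form), for combinations of linear characters. -/
theorem parseval2 (s : Finset (P →* ℂˣ)) (a b : (P →* ℂˣ) → ℂ) :
    ∑ x : P, (∑ l ∈ s, (l x : ℂ) * a l) * conj (∑ l ∈ s, (l x : ℂ) * b l) =
      (Fintype.card P : ℂ) * ∑ l ∈ s, a l * conj (b l) := by
  classical
  have h1 : ∀ x : P, (∑ l ∈ s, (l x : ℂ) * a l) * conj (∑ l ∈ s, (l x : ℂ) * b l) =
      ∑ l ∈ s, ∑ m ∈ s, (a l * conj (b m)) * ((l x : ℂ) * (((m x)⁻¹ : ℂˣ) : ℂ)) := by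
    intro x
    rw [map_sum, Finset.sum_mul_sum]
    refine Finset.sum_congr rfl fun l _ => Finset.sum_congr rfl fun m _ => ?_
    rw [map_mul, hom_conj]
    ring
  rw [Finset.sum_congr rfl (fun x _ => h1 x), Finset.sum_comm, Finset.mul_sum]
  refine Finset.sum_congr rfl fun l hl => ?_
  rw [Finset.sum_comm]
  have h2 : ∀ m ∈ s, ∑ x : P, (a l * conj (b m)) * ((l x : ℂ) * (((m x)⁻¹ : ℂˣ) : ℂ)) =
      if l = m then (Fintype.card P : ℂ) * (a l * conj (b l)) else 0 := by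
    intro m _
    rw [← Finset.mul_sum, hom_orth]
    split_ifs with hlm
    · rw [hlm]; ring
    · ring
  rw [Finset.sum_congr rfl h2, Finset.sum_ite_eq, if_pos hl]

/-- Parseval on a finite group, for a combination of distinct linear characters. -/
theorem parseval (s : Finset (P →* ℂˣ)) (a : (P →* ℂˣ) → ℂ) :
    ∑ x : P, (∑ l ∈ s, (l x : ℂ) * a l) * conj (∑ l ∈ s, (l x : ℂ) * a l) =
      (Fintype.card P : ℂ) * ∑ l ∈ s, a l * conj (a l) :=
  parseval2 s a a

theorem parseval_re (s : Finset (P →* ℂˣ)) (a : (P →* ℂˣ) → ℂ) :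
    ∑ x : P, Complex.normSq (∑ l ∈ s, (l x : ℂ) * a l) =
      (Fintype.card P : ℝ) * ∑ l ∈ s, Complex.normSq (a l) := by
  have h := parseval s a
  simp only [Complex.mul_conj] at h
  exact_mod_cast h

/-- Cauchy–Schwarz form: the value at `1` is controlled by the average over `P`. -/
theorem fourier_cs (s : Finset (P →* ℂˣ)) (a : (P →* ℂˣ) → ℂ) :
    (Fintype.card P : ℝ) * Complex.normSq (∑ l ∈ s, a l) ≤
      s.card * ∑ x : P, Complex.normSq (∑ l ∈ s, (l x : ℂ) * a l) := by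
  rw [parseval_re]
  have h1 : Complex.normSq (∑ l ∈ s, a l) ≤ s.card * ∑ l ∈ s, Complex.normSq (a l) := by
    rw [Complex.normSq_eq_norm_sq]
    have h2 : ‖∑ l ∈ s, a l‖ ≤ ∑ l ∈ s, ‖a l‖ := norm_sum_le _ _
    have h3 : (∑ l ∈ s, ‖a l‖) ^ 2 ≤ s.card * ∑ l ∈ s, ‖a l‖ ^ 2 := sq_sum_le_card_mul_sum_sq
    have h4 : ‖∑ l ∈ s, a l‖ ^ 2 ≤ (∑ l ∈ s, ‖a l‖) ^ 2 :=
      pow_le_pow_left₀ (norm_nonneg _) h2 2
    have h5 : ∑ l ∈ s, ‖a l‖ ^ 2 = ∑ l ∈ s, Complex.normSq (a l) :=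
      Finset.sum_congr rfl fun l _ => (Complex.normSq_eq_norm_sq _).symm
    rw [← h5]
    exact h4.trans h3
  have h0 : (0 : ℝ) ≤ Fintype.card P := Nat.cast_nonneg _
  calc (Fintype.card P : ℝ) * Complex.normSq (∑ l ∈ s, a l)
      ≤ (Fintype.card P : ℝ) * (s.card * ∑ l ∈ s, Complex.normSq (a l)) :=
        mul_le_mul_of_nonneg_left h1 h0
    _ = s.card * ((Fintype.card P : ℝ) * ∑ l ∈ s, Complex.normSq (a l)) := by ring

end Fourier

end Cfsg.Agent.Lib.Helper46.BL2
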