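import Mathlib
import Cfsg.Agent.Lib.Helper46.BL2

/-!
# Brauer–Leonard, part 2b: types of irreducible characters of `C` and `P`-multiplicities
-/

set_option autoImplicit false

namespace Cfsg.Agent.Lib.Helper46.BL2

open Cfsg Cfsg.Agent.Lib.Helper46.BL1
open scoped ComplexConjugate
open Classical

section types

variable {G : Type*} [Group G] {P C N : Subgroup G} {A : Set G}

theorem exists_type (h : BLData P C N A) (φ : IrrCharacter C) :
    ∃ l : P →* ℂˣ, ∀ (x : P) (c : C),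
      (φ : C → ℂ) (⟨x, h.hPC x.2⟩ * c) = (l x : ℂ) * (φ : C → ℂ) c := by
  have hφ1 : (φ : C → ℂ) 1 ≠ 0 := Helper83.irr_one_ne_zero φ.2
  have hz : ∀ x : P, (⟨x, h.hPC x.2⟩ : C) ∈ Subgroup.center C := by
    intro x
    rw [Subgroup.mem_center_iff]
    intro g
    apply Subtype.ext
    exact (h.hcent x x.2 g g.2).symm
  have hmul : ∀ (x : P) (c : C), (φ : C → ℂ) (⟨x, h.hPC x.2⟩ * c) * (φ : C → ℂ) 1 =
      (φ : C → ℂ) ⟨x, h.hPC x.2⟩ * (φ : C → ℂ) c :=
    fun x c => Helper83.irr_central_mul φ _ (hz x) c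
  let a : P →* ℂ :=
    { toFun := fun x => (φ : C → ℂ) ⟨x, h.hPC x.2⟩ / (φ : C → ℂ) 1
      map_one' := by
        have h1 : (⟨((1 : P) : G), h.hPC (1 : P).2⟩ : C) = 1 := rfl
        rw [h1]; exact div_self hφ1
      map_mul' := by
        intro x y
        have h1 : (⟨((x * y : P) : G), h.hPC (x * y).2⟩ : C) =
            ⟨x, h.hPC x.2⟩ * ⟨y, h.hPC y.2⟩ := rfl
        have h2 := hmul x ⟨y, h.hPC y.2⟩
        rw [h1]
        field_simp
        exact h2 }
  refine ⟨a.toHomUnits, fun x c => ?_⟩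
  rw [MonoidHom.coe_toHomUnits]
  show _ = (φ : C → ℂ) ⟨x, h.hPC x.2⟩ / (φ : C → ℂ) 1 * (φ : C → ℂ) c
  have h2 := hmul x c
  field_simp
  exact h2

/-- The central character on `P` of an irreducible character of `C`. -/
noncomputable def ty (h : BLData P C N A) (φ : IrrCharacter C) : P →* ℂˣ :=
  Classical.choose (exists_type h φ)

theorem ty_spec (h : BLData P C N A) (φ : IrrCharacter C) (x : P) (c : C) :
    (φ : C → ℂ) (⟨x, h.hPC x.2⟩ * c) = (ty h φ x : ℂ) * (φ : C → ℂ) c :=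
  Classical.choose_spec (exists_type h φ) x c

theorem ty_lin (h : BLData P C N A) (φ : IrrCharacter C) (μ : C →* ℂˣ)
    (hμ : ∀ c, (φ : C → ℂ) c = μ c) (x : P) : ty h φ x = μ ⟨x, h.hPC x.2⟩ := by
  have h1 := ty_spec h φ x 1
  rw [mul_one, hμ, hμ, map_one, Units.val_one, mul_one] at h1
  exact Units.ext h1.symm

variable [Fintype P]

/-- The multiplicity of the linear character `l` of `P` in the restriction of `ψ`. -/
noncomputable def pm (ψ : G → ℂ) (l : P →* ℂˣ) : ℂ :=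
  (Nat.card P : ℂ)⁻¹ * ∑ x : P, ψ x * (((l x)⁻¹ : ℂˣ) : ℂ)

theorem pm_of_expand {ι : Type*} (I : Finset ι) (a : ι → ℂ) (t : ι → (P →* ℂˣ)) (ψ : G → ℂ)
    (hψ : ∀ x : P, ψ x = ∑ i ∈ I, a i * (t i x : ℂ)) (l : P →* ℂˣ) :
    pm ψ l = ∑ i ∈ I, if t i = l then a i else 0 := by
  unfold pm
  have h1 : ∀ x : P, ψ x * (((l x)⁻¹ : ℂˣ) : ℂ) =
      ∑ i ∈ I, a i * ((t i x : ℂ) * (((l x)⁻¹ : ℂˣ) : ℂ)) := by
    intro x
    rw [hψ, Finset.sum_mul]
    exact Finset.sum_congr rfl fun i _ => by ring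
  rw [Finset.sum_congr rfl (fun x _ => h1 x), Finset.sum_comm, Finset.mul_sum]
  refine Finset.sum_congr rfl fun i _ => ?_
  rw [← Finset.mul_sum, hom_orth, Nat.card_eq_fintype_card]
  have hq : (Fintype.card P : ℂ) ≠ 0 := Nat.cast_ne_zero.mpr Fintype.card_ne_zero
  split_ifs with hi
  · field_simp
  · simp

theorem expand_pm [Fintype (P →* ℂˣ)] {ι : Type*} (I : Finset ι) (a : ι → ℂ)
    (t : ι → (P →* ℂˣ)) (ψ : G → ℂ)
    (hψ : ∀ x : P, ψ x = ∑ i ∈ I, a i * (t i x : ℂ)) (x : P) :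
    ψ x = ∑ l : P →* ℂˣ, pm ψ l * (l x : ℂ) := by
  have h1 : ∀ l : P →* ℂˣ, pm ψ l * (l x : ℂ) =
      ∑ i ∈ I, if t i = l then a i * (t i x : ℂ) else 0 := by
    intro l
    rw [pm_of_expand I a t ψ hψ, Finset.sum_mul]
    refine Finset.sum_congr rfl fun i _ => ?_
    split_ifs with hi
    · rw [hi]
    · rw [zero_mul]
  rw [Finset.sum_congr rfl (fun l _ => h1 l), Finset.sum_comm, hψ]
  refine Finset.sum_congr rfl fun i _ => ?_
  rw [Finset.sum_ite_eq, if_pos (Finset.mem_univ _)]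

variable [Fintype G] [Fintype C] [Fintype (IrrCharacter C)]

/-- The structure of a character of `G` on `C`. -/
theorem char_struct (h : BLData P C N A) (ψ : G → ℂ) (hψ : IsCharacter G ψ) :
    ∃ m : IrrCharacter C → ℕ,
      (∀ φ : IrrCharacter C, classInner (fun c : C => ψ c) (φ : C → ℂ) = m φ) ∧
      (∀ c : C, ψ c = ∑ φ : IrrCharacter C, (m φ : ℂ) * (φ : C → ℂ) c) ∧
      (∀ (x : P) (c : C), ψ ((x : G) * (c : G)) =
        ∑ φ : IrrCharacter C, (m φ : ℂ) * ((ty h φ x : ℂ) * (φ : C → ℂ) c)) ∧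
      (∀ l : P →* ℂˣ, pm ψ l =
        ((∑ φ : IrrCharacter C, if ty h φ = l then m φ * charDegree (φ : C → ℂ) else 0 : ℕ) : ℂ)) ∧
      (∀ φ : IrrCharacter C, m φ ≠ 0 → pm ψ (ty h φ) ≠ 0) := by
  have hψC : IsCharacter C (fun c : C => ψ c) := Helper4.isCharacter_restrict C ψ hψ
  obtain ⟨m, hm⟩ := Helper4.exists_decomp_of_isCharacter _ hψC
  have h2 : ∀ c : C, ψ c = ∑ φ : IrrCharacter C, (m φ : ℂ) * (φ : C → ℂ) c := by
    intro c
    have h3 := congrFun hm c
    simpa [Finset.sum_apply] using h3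
  have h3 : ∀ (x : P) (c : C), ψ ((x : G) * (c : G)) =
      ∑ φ : IrrCharacter C, (m φ : ℂ) * ((ty h φ x : ℂ) * (φ : C → ℂ) c) := by
    intro x c
    have h4 := h2 (⟨x, h.hPC x.2⟩ * c)
    rw [show ((x : G) * (c : G)) = ((⟨x, h.hPC x.2⟩ * c : C) : G) from rfl, h4]
    refine Finset.sum_congr rfl fun φ _ => ?_
    rw [ty_spec]
  have h4 : ∀ l : P →* ℂˣ, pm ψ l =
      ((∑ φ : IrrCharacter C, if ty h φ = l then m φ * charDegree (φ : C → ℂ) else 0 : ℕ) : ℂ) := by
    intro l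
    have h5 : ∀ x : P, ψ x = ∑ φ ∈ (Finset.univ : Finset (IrrCharacter C)),
        ((m φ : ℂ) * (charDegree (φ : C → ℂ) : ℂ)) * (ty h φ x : ℂ) := by
      intro x
      have h6 := h3 x 1
      rw [show ((x : G) * ((1 : C) : G)) = (x : G) by simp] at h6
      rw [h6]
      refine Finset.sum_congr rfl fun φ _ => ?_
      rw [(Helper83.irr_degree φ.2).2]
      ring
    rw [pm_of_expand _ _ _ ψ h5 l]
    push_cast
    refine Finset.sum_congr rfl fun φ _ => ?_
    split_ifs <;> simp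
  refine ⟨m, fun φ => ?_, h2, h3, h4, fun φ hφ => ?_⟩
  · rw [hm]; exact Helper4.classInner_sum_irr _ φ
  · rw [h4]
    have h5 : 0 < ∑ φ' : IrrCharacter C,
        if ty h φ' = ty h φ then m φ' * charDegree (φ' : C → ℂ) else 0 := by
      apply Finset.sum_pos' (fun _ _ => Nat.zero_le _)
      refine ⟨φ, Finset.mem_univ _, ?_⟩
      rw [if_pos rfl]
      exact Nat.mul_pos (Nat.pos_of_ne_zero hφ) (Helper83.irr_degree φ.2).1
    exact_mod_cast h5.ne'

theorem pm_nat (h : BLData P C N A) (ψ : G → ℂ) (hψ : IsCharacter G ψ) (l : P →* ℂˣ) :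
    ∃ k : ℕ, pm ψ l = k := by
  obtain ⟨m, -, -, -, h4, -⟩ := char_struct h ψ hψ
  exact ⟨_, h4 l⟩

variable [Fintype (P →* ℂˣ)]

/-- Fourier expansion of a character of `G` on `P`. -/
theorem char_expand (h : BLData P C N A) (ψ : G → ℂ) (hψ : IsCharacter G ψ) (x : P) :
    ψ x = ∑ l : P →* ℂˣ, pm ψ l * (l x : ℂ) := by
  obtain ⟨m, -, -, h3, -, -⟩ := char_struct h ψ hψ
  have h5 : ∀ x : P, ψ x = ∑ φ ∈ (Finset.univ : Finset (IrrCharacter C)),
      ((m φ : ℂ) * (φ : C → ℂ) 1) * (ty h φ x : ℂ) := by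
    intro x
    have h6 := h3 x 1
    rw [show ((x : G) * ((1 : C) : G)) = (x : G) by simp] at h6
    rw [h6]
    exact Finset.sum_congr rfl fun φ _ => by ring
  exact expand_pm _ _ _ ψ h5 x

variable (P) in
/-- The support of the restriction of `ψ` to `P`. -/
noncomputable def suppF (ψ : G → ℂ) : Finset (P →* ℂˣ) :=
  Finset.univ.filter (fun l => pm ψ l ≠ 0)

theorem mem_suppF (ψ : G → ℂ) (l : P →* ℂˣ) : l ∈ suppF P ψ ↔ pm ψ l ≠ 0 := by
  simp [suppF]

theorem sum_pm (h : BLData P C N A) (ψ : G → ℂ) (hψ : IsCharacter G ψ) :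
    ψ 1 = ∑ l : P →* ℂˣ, pm ψ l := by
  have h1 := char_expand h ψ hψ 1
  simpa using h1

/-- The number of `P`-types is at most the degree. -/
theorem card_supp_le (h : BLData P C N A) (ψ : G → ℂ) (hψ : IsCharacter G ψ) (d : ℕ)
    (hd : ψ 1 = d) : (suppF P ψ).card ≤ d := by
  obtain ⟨m, -, -, -, h4, -⟩ := char_struct h ψ hψ
  have h1 := sum_pm h ψ hψ
  rw [hd, Finset.sum_congr rfl (fun l _ => h4 l)] at h1
  have h2 : d = ∑ l : P →* ℂˣ,
      ∑ φ : IrrCharacter C, if ty h φ = l then m φ * charDegree (φ : C → ℂ) else 0 := by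
    exact_mod_cast h1
  rw [h2, Finset.card_eq_sum_ones]
  unfold suppF
  rw [Finset.sum_filter]
  refine Finset.sum_le_sum fun l _ => ?_
  split_ifs with hl
  · rw [h4] at hl
    have : (∑ φ : IrrCharacter C, if ty h φ = l then m φ * charDegree (φ : C → ℂ) else 0) ≠ 0 := by
      intro h0
      apply hl
      rw [h0]; simp
    omega
  · exact Nat.zero_le _

/-- The squared norm of `ψ` on `C` is at least the number of `P`-types. -/
theorem card_supp_le_normsq (h : BLData P C N A) (ψ : G → ℂ) (hψ : IsCharacter G ψ) :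
    ((suppF P ψ).card : ℝ) * Nat.card C ≤ ∑ c : C, Complex.normSq (ψ c) := by
  obtain ⟨m, hm1, hm2, -, h4, hm5⟩ := char_struct h ψ hψ
  have hfun : (fun c : C => ψ c) = ∑ φ : IrrCharacter C, (m φ : ℂ) • (φ : C → ℂ) := by
    funext c
    rw [hm2 c]
    simp [Finset.sum_apply]
  have h1 := Helper4.classInner_sum_sum_irr (fun φ : IrrCharacter C => (m φ : ℂ))
    (fun φ : IrrCharacter C => (m φ : ℂ))
  rw [← hfun] at h1
  unfold classInner at h1
  have hC : (Nat.card C : ℂ) ≠ 0 := Nat.cast_ne_zero.mpr Nat.card_pos.ne'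
  have h2 : ∑ c : C, ψ c * conj (ψ c) =
      (Nat.card C : ℂ) * ∑ φ : IrrCharacter C, (m φ : ℂ) * conj (m φ : ℂ) := by
    rw [← h1]
    field_simp
  simp only [Complex.mul_conj, Complex.conj_natCast] at h2
  have h3 : ∑ c : C, Complex.normSq (ψ c) =
      (Nat.card C : ℝ) * ((∑ φ : IrrCharacter C, m φ * m φ : ℕ) : ℝ) := by
    have h3' : ((∑ c : C, Complex.normSq (ψ c) : ℝ) : ℂ) =
        (((Nat.card C : ℝ) * ((∑ φ : IrrCharacter C, m φ * m φ : ℕ) : ℝ) : ℝ) : ℂ) := by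
      push_cast
      push_cast at h2
      rw [h2]
    exact_mod_cast h3'
  rw [h3, mul_comm]
  apply mul_le_mul_of_nonneg_left _ (Nat.cast_nonneg _)
  have h5 : (suppF P ψ).card ≤ ∑ φ : IrrCharacter C, m φ * m φ := by
    have hsub : suppF P ψ ⊆ (Finset.univ.filter (fun φ : IrrCharacter C => m φ ≠ 0)).image (ty h) := by
      intro l hl
      rw [mem_suppF, h4] at hl
      have hne : (∑ φ : IrrCharacter C, if ty h φ = l then m φ * charDegree (φ : C → ℂ) else 0) ≠ 0 := by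
        intro h0
        apply hl
        rw [h0]; simp
      obtain ⟨φ, -, hφ⟩ := Finset.exists_ne_zero_of_sum_ne_zero hne
      rw [Finset.mem_image]
      by_cases hty : ty h φ = l
      · rw [if_pos hty] at hφ
        refine ⟨φ, ?_, hty⟩
        rw [Finset.mem_filter]
        exact ⟨Finset.mem_univ _, fun h0 => hφ (by rw [h0, zero_mul])⟩
      · rw [if_neg hty] at hφ
        exact absurd rfl hφ
    calc (suppF P ψ).card ≤ ((Finset.univ.filter (fun φ : IrrCharacter C => m φ ≠ 0)).image (ty h)).card :=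
          Finset.card_le_card hsub
      _ ≤ (Finset.univ.filter (fun φ : IrrCharacter C => m φ ≠ 0)).card := Finset.card_image_le
      _ = ∑ φ ∈ Finset.univ.filter (fun φ : IrrCharacter C => m φ ≠ 0), 1 := Finset.card_eq_sum_ones _
      _ ≤ ∑ φ ∈ Finset.univ.filter (fun φ : IrrCharacter C => m φ ≠ 0), m φ * m φ := by
          refine Finset.sum_le_sum fun φ hφ => ?_
          rw [Finset.mem_filter] at hφ
          exact Nat.mul_pos (Nat.pos_of_ne_zero hφ.2) (Nat.pos_of_ne_zero hφ.2)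
      _ ≤ ∑ φ : IrrCharacter C, m φ * m φ :=
          Finset.sum_le_sum_of_subset (Finset.filter_subset _ _)
  exact_mod_cast h5

/-- **Lemma P**: the value at `c ∈ C` is controlled by the average over the coset `Pc`. -/
theorem lemmaP (h : BLData P C N A) (ψ : G → ℂ) (hψ : IsCharacter G ψ) (c : C) :
    (Nat.card P : ℝ) * Complex.normSq (ψ c) ≤
      (suppF P ψ).card * ∑ x : P, Complex.normSq (ψ ((x : G) * (c : G))) := by
  obtain ⟨m, -, -, hm3, -, hm5⟩ := char_struct h ψ hψ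
  set a : (P →* ℂˣ) → ℂ := fun l =>
    ∑ φ : IrrCharacter C, if ty h φ = l then (m φ : ℂ) * (φ : C → ℂ) c else 0 with ha
  have key : ∀ x : P, ψ ((x : G) * (c : G)) = ∑ l ∈ suppF P ψ, (l x : ℂ) * a l := by
    intro x
    rw [hm3 x c]
    have h1 : ∀ l ∈ suppF P ψ, (l x : ℂ) * a l =
        ∑ φ : IrrCharacter C, if ty h φ = l then (m φ : ℂ) * ((ty h φ x : ℂ) * (φ : C → ℂ) c) else 0 := by
      intro l _
      rw [ha, Finset.mul_sum]
      refine Finset.sum_congr rfl fun φ _ => ?_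
      split_ifs with hφ
      · rw [hφ]; ring
      · rw [mul_zero]
    rw [Finset.sum_congr rfl h1, Finset.sum_comm]
    refine Finset.sum_congr rfl fun φ _ => ?_
    rw [Finset.sum_ite_eq]
    split_ifs with hφ
    · rfl
    · rw [mem_suppF] at hφ
      have : m φ = 0 := by
        by_contra h0
        exact hφ (hm5 φ h0)
      rw [this]; simp
  have h1 := fourier_cs (suppF P ψ) a
  have h2 : ψ c = ∑ l ∈ suppF P ψ, a l := by
    have h3 := key 1
    rw [show (((1 : P) : G) * (c : G)) = (c : G) by simp] at h3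
    rw [h3]
    refine Finset.sum_congr rfl fun l _ => ?_
    rw [map_one, Units.val_one, one_mul]
  have h3 : ∑ x : P, Complex.normSq (ψ ((x : G) * (c : G))) =
      ∑ x : P, Complex.normSq (∑ l ∈ suppF P ψ, (l x : ℂ) * a l) :=
    Finset.sum_congr rfl (fun x _ => by rw [key x])
  rw [h2, Nat.card_eq_fintype_card, h3]
  exact h1

/-- A linear constituent of `ψ` on `C` has its restriction to `P` in the support. -/
theorem lin_mem_supp (h : BLData P C N A) (ψ : G → ℂ) (hψ : IsCharacter G ψ) (μ : C →* ℂˣ)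
    (hμ : classInner (fun c : C => ψ c) (fun c : C => (μ c : ℂ)) ≠ 0) :
    μ.comp (Subgroup.inclusion h.hPC) ∈ suppF P ψ := by
  obtain ⟨m, hm1, -, -, -, hm5⟩ := char_struct h ψ hψ
  set φ : IrrCharacter C := ⟨fun c => (μ c : ℂ), Helper4.isIrrCharacter_lin μ⟩ with hφ
  have h1 : m φ ≠ 0 := by
    intro h0
    apply hμ
    have := hm1 φ
    rw [h0] at this
    simpa using this
  have h2 := hm5 φ h1
  have h3 : ty h φ = μ.comp (Subgroup.inclusion h.hPC) := by
    ext x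
    rw [ty_lin h φ μ (fun c => rfl) x]
    rfl
  rw [mem_suppF, ← h3]
  exact h2

end types

end Cfsg.Agent.Lib.Helper46.BL2
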