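import Mathlib
import Cfsg.Agent.Lib.Helper46.BL2b
import Cfsg.Agent.Lib.Helper83.Central

/-!
# Brauer–Leonard, part 3: the TI inequality

For an irreducible character `θ` of `G` with `r` distinct `P`-types, `(q - r) r < e q`.
-/

set_option autoImplicit false

namespace Cfsg.Agent.Lib.Helper46.BL2

open Cfsg Cfsg.Agent.Lib.Helper46.BL1
open scoped ComplexConjugate
open Classical

section TI

variable {G : Type*} [Group G] {P C N : Subgroup G} {A : Set G} [Fintype G]

theorem ti_count (h : BLData P C N A) (g : G) :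
    (Finset.univ.filter (fun x : G => x⁻¹ * g * x ∈ A)).card ≤ Nat.card N := by
  by_cases hne : (Finset.univ.filter (fun x : G => x⁻¹ * g * x ∈ A)).Nonempty
  · obtain ⟨x₀, hx₀⟩ := hne
    rw [Finset.mem_filter] at hx₀
    letI : Fintype N := Fintype.ofFinite N
    have hsub : Finset.univ.filter (fun x : G => x⁻¹ * g * x ∈ A) ⊆
        (Finset.univ : Finset N).image (fun n : N => x₀ * (n : G)) := by
      intro x hx
      rw [Finset.mem_filter] at hx
      rw [Finset.mem_image]
      have h1 : x⁻¹ * x₀ * (x₀⁻¹ * g * x₀) * (x⁻¹ * x₀)⁻¹ ∈ A := by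
        have : x⁻¹ * x₀ * (x₀⁻¹ * g * x₀) * (x⁻¹ * x₀)⁻¹ = x⁻¹ * g * x := by group
        rw [this]; exact hx.2
      have h2 := h.hTI _ hx₀.2 _ h1
      have h3 : x₀⁻¹ * x ∈ N := by
        have := N.inv_mem h2
        simpa using this
      exact ⟨⟨x₀⁻¹ * x, h3⟩, Finset.mem_univ _, by simp⟩
    calc (Finset.univ.filter (fun x : G => x⁻¹ * g * x ∈ A)).card
        ≤ ((Finset.univ : Finset N).image (fun n : N => x₀ * (n : G))).card :=
          Finset.card_le_card hsub
      _ ≤ (Finset.univ : Finset N).card := Finset.card_image_le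
      _ = Nat.card N := by rw [Finset.card_univ, Nat.card_eq_fintype_card]
  · rw [Finset.not_nonempty_iff_eq_empty] at hne
    rw [hne]; simp

/-- The TI-counting inequality for a non-negative class function. -/
theorem ti_bound (h : BLData P C N A) (f : G → ℝ) (hf : ∀ g x : G, f (x * g * x⁻¹) = f g)
    (hf0 : ∀ g, 0 ≤ f g) :
    (Nat.card G : ℝ) * ∑ g : G, (if g ∈ A then f g else 0) ≤
      Nat.card N * ∑ g : G, (if g = 1 then 0 else f g) := by
  have h1 : (Nat.card G : ℝ) * ∑ g : G, (if g ∈ A then f g else 0) =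
      ∑ x : G, ∑ g : G, (if x⁻¹ * g * x ∈ A then f g else 0) := by
    rw [Nat.card_eq_fintype_card, ← Finset.card_univ, ← nsmul_eq_mul, ← Finset.sum_const]
    refine Finset.sum_congr rfl fun x _ => ?_
    rw [← Equiv.sum_comp (MulAut.conj x).toEquiv (fun g => if x⁻¹ * g * x ∈ A then f g else 0)]
    refine Finset.sum_congr rfl fun g _ => ?_
    have h2 : x⁻¹ * ((MulAut.conj x).toEquiv g) * x = g := by
      simp [MulAut.conj_apply]
      group
    have h3 : f ((MulAut.conj x).toEquiv g) = f g := by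
      have := hf g x
      simpa [MulAut.conj_apply] using this
    show _ = if x⁻¹ * ((MulAut.conj x).toEquiv g) * x ∈ A then f ((MulAut.conj x).toEquiv g) else 0
    rw [h2, h3]
  rw [h1, Finset.sum_comm, Finset.mul_sum]
  refine Finset.sum_le_sum fun g _ => ?_
  have h2 : ∑ x : G, (if x⁻¹ * g * x ∈ A then f g else 0) =
      ((Finset.univ.filter (fun x : G => x⁻¹ * g * x ∈ A)).card : ℝ) * f g := by
    rw [← Finset.sum_filter, Finset.sum_const, nsmul_eq_mul]
  rw [h2]
  by_cases hg : g = 1
  · rw [if_pos hg, mul_zero]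
    have : Finset.univ.filter (fun x : G => x⁻¹ * g * x ∈ A) = ∅ := by
      rw [Finset.filter_eq_empty_iff]
      intro x _
      rw [hg]
      simpa using h.h1A
    rw [this]; simp
  · rw [if_neg hg]
    exact mul_le_mul_of_nonneg_right (by exact_mod_cast ti_count h g) (hf0 g)

/-- The sum of `|θ|²` over the TI-set `A` is less than `|N|`. -/
theorem ti_irr (h : BLData P C N A) (θ : IrrCharacter G) :
    ∑ g : G, (if g ∈ A then Complex.normSq ((θ : G → ℂ) g) else 0) < Nat.card N := by
  have hcl : ∀ g x : G, Complex.normSq ((θ : G → ℂ) (x * g * x⁻¹)) =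
      Complex.normSq ((θ : G → ℂ) g) := by
    intro g x
    rw [Helper4.isClassFunction_irr θ g x]
  have h1 := ti_bound h (fun g => Complex.normSq ((θ : G → ℂ) g)) hcl (fun g => Complex.normSq_nonneg _)
  have h2 := Helper83.sum_normsq_eq θ
  have h3 : ∑ g : G, (if g = 1 then 0 else Complex.normSq ((θ : G → ℂ) g)) =
      (Nat.card G : ℝ) - Complex.normSq ((θ : G → ℂ) 1) := by
    rw [← h2]
    have h4 : ∀ g : G, (if g = 1 then 0 else Complex.normSq ((θ : G → ℂ) g)) =
        ‖(θ : G → ℂ) g‖ ^ 2 - (if g = 1 then Complex.normSq ((θ : G → ℂ) 1) else 0) := by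
      intro g
      split_ifs with hg
      · rw [hg, Complex.normSq_eq_norm_sq]; ring
      · rw [Complex.normSq_eq_norm_sq]; ring
    rw [Finset.sum_congr rfl (fun g _ => h4 g), Finset.sum_sub_distrib, Finset.sum_ite_eq',
      if_pos (Finset.mem_univ _)]
  rw [h3] at h1
  have h5 : 0 < Complex.normSq ((θ : G → ℂ) 1) :=
    Complex.normSq_pos.mpr (Helper83.irr_one_ne_zero θ.2)
  have hG : (0 : ℝ) < Nat.card G := Nat.cast_pos.mpr Nat.card_pos
  have hN : (0 : ℝ) < Nat.card N := Nat.cast_pos.mpr Nat.card_pos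
  have h6 : (Nat.card G : ℝ) * ∑ g : G, (if g ∈ A then Complex.normSq ((θ : G → ℂ) g) else 0) <
      Nat.card G * Nat.card N := by
    calc (Nat.card G : ℝ) * ∑ g : G, (if g ∈ A then Complex.normSq ((θ : G → ℂ) g) else 0)
        ≤ Nat.card N * ((Nat.card G : ℝ) - Complex.normSq ((θ : G → ℂ) 1)) := h1
      _ < Nat.card N * (Nat.card G : ℝ) := by
          apply mul_lt_mul_of_pos_left _ hN
          linarith
      _ = Nat.card G * Nat.card N := by ring
  exact lt_of_mul_lt_mul_left h6 hG.le

end TI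

end Cfsg.Agent.Lib.Helper46.BL2
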