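import Mathlib
import Cfsg.Agent.Lib.Helper46.BL3

/-!
# Brauer–Leonard, part 3b: the inequality `(q - r) r < e q`
-/

set_option autoImplicit false

namespace Cfsg.Agent.Lib.Helper46.BL2

open Cfsg Cfsg.Agent.Lib.Helper46.BL1
open scoped ComplexConjugate
open Classical

section Star

variable {G : Type*} [Group G] {P C N : Subgroup G} {A : Set G} [Fintype G]
  [Fintype P] [Fintype C] [Fintype (IrrCharacter C)] [Fintype (P →* ℂˣ)]

theorem sum_C_eq_sum_G (h : BLData P C N A) (F : G → ℝ) :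
    ∑ c : C, (if (c : G) ∈ A then F c else 0) = ∑ g : G, (if g ∈ A then F g else 0) := by
  rw [← Finset.sum_subtype (Finset.univ.filter (· ∈ C)) (by simp)
    (fun g => if g ∈ A then F g else 0)]
  apply Finset.sum_subset (Finset.subset_univ _)
  intro g _ hg
  rw [Finset.mem_filter] at hg
  have hgC : g ∉ C := fun hC => hg ⟨Finset.mem_univ _, hC⟩
  rw [if_neg (fun hA => hgC (h.hAC g hA))]

theorem coset_ineq (h : BLData P C N A) (θ : G → ℂ) (hθ : IsCharacter G θ) (c : C) :
    ((Nat.card P : ℝ) - (suppF P θ).card) * ∑ x : P, Complex.normSq (θ ((x : G) * (c : G))) ≤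
      (Nat.card P : ℝ) * ∑ x : P, (if (x : G) * (c : G) ∈ A then
        Complex.normSq (θ ((x : G) * (c : G))) else 0) := by
  have hS : 0 ≤ ∑ x : P, Complex.normSq (θ ((x : G) * (c : G))) :=
    Finset.sum_nonneg fun x _ => Complex.normSq_nonneg _
  have hr : (0 : ℝ) ≤ (suppF P θ).card := Nat.cast_nonneg _
  by_cases hall : ∀ x : P, (x : G) * (c : G) ∈ A
  · have h1 : ∑ x : P, (if (x : G) * (c : G) ∈ A then
        Complex.normSq (θ ((x : G) * (c : G))) else 0) =
        ∑ x : P, Complex.normSq (θ ((x : G) * (c : G))) :=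
      Finset.sum_congr rfl fun x _ => by rw [if_pos (hall x)]
    rw [h1]
    nlinarith [mul_nonneg hr hS]
  · push Not at hall
    obtain ⟨x₀, hx₀⟩ := hall
    have h1 : ∑ x : P, (if (x : G) * (c : G) ∈ A then
        Complex.normSq (θ ((x : G) * (c : G))) else 0) =
        ∑ x : P, Complex.normSq (θ ((x : G) * (c : G))) -
          Complex.normSq (θ ((x₀ : G) * (c : G))) := by
      have h2 : ∀ x : P, (if (x : G) * (c : G) ∈ A then
          Complex.normSq (θ ((x : G) * (c : G))) else 0) =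
          Complex.normSq (θ ((x : G) * (c : G))) -
            (if x = x₀ then Complex.normSq (θ ((x₀ : G) * (c : G))) else 0) := by
        intro x
        by_cases hx : x = x₀
        · rw [hx, if_neg hx₀, if_pos rfl, sub_self]
        · rw [if_neg hx, sub_zero, if_pos]
          by_contra hxA
          exact hx (Subtype.ext (h.hcoset c c.2 x x.2 x₀ x₀.2 hxA hx₀))
      rw [Finset.sum_congr rfl (fun x _ => h2 x), Finset.sum_sub_distrib, Finset.sum_ite_eq',
        if_pos (Finset.mem_univ _)]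
    have h3 := lemmaP h θ hθ (⟨x₀, h.hPC x₀.2⟩ * c)
    have h4 : ∑ x : P, Complex.normSq (θ ((x : G) * ((⟨x₀, h.hPC x₀.2⟩ * c : C) : G))) =
        ∑ x : P, Complex.normSq (θ ((x : G) * (c : G))) := by
      rw [← Equiv.sum_comp (Equiv.mulRight x₀)
        (fun x : P => Complex.normSq (θ ((x : G) * (c : G))))]
      refine Finset.sum_congr rfl fun x _ => ?_
      simp [mul_assoc]
    rw [h4] at h3
    have h5 : ((⟨x₀, h.hPC x₀.2⟩ * c : C) : G) = (x₀ : G) * (c : G) := rfl
    rw [h5] at h3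
    rw [h1]
    nlinarith [h3]

theorem sum_C_ineq (h : BLData P C N A) (θ : G → ℂ) (hθ : IsCharacter G θ) :
    ((Nat.card P : ℝ) - (suppF P θ).card) * ∑ c : C, Complex.normSq (θ c) ≤
      (Nat.card P : ℝ) * ∑ g : G, (if g ∈ A then Complex.normSq (θ g) else 0) := by
  have hq : (0 : ℝ) < Nat.card P := Nat.cast_pos.mpr Nat.card_pos
  have h1 : ∑ c : C, ∑ x : P, Complex.normSq (θ ((x : G) * (c : G))) =
      (Nat.card P : ℝ) * ∑ c : C, Complex.normSq (θ c) := by
    rw [Finset.sum_comm, Nat.card_eq_fintype_card, ← Finset.card_univ, ← nsmul_eq_mul,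
      ← Finset.sum_const]
    refine Finset.sum_congr rfl fun x _ => ?_
    rw [← Equiv.sum_comp (Equiv.mulLeft (⟨x, h.hPC x.2⟩ : C))
      (fun c : C => Complex.normSq (θ c))]
    rfl
  have h2 : ∑ c : C, ∑ x : P, (if (x : G) * (c : G) ∈ A then
        Complex.normSq (θ ((x : G) * (c : G))) else 0) =
      (Nat.card P : ℝ) * ∑ g : G, (if g ∈ A then Complex.normSq (θ g) else 0) := by
    rw [← sum_C_eq_sum_G h (fun g => Complex.normSq (θ g))]
    rw [Finset.sum_comm, Nat.card_eq_fintype_card, ← Finset.card_univ, ← nsmul_eq_mul,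
      ← Finset.sum_const]
    refine Finset.sum_congr rfl fun x _ => ?_
    rw [← Equiv.sum_comp (Equiv.mulLeft (⟨x, h.hPC x.2⟩ : C))
      (fun c : C => if (c : G) ∈ A then Complex.normSq (θ c) else 0)]
    rfl
  have h3 : ((Nat.card P : ℝ) - (suppF P θ).card) *
      ∑ c : C, ∑ x : P, Complex.normSq (θ ((x : G) * (c : G))) ≤
      (Nat.card P : ℝ) * ∑ c : C, ∑ x : P, (if (x : G) * (c : G) ∈ A then
        Complex.normSq (θ ((x : G) * (c : G))) else 0) := by
    rw [Finset.mul_sum, Finset.mul_sum]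
    exact Finset.sum_le_sum fun c _ => coset_ineq h θ hθ c
  rw [h1, h2] at h3
  have h4 : (Nat.card P : ℝ) * (((Nat.card P : ℝ) - (suppF P θ).card) *
      ∑ c : C, Complex.normSq (θ c)) ≤
      (Nat.card P : ℝ) * ((Nat.card P : ℝ) *
        ∑ g : G, (if g ∈ A then Complex.normSq (θ g) else 0)) := by
    calc (Nat.card P : ℝ) * (((Nat.card P : ℝ) - (suppF P θ).card) *
          ∑ c : C, Complex.normSq (θ c))
        = ((Nat.card P : ℝ) - (suppF P θ).card) *
          ((Nat.card P : ℝ) * ∑ c : C, Complex.normSq (θ c)) := by ring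
      _ ≤ _ := h3
  exact le_of_mul_le_mul_left h4 hq

/-- **The key inequality**: `(q - r) r |C| < q |N|` for an irreducible character with `r`
distinct `P`-types. -/
theorem ineq_star (h : BLData P C N A) (θ : IrrCharacter G) :
    ((Nat.card P : ℝ) - (suppF P (θ : G → ℂ)).card) * (suppF P (θ : G → ℂ)).card * Nat.card C <
      Nat.card P * Nat.card N := by
  have hθ : IsCharacter G (θ : G → ℂ) := Helper4.isCharacter_of_irr θ
  have hq : (0 : ℝ) < Nat.card P := Nat.cast_pos.mpr Nat.card_pos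
  have hN : (0 : ℝ) < Nat.card N := Nat.cast_pos.mpr Nat.card_pos
  have hC : (0 : ℝ) < Nat.card C := Nat.cast_pos.mpr Nat.card_pos
  have hr : (0 : ℝ) ≤ (suppF P (θ : G → ℂ)).card := Nat.cast_nonneg _
  by_cases hqr : (Nat.card P : ℝ) ≤ (suppF P (θ : G → ℂ)).card
  · have h1 : ((Nat.card P : ℝ) - (suppF P (θ : G → ℂ)).card) * (suppF P (θ : G → ℂ)).card *
        Nat.card C ≤ 0 := by
      have : ((Nat.card P : ℝ) - (suppF P (θ : G → ℂ)).card) ≤ 0 := by linarith
      have h2 : 0 ≤ ((suppF P (θ : G → ℂ)).card : ℝ) * Nat.card C := mul_nonneg hr hC.le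
      nlinarith
    have h2 : (0 : ℝ) < Nat.card P * Nat.card N := mul_pos hq hN
    linarith
  · push Not at hqr
    have h1 := card_supp_le_normsq h (θ : G → ℂ) hθ
    have h2 := sum_C_ineq h (θ : G → ℂ) hθ
    have h3 := ti_irr h θ
    have h4 : 0 < (Nat.card P : ℝ) - (suppF P (θ : G → ℂ)).card := by linarith
    calc ((Nat.card P : ℝ) - (suppF P (θ : G → ℂ)).card) * (suppF P (θ : G → ℂ)).card * Nat.card C
        = ((Nat.card P : ℝ) - (suppF P (θ : G → ℂ)).card) *
          ((suppF P (θ : G → ℂ)).card * Nat.card C) := by ring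
      _ ≤ ((Nat.card P : ℝ) - (suppF P (θ : G → ℂ)).card) *
          ∑ c : C, Complex.normSq ((θ : G → ℂ) c) := mul_le_mul_of_nonneg_left h1 h4.le
      _ ≤ (Nat.card P : ℝ) * ∑ g : G, (if g ∈ A then Complex.normSq ((θ : G → ℂ) g) else 0) := h2
      _ < Nat.card P * Nat.card N := mul_lt_mul_of_pos_left h3 hq

/-- Integer form of the key inequality, with `e = |N : C|`. -/
theorem ineq_star' (h : BLData P C N A) (θ : IrrCharacter G) (e : ℕ)
    (he : Nat.card N = e * Nat.card C) :
    ((Nat.card P : ℤ) - (suppF P (θ : G → ℂ)).card) * (suppF P (θ : G → ℂ)).card <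
      e * Nat.card P := by
  have h1 := ineq_star h θ
  rw [he] at h1
  have hC : (0 : ℝ) < Nat.card C := Nat.cast_pos.mpr Nat.card_pos
  push_cast at h1
  have h2 : (((Nat.card P : ℝ) - (suppF P (θ : G → ℂ)).card) * (suppF P (θ : G → ℂ)).card) *
      Nat.card C < ((e : ℝ) * Nat.card P) * Nat.card C := by
    calc _ < (Nat.card P : ℝ) * ((e : ℝ) * Nat.card C) := h1
      _ = ((e : ℝ) * Nat.card P) * Nat.card C := by ring
  have h3 := lt_of_mul_lt_mul_right h2 hC.le
  exact_mod_cast h3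

end Star

end Cfsg.Agent.Lib.Helper46.BL2
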