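import Mathlib
import Cfsg.Agent.Lib.Helper46.BL3b

/-!
# Brauer–Leonard, part 4: the action of `N` on the linear characters of `P`
-/

set_option autoImplicit false

namespace Cfsg.Agent.Lib.Helper46.BL2

open Cfsg Cfsg.Agent.Lib.Helper46.BL1
open scoped ComplexConjugate
open Classical

section Orbit

variable {G : Type*} [Group G] {P C N : Subgroup G} {A : Set G}

/-- Conjugation by `n ∈ N` on `P`. -/
def conjP (h : BLData P C N A) (n : N) : P →* P where
  toFun x := ⟨n * x * (n : G)⁻¹, h.hNP n n.2 x x.2⟩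
  map_one' := Subtype.ext (by simp)
  map_mul' x y := Subtype.ext (by simp [mul_assoc])

theorem conjP_coe (h : BLData P C N A) (n : N) (x : P) :
    ((conjP h n x : P) : G) = n * x * (n : G)⁻¹ := rfl

theorem conjP_mul (h : BLData P C N A) (a b : N) (x : P) :
    conjP h (a * b) x = conjP h a (conjP h b x) :=
  Subtype.ext (by simp [conjP_coe, mul_assoc])

theorem conjP_one (h : BLData P C N A) (x : P) : conjP h 1 x = x :=
  Subtype.ext (by simp [conjP_coe])

/-- Conjugation by `n ∈ N` on `P`, as a permutation. -/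
def conjPEquiv (h : BLData P C N A) (n : N) : P ≃ P where
  toFun := conjP h n
  invFun := conjP h n⁻¹
  left_inv x := by rw [← conjP_mul, inv_mul_cancel, conjP_one]
  right_inv x := by rw [← conjP_mul, mul_inv_cancel, conjP_one]

/-- The conjugate `l^n` of a linear character of `P`: `l^n (x) = l (n x n⁻¹)`. -/
def cj (h : BLData P C N A) (n : N) (l : P →* ℂˣ) : P →* ℂˣ := l.comp (conjP h n)

theorem cj_apply (h : BLData P C N A) (n : N) (l : P →* ℂˣ) (x : P) :
    cj h n l x = l (conjP h n x) := rfl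

theorem cj_one (h : BLData P C N A) (l : P →* ℂˣ) : cj h 1 l = l := by
  ext x
  rw [cj_apply, conjP_one]

theorem cj_mul (h : BLData P C N A) (a b : N) (l : P →* ℂˣ) :
    cj h (a * b) l = cj h b (cj h a l) := by
  ext x
  rw [cj_apply, cj_apply, cj_apply, conjP_mul]

theorem cj_triv (h : BLData P C N A) (n : N) : cj h n (1 : P →* ℂˣ) = 1 := by
  ext x
  rw [cj_apply]; rfl

theorem cj_mul_hom (h : BLData P C N A) (n : N) (l l' : P →* ℂˣ) :
    cj h n (l * l') = cj h n l * cj h n l' := by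
  ext x
  rw [cj_apply]; rfl

theorem cj_inv_hom (h : BLData P C N A) (n : N) (l : P →* ℂˣ) :
    cj h n l⁻¹ = (cj h n l)⁻¹ := by
  ext x
  rw [cj_apply]; rfl

theorem cj_injective (h : BLData P C N A) (n : N) : Function.Injective (cj h n) := by
  intro l l' hll
  have h1 := congrArg (cj h n⁻¹) hll
  rwa [← cj_mul, ← cj_mul, mul_inv_cancel, cj_one, cj_one] at h1

theorem cj_of_mem_C (h : BLData P C N A) (n : N) (hn : (n : G) ∈ C) (l : P →* ℂˣ) :
    cj h n l = l := by
  ext x
  rw [cj_apply]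
  have h1 : conjP h n x = x := by
    apply Subtype.ext
    rw [conjP_coe]
    have h2 := h.hcent x x.2 n hn
    rw [← h2]; group
  rw [h1]

/-- The action of `N / C` on the non-trivial linear characters of `P` is free. -/
theorem cj_free [Finite P] (h : BLData P C N A) (n : N) (l : P →* ℂˣ) (hl : l ≠ 1)
    (hn : cj h n l = l) : (n : G) ∈ C := by
  by_contra hnC
  apply hl
  let D : P → P := fun x => conjP h n x * x⁻¹
  have hD : Function.Injective D := by
    intro x y hxy
    have h1 := congrArg Subtype.val hxy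
    simp only [D, Subgroup.coe_mul, conjP_coe, Subgroup.coe_inv] at h1
    by_contra hne
    have h2 : (n : G) * ((y : G)⁻¹ * (x : G)) * (n : G)⁻¹ = (y : G)⁻¹ * (x : G) := by
      have h3 : (n : G) * ((y : G)⁻¹ * (x : G)) * (n : G)⁻¹ =
          ((n : G) * (y : G) * (n : G)⁻¹)⁻¹ * ((n : G) * (x : G) * (n : G)⁻¹ * (x : G)⁻¹) *
            (x : G) := by group
      rw [h3, h1]; group
    have h4 : (y : G)⁻¹ * (x : G) ≠ 1 := by
      intro h5
      apply hne
      apply Subtype.ext
      have h6 : (x : G) = (y : G) * ((y : G)⁻¹ * (x : G)) := by group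
      rw [h6, h5, mul_one]
    exact hnC (h.hfree n n.2 _ (P.mul_mem (P.inv_mem y.2) x.2) h4 h2)
  have hsurj := Finite.injective_iff_surjective.mp hD
  ext y
  obtain ⟨x, hx⟩ := hsurj y
  have h1 : l (D x) = cj h n l x * (l x)⁻¹ := by
    simp only [D]
    rw [map_mul, map_inv, cj_apply]
  rw [hn, mul_inv_cancel] at h1
  rw [← hx, h1]
  rfl

variable [Fintype P]

/-- `P`-multiplicities of class functions are invariant under `N`. -/
theorem pm_cj (h : BLData P C N A) (ψ : G → ℂ) (hψ : IsClassFunction G ψ) (n : N)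
    (l : P →* ℂˣ) : pm ψ (cj h n l) = pm ψ l := by
  unfold pm
  congr 1
  rw [← Equiv.sum_comp (conjPEquiv h n) (fun x : P => ψ x * (((l x)⁻¹ : ℂˣ) : ℂ))]
  refine Finset.sum_congr rfl fun x _ => ?_
  have h1 : ψ ((conjPEquiv h n x : P) : G) = ψ x := hψ x n
  rw [h1]
  rfl

variable [Fintype G] [Fintype C] [Fintype (IrrCharacter C)] [Fintype N] [Fintype (P →* ℂˣ)]

/-- The orbit of a linear character of `P` under `N`. -/
noncomputable def orb (h : BLData P C N A) (l : P →* ℂˣ) : Finset (P →* ℂˣ) :=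
  Finset.univ.image (fun n : N => cj h n l)

theorem mem_orb (h : BLData P C N A) (l l' : P →* ℂˣ) :
    l' ∈ orb h l ↔ ∃ n : N, cj h n l = l' := by
  simp [orb]

theorem self_mem_orb (h : BLData P C N A) (l : P →* ℂˣ) : l ∈ orb h l :=
  (mem_orb h l l).mpr ⟨1, cj_one h l⟩

theorem cj_mem_orb (h : BLData P C N A) (l : P →* ℂˣ) (n : N) : cj h n l ∈ orb h l :=
  (mem_orb h l _).mpr ⟨n, rfl⟩

theorem one_not_mem_orb (h : BLData P C N A) (l : P →* ℂˣ) (hl : l ≠ 1) : (1 : P →* ℂˣ) ∉ orb h l := by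
  intro h1
  obtain ⟨n, hn⟩ := (mem_orb h l 1).mp h1
  apply hl
  apply cj_injective h n
  rw [hn, cj_triv]

theorem orb_subset_supp (h : BLData P C N A) (ψ : G → ℂ) (hψ : IsClassFunction G ψ)
    (l : P →* ℂˣ) (hl : l ∈ suppF P ψ) : orb h l ⊆ suppF P ψ := by
  intro l' hl'
  obtain ⟨n, rfl⟩ := (mem_orb h l l').mp hl'
  rw [mem_suppF, pm_cj h ψ hψ]
  exact (mem_suppF ψ l).mp hl

theorem pm_orb (h : BLData P C N A) (ψ : G → ℂ) (hψ : IsClassFunction G ψ)
    (l l' : P →* ℂˣ) (hl' : l' ∈ orb h l) : pm ψ l' = pm ψ l := by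
  obtain ⟨n, rfl⟩ := (mem_orb h l l').mp hl'
  exact pm_cj h ψ hψ n l

/-- The orbit of a non-trivial character has `|N : C|` elements. -/
theorem card_orb (h : BLData P C N A) (l : P →* ℂˣ) (hl : l ≠ 1) :
    (orb h l).card * Nat.card C = Nat.card N := by
  let _i : MulAction N (P →* ℂˣ) :=
    { smul := fun n l => cj h n⁻¹ l
      one_smul := fun l => by
        show cj h (1 : N)⁻¹ l = l
        rw [inv_one, cj_one]
      mul_smul := fun a b l => by
        show cj h (a * b)⁻¹ l = cj h a⁻¹ (cj h b⁻¹ l)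
        rw [mul_inv_rev, cj_mul] }
  have hsmul : ∀ (n : N) (l : P →* ℂˣ), n • l = cj h n⁻¹ l := fun n l => rfl
  have h1 : (orb h l : Set (P →* ℂˣ)) = MulAction.orbit N l := by
    ext l'
    rw [Finset.mem_coe, mem_orb, MulAction.mem_orbit_iff]
    constructor
    · rintro ⟨n, hn⟩
      exact ⟨n⁻¹, by rw [hsmul, inv_inv, hn]⟩
    · rintro ⟨n, hn⟩
      exact ⟨n⁻¹, by rw [← hn, hsmul]⟩
  have h2 : MulAction.stabilizer N l = C.subgroupOf N := by
    ext n
    rw [MulAction.mem_stabilizer_iff, hsmul, Subgroup.mem_subgroupOf]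
    constructor
    · intro hn
      have h3 := cj_free h n⁻¹ l hl hn
      have h4 := C.inv_mem h3
      simpa using h4
    · intro hn
      apply cj_of_mem_C
      simpa using C.inv_mem hn
  have h3 := MulAction.index_stabilizer (G := N) (x := l)
  rw [h2, ← h1, Set.ncard_coe_finset] at h3
  rw [← h3]
  have h4 := Subgroup.card_mul_index (C.subgroupOf N)
  rw [Nat.card_congr (Subgroup.subgroupOfEquivOfLe h.hCN).toEquiv] at h4
  rw [mul_comm]
  exact h4

theorem card_orb' (h : BLData P C N A) (e : ℕ) (he : Nat.card N = e * Nat.card C)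
    (l : P →* ℂˣ) (hl : l ≠ 1) : (orb h l).card = e := by
  have h1 := card_orb h l hl
  rw [he] at h1
  exact Nat.eq_of_mul_eq_mul_right Nat.card_pos h1

end Orbit

end Cfsg.Agent.Lib.Helper46.BL2
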