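import Mathlib
import Cfsg.Agent.Lib.Helper46.BL4
import Cfsg.Agent.Lib.Helper83.Quot

/-!
# Brauer–Leonard, part 5a: general character-theoretic lemmas
-/

set_option autoImplicit false

namespace Cfsg.Agent.Lib.Helper46.BL2

open Cfsg Cfsg.Agent.Lib.Helper46.BL1
open scoped ComplexConjugate
open Classical

section Gen

variable {G : Type*} [Group G] {P C N : Subgroup G} {A : Set G} [Fintype G]

/-- An irreducible character which is constant is the principal character. -/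
theorem irr_eq_one_of_const (θ : IrrCharacter G)
    (hc : ∀ g, (θ : G → ℂ) g = (θ : G → ℂ) 1) : (θ : G → ℂ) = fun _ => 1 := by
  have h1 := Helper83.irr_orthonormal θ (Helper83.trivIrr G)
  by_cases heq : θ = Helper83.trivIrr G
  · rw [heq]; rfl
  · rw [if_neg heq] at h1
    exfalso
    unfold classInner at h1
    have h2 : ∑ g : G, (θ : G → ℂ) g * conj ((Helper83.trivIrr G : G → ℂ) g) =
        (Nat.card G : ℂ) * (θ : G → ℂ) 1 := by
      rw [Finset.sum_congr rfl (fun g _ => by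
        rw [hc g, Helper83.trivIrr_apply, map_one, mul_one])]
      rw [Finset.sum_const, Finset.card_univ, nsmul_eq_mul, Nat.card_eq_fintype_card]
    rw [h2] at h1
    have hG : (Nat.card G : ℂ) ≠ 0 := Nat.cast_ne_zero.mpr Nat.card_pos.ne'
    have h3 := Helper83.irr_one_ne_zero θ.2
    rw [← mul_assoc, inv_mul_cancel₀ hG, one_mul] at h1
    exact h3 h1

/-- A non-principal irreducible character trivial on `P` gives a proper normal subgroup
containing `P`. -/
theorem fact0' (θ : IrrCharacter G) (hθ : (θ : G → ℂ) ≠ fun _ => 1)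
    (hP : ∀ x ∈ P, (θ : G → ℂ) x = (θ : G → ℂ) 1) :
    ∃ K : Subgroup G, K.Normal ∧ K ≠ ⊤ ∧ P ≤ K := by
  refine ⟨Helper83.irrKer θ, Helper83.irrKer_normal θ, ?_,
    fun x hx => (Helper83.mem_irrKer θ x).mpr (hP x hx)⟩
  intro htop
  apply hθ
  apply irr_eq_one_of_const
  intro g
  exact (Helper83.mem_irrKer θ g).mp (htop ▸ Subgroup.mem_top g)

variable [Fintype P]

theorem pm_sum {ι : Type*} (s : Finset ι) (a : ι → ℂ) (f : ι → G → ℂ) (l : P →* ℂˣ) :
    pm (∑ i ∈ s, a i • f i) l = ∑ i ∈ s, a i * pm (f i) l := by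
  unfold pm
  have h1 : ∀ x : P, (∑ i ∈ s, a i • f i) x * (((l x)⁻¹ : ℂˣ) : ℂ) =
      ∑ i ∈ s, a i * (f i x * (((l x)⁻¹ : ℂˣ) : ℂ)) := by
    intro x
    rw [Finset.sum_apply, Finset.sum_mul]
    refine Finset.sum_congr rfl fun i _ => ?_
    rw [Pi.smul_apply, smul_eq_mul, mul_assoc]
  rw [Finset.sum_congr rfl (fun x _ => h1 x), Finset.sum_comm, Finset.mul_sum]
  refine Finset.sum_congr rfl fun i _ => ?_
  rw [← Finset.mul_sum]
  ring

theorem pm_sub (f g : G → ℂ) (l : P →* ℂˣ) : pm (f - g) l = pm f l - pm g l := by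
  unfold pm
  rw [← mul_sub, ← Finset.sum_sub_distrib]
  congr 1
  refine Finset.sum_congr rfl fun x _ => ?_
  rw [Pi.sub_apply, sub_mul]

theorem pm_one_one : pm (fun _ : G => (1 : ℂ)) (1 : P →* ℂˣ) = 1 := by
  unfold pm
  have hq : (Nat.card P : ℂ) ≠ 0 := Nat.cast_ne_zero.mpr Nat.card_pos.ne'
  simp only [MonoidHom.one_apply, inv_one, Units.val_one, mul_one, Finset.sum_const,
    Finset.card_univ, nsmul_eq_mul]
  rw [← Nat.card_eq_fintype_card]
  exact inv_mul_cancel₀ hq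

variable [Fintype C] [Fintype (IrrCharacter C)] [Fintype (P →* ℂˣ)]

/-- A non-principal irreducible character whose only `P`-type is trivial gives a proper normal
subgroup containing `P`. -/
theorem fact0 (h : BLData P C N A) (θ : IrrCharacter G) (hθ : (θ : G → ℂ) ≠ fun _ => 1)
    (hs : suppF P (θ : G → ℂ) ⊆ {1}) : ∃ K : Subgroup G, K.Normal ∧ K ≠ ⊤ ∧ P ≤ K := by
  apply fact0' θ hθ
  intro x hx
  have hθc := Helper4.isCharacter_of_irr θ
  have h1 := char_expand h (θ : G → ℂ) hθc ⟨x, hx⟩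
  have h2 := sum_pm h (θ : G → ℂ) hθc
  rw [show ((⟨x, hx⟩ : P) : G) = x from rfl] at h1
  rw [h1, h2]
  refine Finset.sum_congr rfl fun l _ => ?_
  by_cases hl : l = 1
  · rw [hl]; simp
  · have h3 : pm (θ : G → ℂ) l = 0 := by
      by_contra h0
      exact hl (Finset.mem_singleton.mp (hs ((mem_suppF _ l).mpr h0)))
    rw [h3, zero_mul]

/-- The multiplicity of `1_P` in `ψ ψ'‾`. -/
theorem pm_mul_conj (h : BLData P C N A) (ψ ψ' : G → ℂ) (hψ : IsCharacter G ψ)
    (hψ' : IsCharacter G ψ') :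
    pm (fun g => ψ g * conj (ψ' g)) (1 : P →* ℂˣ) = ∑ l : P →* ℂˣ, pm ψ l * pm ψ' l := by
  have e1 : ∀ x : P, ψ x = ∑ l ∈ (Finset.univ : Finset (P →* ℂˣ)), (l x : ℂ) * pm ψ l := by
    intro x
    rw [char_expand h ψ hψ x]
    exact Finset.sum_congr rfl fun l _ => mul_comm _ _
  have e2 : ∀ x : P, ψ' x = ∑ l ∈ (Finset.univ : Finset (P →* ℂˣ)), (l x : ℂ) * pm ψ' l := by
    intro x
    rw [char_expand h ψ' hψ' x]
    exact Finset.sum_congr rfl fun l _ => mul_comm _ _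
  have key := parseval2 (Finset.univ : Finset (P →* ℂˣ)) (pm ψ) (pm ψ')
  have hconj : ∀ l : P →* ℂˣ, conj (pm ψ' l) = pm ψ' l := by
    intro l
    obtain ⟨k, hk⟩ := pm_nat h ψ' hψ' l
    rw [hk, Complex.conj_natCast]
  have hsum : ∑ l : P →* ℂˣ, pm ψ l * conj (pm ψ' l) = ∑ l : P →* ℂˣ, pm ψ l * pm ψ' l :=
    Finset.sum_congr rfl (fun l _ => by rw [hconj l])
  rw [hsum] at key
  have hq : (Nat.card P : ℂ) ≠ 0 := Nat.cast_ne_zero.mpr Nat.card_pos.ne'
  show (Nat.card P : ℂ)⁻¹ * ∑ x : P, (ψ x * conj (ψ' x)) *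
    ((((1 : P →* ℂˣ) x)⁻¹ : ℂˣ) : ℂ) = _
  have h3 : ∑ x : P, (ψ x * conj (ψ' x)) * ((((1 : P →* ℂˣ) x)⁻¹ : ℂˣ) : ℂ) =
      (Fintype.card P : ℂ) * ∑ l : P →* ℂˣ, pm ψ l * pm ψ' l := by
    rw [← key]
    refine Finset.sum_congr rfl fun x _ => ?_
    rw [← e1 x, ← e2 x]
    simp
  rw [h3, Nat.card_eq_fintype_card, ← mul_assoc, inv_mul_cancel₀, one_mul]
  rw [← Nat.card_eq_fintype_card]
  exact hq

variable [Fintype (IrrCharacter G)]

/-- A character containing the principal character once and `1_P` at least twice has a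
non-principal irreducible constituent containing `1_P`. -/
theorem exists_constituent (Ψ : G → ℂ) (hΨ : IsCharacter G Ψ) (D : ℕ) (hD : Ψ 1 = D)
    (h1 : classInner Ψ (fun _ => (1 : ℂ)) = 1) (k : ℕ) (hk : pm Ψ (1 : P →* ℂˣ) = k)
    (hk2 : 2 ≤ k) :
    ∃ θ : IrrCharacter G, (θ : G → ℂ) ≠ (fun _ => 1) ∧ pm (θ : G → ℂ) (1 : P →* ℂˣ) ≠ 0 ∧
      charDegree (θ : G → ℂ) + 1 ≤ D ∧ IsCharacter G (Ψ - (θ : G → ℂ)) := by
  obtain ⟨c, hc⟩ := Helper4.exists_decomp_of_isCharacter Ψ hΨ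
  have hct : c (Helper83.trivIrr G) = 1 := by
    have h2 := Helper4.classInner_sum_irr (fun θ : IrrCharacter G => (c θ : ℂ)) (Helper83.trivIrr G)
    rw [← hc] at h2
    have h3 : classInner Ψ (Helper83.trivIrr G : G → ℂ) = 1 := h1
    rw [h3] at h2
    exact_mod_cast h2.symm
  have hpm : pm Ψ (1 : P →* ℂˣ) =
      ∑ θ : IrrCharacter G, (c θ : ℂ) * pm (θ : G → ℂ) (1 : P →* ℂˣ) := by
    conv_lhs => rw [hc]
    exact pm_sum _ _ _ _
  have hex : ∃ θ : IrrCharacter G, θ ≠ Helper83.trivIrr G ∧ c θ ≠ 0 ∧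
      pm (θ : G → ℂ) (1 : P →* ℂˣ) ≠ 0 := by
    by_contra hcon
    push Not at hcon
    have h4 : ∑ θ : IrrCharacter G, (c θ : ℂ) * pm (θ : G → ℂ) (1 : P →* ℂˣ) = 1 := by
      rw [Finset.sum_eq_single (Helper83.trivIrr G)]
      · rw [hct]
        have : pm (Helper83.trivIrr G : G → ℂ) (1 : P →* ℂˣ) = 1 := pm_one_one
        rw [this]; simp
      · intro θ _ hθ
        by_cases hc0 : c θ = 0
        · rw [hc0]; simp
        · rw [hcon θ hθ hc0, mul_zero]
      · intro hn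
        exact absurd (Finset.mem_univ _) hn
    rw [hpm, h4] at hk
    have : k = 1 := by exact_mod_cast hk.symm
    omega
  obtain ⟨θ, hθ1, hθc, hθp⟩ := hex
  refine ⟨θ, ?_, hθp, ?_, ?_⟩
  · intro h5
    apply hθ1
    exact Subtype.ext h5
  · have h6 : (D : ℂ) = ((∑ θ' : IrrCharacter G, c θ' * charDegree (θ' : G → ℂ) : ℕ) : ℂ) := by
      rw [← hD]
      conv_lhs => rw [hc]
      rw [Finset.sum_apply]
      push_cast
      refine Finset.sum_congr rfl fun θ' _ => ?_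
      rw [Pi.smul_apply, smul_eq_mul, (Helper83.irr_degree θ'.2).2]
    have h7 : D = ∑ θ' : IrrCharacter G, c θ' * charDegree (θ' : G → ℂ) := by exact_mod_cast h6
    have h8 : ∑ θ' ∈ ({Helper83.trivIrr G, θ} : Finset (IrrCharacter G)),
        c θ' * charDegree (θ' : G → ℂ) ≤ ∑ θ' : IrrCharacter G, c θ' * charDegree (θ' : G → ℂ) :=
      Finset.sum_le_sum_of_subset (Finset.subset_univ _)
    rw [Finset.sum_pair (Ne.symm hθ1), hct, one_mul] at h8
    have h9 : 0 < charDegree ((Helper83.trivIrr G : IrrCharacter G) : G → ℂ) :=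
      (Helper83.irr_degree (Helper83.trivIrr G).2).1
    have h10 : charDegree (θ : G → ℂ) ≤ c θ * charDegree (θ : G → ℂ) :=
      Nat.le_mul_of_pos_left _ (Nat.pos_of_ne_zero hθc)
    omega
  · have h11 : Ψ - (θ : G → ℂ) =
        ∑ θ' : IrrCharacter G, (((if θ' = θ then c θ - 1 else c θ' : ℕ)) : ℂ) • (θ' : G → ℂ) := by
      have h12 : ∀ θ' : IrrCharacter G,
          (((if θ' = θ then c θ - 1 else c θ' : ℕ)) : ℂ) • (θ' : G → ℂ) =
          (c θ' : ℂ) • (θ' : G → ℂ) - (if θ' = θ then (θ : G → ℂ) else 0) := by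
        intro θ'
        by_cases hθ' : θ' = θ
        · rw [if_pos hθ', if_pos hθ', hθ']
          have : ((c θ - 1 : ℕ) : ℂ) = (c θ : ℂ) - 1 := by
            rw [Nat.cast_sub (Nat.pos_of_ne_zero hθc)]; simp
          rw [this, sub_smul, one_smul]
        · rw [if_neg hθ', if_neg hθ', sub_zero]
      rw [Finset.sum_congr rfl (fun θ' _ => h12 θ'), Finset.sum_sub_distrib, ← hc,
        Finset.sum_ite_eq', if_pos (Finset.mem_univ _)]
    rw [h11]
    exact Helper4.isCharacter_sum_nat_irr _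

end Gen

end Cfsg.Agent.Lib.Helper46.BL2
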