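import Mathlib
import Cfsg.Agent.Lib.Helper46.BL5a

/-!
# Brauer–Leonard, part 5b: the cases `e = 1` and `q ≥ (e+1)²`, and the reduction of the
borderline case
-/

set_option autoImplicit false

namespace Cfsg.Agent.Lib.Helper46.BL2

open Cfsg Cfsg.Agent.Lib.Helper46.BL1
open scoped ComplexConjugate
open Classical

section Cases

variable {G : Type*} [Group G] {P C N : Subgroup G} {A : Set G} [Fintype G]
  [Fintype P] [Fintype C] [Fintype (IrrCharacter C)] [Fintype (P →* ℂˣ)] [Fintype N]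

theorem orb_card_le (h : BLData P C N A) (e : ℕ) (he : Nat.card N = e * Nat.card C)
    (θ : G → ℂ) (hθ : IsClassFunction G θ) (l : P →* ℂˣ) (hl : l ∈ suppF P θ) (hl1 : l ≠ 1) :
    e ≤ (suppF P θ).card ∧ ((1 : P →* ℂˣ) ∈ suppF P θ → e + 1 ≤ (suppF P θ).card) := by
  have h1 := orb_subset_supp h θ hθ l hl
  have h2 := card_orb' h e he l hl1
  refine ⟨?_, fun h3 => ?_⟩
  · rw [← h2]; exact Finset.card_le_card h1
  · have h4 : insert (1 : P →* ℂˣ) (orb h l) ⊆ suppF P θ := by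
      intro l' hl'
      rw [Finset.mem_insert] at hl'
      rcases hl' with rfl | hl'
      · exact h3
      · exact h1 hl'
    have h5 := Finset.card_le_card h4
    rw [Finset.card_insert_of_notMem (one_not_mem_orb h l hl1), h2] at h5
    exact h5

theorem supp_nonempty (h : BLData P C N A) (θ : IrrCharacter G) :
    ∃ l : P →* ℂˣ, l ∈ suppF P (θ : G → ℂ) := by
  by_contra hcon
  push Not at hcon
  have h1 := sum_pm h (θ : G → ℂ) (Helper4.isCharacter_of_irr θ)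
  rw [Finset.sum_eq_zero (fun l _ => by
    by_contra h0
    exact hcon l ((mem_suppF _ l).mpr h0))] at h1
  exact Helper83.irr_one_ne_zero θ.2 h1

/-- If the support is a single orbit, the degree is `e` times the common multiplicity. -/
theorem deg_of_supp_orb (h : BLData P C N A) (e : ℕ) (he : Nat.card N = e * Nat.card C)
    (θ : IrrCharacter G) (l₀ : P →* ℂˣ) (hl₀ : l₀ ≠ 1)
    (hsupp : suppF P (θ : G → ℂ) = orb h l₀) :
    ∃ k₀ : ℕ, 1 ≤ k₀ ∧ (∀ l ∈ orb h l₀, pm (θ : G → ℂ) l = k₀) ∧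
      charDegree (θ : G → ℂ) = e * k₀ ∧
      ∑ l : P →* ℂˣ, pm (θ : G → ℂ) l * pm (θ : G → ℂ) l = ((e * k₀ ^ 2 : ℕ) : ℂ) := by
  have hθc := Helper4.isCharacter_of_irr θ
  have hθcl := Helper4.isClassFunction_irr θ
  obtain ⟨k₀, hk₀⟩ := pm_nat h (θ : G → ℂ) hθc l₀
  have hl₀s : l₀ ∈ suppF P (θ : G → ℂ) := hsupp ▸ self_mem_orb h l₀
  have hk1 : 1 ≤ k₀ := by
    rw [mem_suppF, hk₀] at hl₀s
    have : k₀ ≠ 0 := fun h0 => hl₀s (by rw [h0]; simp)
    omega
  have hconst : ∀ l ∈ orb h l₀, pm (θ : G → ℂ) l = k₀ := fun l hl => by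
    rw [pm_orb h _ hθcl l₀ l hl, hk₀]
  have hzero : ∀ l : P →* ℂˣ, l ∉ orb h l₀ → pm (θ : G → ℂ) l = 0 := by
    intro l hl
    by_contra h0
    exact hl (hsupp ▸ (mem_suppF _ l).mpr h0)
  have hcard := card_orb' h e he l₀ hl₀
  refine ⟨k₀, hk1, hconst, ?_, ?_⟩
  · have h1 := sum_pm h (θ : G → ℂ) hθc
    rw [← Finset.sum_subset (Finset.subset_univ (orb h l₀)) (fun l _ hl => hzero l hl),
      Finset.sum_congr rfl hconst, Finset.sum_const, hcard, (Helper83.irr_degree θ.2).2] at h1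
    rw [nsmul_eq_mul] at h1
    exact_mod_cast h1
  · rw [← Finset.sum_subset (Finset.subset_univ (orb h l₀)) (fun l _ hl => by
      rw [hzero l hl, mul_zero]),
      Finset.sum_congr rfl (fun l hl => by rw [hconst l hl]), Finset.sum_const, hcard]
    rw [nsmul_eq_mul]
    push_cast
    ring

variable [Fintype (IrrCharacter G)]

/-- The case `N = C`. -/
theorem case_one (h : BLData P C N A) (he : Nat.card N = 1 * Nat.card C)
    (hM : ∃ M : Subgroup G, M.Normal ∧ M.index = Nat.card P)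
    (hext : ∀ l : P →* ℂˣ, ∃ L : G →* ℂˣ, ∀ x : P, L x = l x)
    (χ : IrrCharacter G) (hdeg : charDegree (χ : G → ℂ) ^ 2 + 1 < Nat.card P) :
    (∃ K : Subgroup G, K.Normal ∧ K ≠ ⊤ ∧ P ≤ K) ∨
      ((∃ M : Subgroup G, M.Normal ∧ M.index = Nat.card P) ∧ charDegree (χ : G → ℂ) = 1) := by
  have hχc := Helper4.isCharacter_of_irr χ
  have hd := (Helper83.irr_degree χ.2).2
  have hd0 := (Helper83.irr_degree χ.2).1
  have hr := card_supp_le h (χ : G → ℂ) hχc _ hd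
  have hstar := ineq_star' h χ 1 he
  rw [Nat.cast_one, one_mul] at hstar
  obtain ⟨l, hl⟩ := supp_nonempty h χ
  have hr1 : 1 ≤ (suppF P (χ : G → ℂ)).card := Finset.card_pos.mpr ⟨l, hl⟩
  have hcard : (suppF P (χ : G → ℂ)).card = 1 := by
    by_contra hne
    have h2 : 2 ≤ (suppF P (χ : G → ℂ)).card := by omega
    have h3 : ((suppF P (χ : G → ℂ)).card : ℤ) ^ 2 + 2 ≤ Nat.card P := by
      have : (suppF P (χ : G → ℂ)).card ^ 2 ≤ charDegree (χ : G → ℂ) ^ 2 :=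
        Nat.pow_le_pow_left hr 2
      have h4 : (suppF P (χ : G → ℂ)).card ^ 2 + 2 ≤ Nat.card P := by omega
      exact_mod_cast h4
    have h5 : (2 : ℤ) ≤ (suppF P (χ : G → ℂ)).card := by exact_mod_cast h2
    nlinarith [mul_le_mul_of_nonneg_right h3 (by linarith : (0 : ℤ) ≤ ((suppF P (χ : G → ℂ)).card : ℤ) - 1),
      mul_nonneg (by linarith : (0 : ℤ) ≤ ((suppF P (χ : G → ℂ)).card : ℤ) - 2)
        (sq_nonneg ((suppF P (χ : G → ℂ)).card : ℤ))]
  obtain ⟨l₁, hl₁⟩ := Finset.card_eq_one.mp hcard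
  have hzero : ∀ l' : P →* ℂˣ, l' ≠ l₁ → pm (χ : G → ℂ) l' = 0 := by
    intro l' hl'
    by_contra h0
    have := (mem_suppF (χ : G → ℂ) l').mpr h0
    rw [hl₁, Finset.mem_singleton] at this
    exact hl' this
  have hval : ∀ x : P, (χ : G → ℂ) x = (χ : G → ℂ) 1 * (l₁ x : ℂ) := by
    intro x
    have h1 := char_expand h (χ : G → ℂ) hχc x
    have h2 := sum_pm h (χ : G → ℂ) hχc
    rw [Finset.sum_eq_single l₁ (fun l' _ hl' => by rw [hzero l' hl', zero_mul])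
      (fun hn => absurd (Finset.mem_univ _) hn)] at h1
    rw [Finset.sum_eq_single l₁ (fun l' _ hl' => hzero l' hl')
      (fun hn => absurd (Finset.mem_univ _) hn)] at h2
    rw [h1, h2]
  obtain ⟨L, hL⟩ := hext l₁⁻¹
  set lin : IrrCharacter G := ⟨fun g => (L g : ℂ), Helper4.isIrrCharacter_lin L⟩ with hlin
  have hlin1 : (lin : G → ℂ) 1 = 1 := by
    show ((L 1 : ℂˣ) : ℂ) = 1
    rw [map_one, Units.val_one]
  have htw : ∀ g : G, (Helper83.twist lin χ hlin1 : G → ℂ) g = (L g : ℂ) * (χ : G → ℂ) g :=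
    fun g => rfl
  have htw1 : (Helper83.twist lin χ hlin1 : G → ℂ) 1 = (χ : G → ℂ) 1 := by
    rw [htw, map_one, Units.val_one, one_mul]
  by_cases hχ' : (Helper83.twist lin χ hlin1 : G → ℂ) = fun _ => 1
  · right
    refine ⟨hM, ?_⟩
    have h1 : (χ : G → ℂ) 1 = 1 := by
      rw [← htw1, hχ']
    rw [hd] at h1
    exact_mod_cast h1
  · left
    apply fact0' _ hχ'
    intro x hx
    rw [htw1, htw]
    have h1 := hval ⟨x, hx⟩
    have h2 := hL ⟨x, hx⟩
    rw [show ((⟨x, hx⟩ : P) : G) = x from rfl] at h1 h2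
    rw [h1, h2, MonoidHom.inv_apply, Units.val_inv_eq_inv_val]
    have h3 : ((l₁ ⟨x, hx⟩ : ℂˣ) : ℂ) ≠ 0 := Units.ne_zero _
    field_simp

/-- Restriction on the number of `P`-types when `q ≥ (e+1)²`. -/
theorem lemmaL (h : BLData P C N A) (e : ℕ) (he : Nat.card N = e * Nat.card C)
    (hq : (e + 1) ^ 2 ≤ Nat.card P) (θ : IrrCharacter G)
    (hdeg : charDegree (θ : G → ℂ) + e + 2 ≤ Nat.card P) :
    (suppF P (θ : G → ℂ)).card ≤ e := by
  have hθc := Helper4.isCharacter_of_irr θ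
  have hd := (Helper83.irr_degree θ.2).2
  have hr := card_supp_le h (θ : G → ℂ) hθc _ hd
  have hstar := ineq_star' h θ e he
  by_contra hcon
  push Not at hcon
  have h1 : ((e : ℤ) + 1) ≤ (suppF P (θ : G → ℂ)).card := by exact_mod_cast hcon
  have h2 : ((suppF P (θ : G → ℂ)).card : ℤ) + e + 2 ≤ Nat.card P := by
    have : (suppF P (θ : G → ℂ)).card + e + 2 ≤ Nat.card P := by omega
    exact_mod_cast this
  have h3 : ((e : ℤ) + 1) ^ 2 ≤ Nat.card P := by exact_mod_cast hq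
  nlinarith [mul_nonneg (by linarith : (0 : ℤ) ≤ ((suppF P (θ : G → ℂ)).card : ℤ) - (e + 1))
    (by linarith : (0 : ℤ) ≤ (Nat.card P : ℤ) - e - 2 - (suppF P (θ : G → ℂ)).card)]

/-- The non-borderline case `e ≥ 2`, `q ≥ (e+1)²`. -/
theorem case_nb (h : BLData P C N A) (e : ℕ) (he : Nat.card N = e * Nat.card C)
    (he2 : 2 ≤ e) (hediv : e ∣ Nat.card P - 1) (hq : (e + 1) ^ 2 ≤ Nat.card P)
    (χ : IrrCharacter G) (h1 : (χ : G → ℂ) ≠ fun _ => 1)
    (hdeg : charDegree (χ : G → ℂ) ^ 2 + 1 < Nat.card P) :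
    ∃ K : Subgroup G, K.Normal ∧ K ≠ ⊤ ∧ P ≤ K := by
  have hχc := Helper4.isCharacter_of_irr χ
  have hχcl := Helper4.isClassFunction_irr χ
  have hd := (Helper83.irr_degree χ.2).2
  have hd0 := (Helper83.irr_degree χ.2).1
  set d := charDegree (χ : G → ℂ) with hdd
  set q := Nat.card P with hqq
  by_cases hs : suppF P (χ : G → ℂ) ⊆ {1}
  · exact fact0 h χ h1 hs
  have hex : ∃ l₀ ∈ suppF P (χ : G → ℂ), l₀ ≠ 1 := by
    by_contra hcon
    push Not at hcon
    exact hs (fun l hl => Finset.mem_singleton.mpr (hcon l hl))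
  obtain ⟨l₀, hl₀s, hl₀⟩ := hex
  obtain ⟨hb1, hb2⟩ := orb_card_le h e he (χ : G → ℂ) hχcl l₀ hl₀s hl₀
  have hdq : d + e + 2 ≤ q := by
    by_contra hcon
    push Not at hcon
    have h2 : d ^ 2 + 2 ≤ d + e + 1 := by omega
    have h3 : (e + 1) ^ 2 ≤ d + e + 1 := by omega
    nlinarith
  have hr := lemmaL h e he hq χ hdq
  have hre : (suppF P (χ : G → ℂ)).card = e := le_antisymm hr hb1
  have h1s : (1 : P →* ℂˣ) ∉ suppF P (χ : G → ℂ) := by
    intro h1s
    have := hb2 h1s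
    omega
  have hsupp : suppF P (χ : G → ℂ) = orb h l₀ := by
    symm
    apply Finset.eq_of_subset_of_card_le (orb_subset_supp h _ hχcl l₀ hl₀s)
    rw [hre, card_orb' h e he l₀ hl₀]
  obtain ⟨k₀, hk1, hconst, hdk, hsq⟩ := deg_of_supp_orb h e he χ l₀ hl₀ hsupp
  obtain ⟨t, ht⟩ := hediv
  have hq1 : 1 ≤ q := Nat.card_pos
  have hdeq : d ^ 2 + e + 1 ≤ q := by
    have h2 : d ^ 2 + 1 ≤ e * t := by omega
    have h3 : d ^ 2 = e * (e * k₀ ^ 2) := by rw [hdd, hdk]; ring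
    have h4 : e * (e * k₀ ^ 2) < e * t := by omega
    have h5 : e * k₀ ^ 2 < t := Nat.lt_of_mul_lt_mul_left h4
    have h6 : e * (e * k₀ ^ 2 + 1) ≤ e * t := Nat.mul_le_mul_left e h5
    have h7 : e * (e * k₀ ^ 2 + 1) = d ^ 2 + e := by rw [h3]; ring
    omega
  set Ψ : G → ℂ := fun g => (χ : G → ℂ) g * conj ((χ : G → ℂ) g) with hΨ
  have hΨc : IsCharacter G Ψ :=
    Helper4.isCharacter_mul _ _ hχc (Helper4.isCharacter_conj _ hχc)
  have hΨ1 : Ψ 1 = ((d ^ 2 : ℕ) : ℂ) := by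
    show (χ : G → ℂ) 1 * conj ((χ : G → ℂ) 1) = _
    rw [hd, Complex.conj_natCast]
    push_cast
    ring
  have hΨt : classInner Ψ (fun _ => (1 : ℂ)) = 1 := by
    have h2 := Helper83.irr_orthonormal χ χ
    rw [if_pos rfl] at h2
    have h3 : classInner Ψ (fun _ => (1 : ℂ)) = classInner (χ : G → ℂ) (χ : G → ℂ) := by
      unfold classInner
      congr 1
      refine Finset.sum_congr rfl fun g _ => ?_
      rw [map_one, mul_one]
    rw [h3, h2]
  have hΨp : pm Ψ (1 : P →* ℂˣ) = ((e * k₀ ^ 2 : ℕ) : ℂ) := by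
    rw [← hsq]
    exact pm_mul_conj h _ _ hχc hχc
  have hk2 : 2 ≤ e * k₀ ^ 2 := by nlinarith
  obtain ⟨θ, hθ1, hθp, hθd, -⟩ := exists_constituent Ψ hΨc (d ^ 2) hΨ1 hΨt (e * k₀ ^ 2) hΨp hk2
  have hrθ := lemmaL h e he hq θ (by omega)
  apply fact0 h θ hθ1
  intro l hl
  rw [Finset.mem_singleton]
  by_contra hl1
  obtain ⟨-, hb2'⟩ := orb_card_le h e he (θ : G → ℂ) (Helper4.isClassFunction_irr θ) l hl hl1
  have := hb2' ((mem_suppF _ _).mpr hθp)
  omega

/-- Reduction of the remaining case to the borderline configuration. -/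
theorem case_b_reduce (h : BLData P C N A) (e : ℕ) (he : Nat.card N = e * Nat.card C)
    (he2 : 2 ≤ e) (hediv : e ∣ Nat.card P - 1) (hq : Nat.card P < (e + 1) ^ 2)
    (χ : IrrCharacter G) (hdeg : charDegree (χ : G → ℂ) ^ 2 + 1 < Nat.card P)
    (hs : ¬ suppF P (χ : G → ℂ) ⊆ {1}) :
    Nat.card P = e ^ 2 + e + 1 ∧ charDegree (χ : G → ℂ) = e ∧
      ∃ l₀ : P →* ℂˣ, l₀ ≠ 1 ∧ suppF P (χ : G → ℂ) = orb h l₀ ∧
        ∀ l ∈ orb h l₀, pm (χ : G → ℂ) l = 1 := by
  have hχc := Helper4.isCharacter_of_irr χ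
  have hχcl := Helper4.isClassFunction_irr χ
  have hd := (Helper83.irr_degree χ.2).2
  have hd0 := (Helper83.irr_degree χ.2).1
  set d := charDegree (χ : G → ℂ) with hdd
  set q := Nat.card P with hqq
  have hex : ∃ l₀ ∈ suppF P (χ : G → ℂ), l₀ ≠ 1 := by
    by_contra hcon
    push Not at hcon
    exact hs (fun l hl => Finset.mem_singleton.mpr (hcon l hl))
  obtain ⟨l₀, hl₀s, hl₀⟩ := hex
  obtain ⟨hb1, hb2⟩ := orb_card_le h e he (χ : G → ℂ) hχcl l₀ hl₀s hl₀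
  have hr := card_supp_le h (χ : G → ℂ) hχc _ hd
  have hde : d = e := by
    have h1 : e ≤ d := le_trans hb1 hr
    have h2 : d < e + 1 := by
      by_contra hcon
      push Not at hcon
      have : (e + 1) ^ 2 ≤ d ^ 2 := Nat.pow_le_pow_left hcon 2
      omega
    omega
  have hre : (suppF P (χ : G → ℂ)).card = e := by omega
  obtain ⟨t, ht⟩ := hediv
  have hq1 : 1 ≤ q := Nat.card_pos
  have hqe : q = e ^ 2 + e + 1 := by
    have h1 : e * e + 1 ≤ e * t := by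
      have : d ^ 2 = e * e := by rw [hde]; ring
      omega
    have h2 : e * e < e * t := by omega
    have h3 : e < t := Nat.lt_of_mul_lt_mul_left h2
    have h4 : e * t < e * (e + 2) := by
      have : (e + 1) ^ 2 = e * (e + 2) + 1 := by ring
      omega
    have h5 : t < e + 2 := Nat.lt_of_mul_lt_mul_left h4
    have h6 : t = e + 1 := by omega
    have h7 : e * t = e ^ 2 + e := by rw [h6]; ring
    omega
  have h1s : (1 : P →* ℂˣ) ∉ suppF P (χ : G → ℂ) := by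
    intro h1s
    have := hb2 h1s
    omega
  have hsupp : suppF P (χ : G → ℂ) = orb h l₀ := by
    symm
    apply Finset.eq_of_subset_of_card_le (orb_subset_supp h _ hχcl l₀ hl₀s)
    rw [hre, card_orb' h e he l₀ hl₀]
  obtain ⟨k₀, hk1, hconst, hdk, -⟩ := deg_of_supp_orb h e he χ l₀ hl₀ hsupp
  have hk0 : k₀ = 1 := by
    have h1 : e * k₀ = e * 1 := by omega
    exact Nat.eq_of_mul_eq_mul_left (by omega) h1
  refine ⟨hqe, hde, l₀, hl₀, hsupp, fun l hl => ?_⟩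
  rw [hconst l hl, hk0]
  simp

end Cases

end Cfsg.Agent.Lib.Helper46.BL2
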