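import Mathlib
import Cfsg.Agent.Lib.Helper46.BL5b
import Cfsg.Agent.Lib.Helper35.Virt
import Cfsg.Agent.Lib.Helper83.Induce

/-!
# Brauer–Leonard, part 6: linear characters of `C` and exceptional characters
-/

set_option autoImplicit false

namespace Cfsg.Agent.Lib.Helper46.BL2

open Cfsg Cfsg.Agent.Lib.Helper46.BL1
open scoped ComplexConjugate
open Classical

section LinGen

variable {H : Type*} [Group H]

/-- The function of a linear character. -/
def lf (μ : H →* ℂˣ) : H → ℂ := fun c => (μ c : ℂ)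

theorem lf_apply (μ : H →* ℂˣ) (c : H) : lf μ c = (μ c : ℂ) := rfl

theorem lf_irr (μ : H →* ℂˣ) : IsIrrCharacter H (lf μ) := Helper4.isIrrCharacter_lin μ

theorem lf_char (μ : H →* ℂˣ) : IsCharacter H (lf μ) :=
  Helper4.isCharacter_of_irr ⟨lf μ, lf_irr μ⟩

theorem lf_injective : Function.Injective (lf : (H →* ℂˣ) → H → ℂ) := by
  intro μ μ' hμ
  ext c
  exact congrFun hμ c

theorem lf_inner [Fintype H] (μ μ' : H →* ℂˣ) :
    classInner (lf μ) (lf μ') = if μ = μ' then 1 else 0 := by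
  rw [Helper35.classInner_irr' (lf_irr μ) (lf_irr μ')]
  by_cases hμ : μ = μ'
  · rw [if_pos hμ, if_pos (by rw [hμ])]
  · rw [if_neg hμ, if_neg (fun h' => hμ (lf_injective h'))]

end LinGen

section Lin

variable {G : Type*} [Group G] {P C N : Subgroup G} {A : Set G}

/-- Restriction of a linear character of `C` to `P`. -/
def resP (h : BLData P C N A) (μ : C →* ℂˣ) : P →* ℂˣ := μ.comp (Subgroup.inclusion h.hPC)

theorem resP_apply (h : BLData P C N A) (μ : C →* ℂˣ) (x : P) :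
    resP h μ x = μ ⟨x, h.hPC x.2⟩ := rfl

theorem resP_mul (h : BLData P C N A) (μ μ' : C →* ℂˣ) :
    resP h (μ * μ') = resP h μ * resP h μ' := rfl

theorem resP_inv (h : BLData P C N A) (μ : C →* ℂˣ) : resP h μ⁻¹ = (resP h μ)⁻¹ := rfl

/-- Conjugation by `n ∈ N` on `C`. -/
def conjC (h : BLData P C N A) (n : N) : C →* C where
  toFun c := ⟨n * c * (n : G)⁻¹, h.hNC n n.2 c c.2⟩
  map_one' := Subtype.ext (by simp)
  map_mul' x y := Subtype.ext (by simp [mul_assoc])

theorem conjC_coe (h : BLData P C N A) (n : N) (c : C) :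
    ((conjC h n c : C) : G) = n * c * (n : G)⁻¹ := rfl

/-- The conjugate of a linear character of `C` by `n ∈ N`. -/
def cjC (h : BLData P C N A) (n : N) (μ : C →* ℂˣ) : C →* ℂˣ := μ.comp (conjC h n)

theorem cjC_apply (h : BLData P C N A) (n : N) (μ : C →* ℂˣ) (c : C) :
    cjC h n μ c = μ (conjC h n c) := rfl

theorem resP_cjC (h : BLData P C N A) (n : N) (μ : C →* ℂˣ) :
    resP h (cjC h n μ) = cj h n (resP h μ) := by
  ext x
  rfl

theorem cjC_of_mem_C (h : BLData P C N A) (n : N) (hn : (n : G) ∈ C) (μ : C →* ℂˣ) :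
    cjC h n μ = μ := by
  ext c
  have h1 : conjC h n c = ⟨n, hn⟩ * c * (⟨n, hn⟩ : C)⁻¹ := Subtype.ext rfl
  rw [cjC_apply, h1, map_mul, map_mul, map_inv, mul_inv_cancel_comm]

theorem cjC_fix [Finite P] (h : BLData P C N A) (n : N) (μ : C →* ℂˣ) (hμ : resP h μ ≠ 1)
    (hn : cjC h n μ = μ) : (n : G) ∈ C := by
  apply cj_free h n (resP h μ) hμ
  rw [← resP_cjC, hn]

/-- A retraction of `C` onto `P` by a power map. -/
structure Retr (P C : Subgroup G) (A : Set G) (w : ℕ) : Prop where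
  hP : ∀ x ∈ P, x ^ w = x
  hC : ∀ c ∈ C, c ^ w ∈ P
  hmul : ∀ c ∈ C, ∀ c' ∈ C, (c * c') ^ w = c ^ w * c' ^ w
  hA : ∀ c ∈ C, c ∉ A → c ^ w = 1

/-- The retraction as a homomorphism. -/
def retr {w : ℕ} (hw : Retr P C A w) : C →* P where
  toFun c := ⟨(c : G) ^ w, hw.hC c c.2⟩
  map_one' := Subtype.ext (by simp)
  map_mul' a b := Subtype.ext (hw.hmul a a.2 b b.2)

/-- The canonical extension to `C` of a linear character of `P`. -/
def extC {w : ℕ} (hw : Retr P C A w) (σ : P →* ℂˣ) : C →* ℂˣ := σ.comp (retr hw)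

theorem extC_apply {w : ℕ} (hw : Retr P C A w) (σ : P →* ℂˣ) (c : C) :
    extC hw σ c = σ (retr hw c) := rfl

theorem resP_extC {w : ℕ} (h : BLData P C N A) (hw : Retr P C A w) (σ : P →* ℂˣ) :
    resP h (extC hw σ) = σ := by
  ext x
  rw [resP_apply, extC_apply]
  have h1 : retr hw ⟨x, h.hPC x.2⟩ = x := Subtype.ext (hw.hP x x.2)
  rw [h1]

theorem extC_off {w : ℕ} (hw : Retr P C A w) (σ : P →* ℂˣ) (c : C) (hc : (c : G) ∉ A) :
    extC hw σ c = 1 := by
  rw [extC_apply]
  have h1 : retr hw c = 1 := Subtype.ext (hw.hA c c.2 hc)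
  rw [h1, map_one]

theorem extC_mul {w : ℕ} (hw : Retr P C A w) (σ τ : P →* ℂˣ) :
    extC hw (σ * τ) = extC hw σ * extC hw τ := rfl

theorem extC_inv {w : ℕ} (hw : Retr P C A w) (σ : P →* ℂˣ) :
    extC hw σ⁻¹ = (extC hw σ)⁻¹ := rfl

variable [Fintype G] [Fintype C] [Fintype N]

theorem card_filter_C (h : BLData P C N A) :
    (Finset.univ.filter (fun n : N => (n : G) ∈ C)).card = Nat.card C := by
  rw [← Nat.card_congr (Subgroup.subgroupOfEquivOfLe h.hCN).toEquiv]
  rw [Nat.card_eq_fintype_card, Fintype.card_subtype]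
  congr 1

/-- Induction from `C` of a function supported on the TI-set `A`, evaluated on `C`. -/
theorem ind_formula (h : BLData P C N A) (δ : C → ℂ) (hδ : ∀ c : C, (c : G) ∉ A → δ c = 0)
    (c : C) :
    indFun C δ c = (Nat.card C : ℂ)⁻¹ * ∑ n : N, δ (conjC h n⁻¹ c) := by
  rw [Helper4.indFun_apply]
  congr 1
  have hF : ∀ x : G, x ∉ N → extendByZero C δ (x⁻¹ * c * x) = 0 := by
    intro x hx
    by_cases hmem : x⁻¹ * (c : G) * x ∈ C
    · rw [Helper4.extendByZero_apply_mem' C δ hmem]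
      apply hδ
      intro hA
      have h1 : x⁻¹ * (c : G) * x⁻¹⁻¹ ∈ A := by rw [inv_inv]; exact hA
      have h2 := h.hAcl c c.2 x⁻¹ h1
      have h3 := h.hTI c h2 x⁻¹ h1
      exact hx (by simpa using N.inv_mem h3)
    · exact Helper4.extendByZero_apply_not_mem C δ hmem
  have h1 : ∑ n : N, δ (conjC h n⁻¹ c) =
      ∑ n : N, extendByZero C δ ((n : G)⁻¹ * (c : G) * (n : G)) := by
    refine Finset.sum_congr rfl fun n _ => ?_
    have e : (n : G)⁻¹ * (c : G) * (n : G) = ((conjC h n⁻¹ c : C) : G) := by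
      rw [conjC_coe]; simp
    rw [e, Helper4.extendByZero_apply_mem]
  rw [h1, ← Finset.sum_subtype (Finset.univ.filter (· ∈ N)) (by simp)
    (fun x => extendByZero C δ (x⁻¹ * (c : G) * x))]
  symm
  apply Finset.sum_subset (Finset.subset_univ _)
  intro x _ hx
  apply hF
  intro hxN
  exact hx (Finset.mem_filter.mpr ⟨Finset.mem_univ _, hxN⟩)

/-- The difference of two induced linear characters. -/
noncomputable def excD (κ κ' : C →* ℂˣ) : G → ℂ := indFun C (lf κ - lf κ')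

theorem excD_class (κ κ' : C →* ℂˣ) : IsClassFunction G (excD κ κ') :=
  Helper4.isClassFunction_indFun _ _

theorem excD_inner (κ κ' : C →* ℂˣ) (F : G → ℂ) (hF : IsClassFunction G F) :
    classInner (excD κ κ') F =
      classInner (lf κ) (fun c : C => F c) - classInner (lf κ') (fun c : C => F c) := by
  unfold excD
  rw [Helper4.frobenius_reciprocity C _ F hF, Helper35.classInner_sub_left]

theorem excD_one (κ κ' : C →* ℂˣ) : excD κ κ' 1 = 0 := by
  unfold excD
  rw [Helper83.indFun_one]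
  simp [lf]

theorem excD_gen (κ κ' : C →* ℂˣ) : IsGeneralizedCharacter G (excD κ κ') :=
  ⟨indFun C (lf κ), indFun C (lf κ'), Helper4.isCharacter_indFun C _ (lf_char κ),
    Helper4.isCharacter_indFun C _ (lf_char κ'), Helper35.indFun_sub C _ _⟩

theorem excD_res (h : BLData P C N A) (κ κ' : C →* ℂˣ)
    (hoff : ∀ c : C, (c : G) ∉ A → κ c = κ' c) (c : C) :
    excD κ κ' c = (Nat.card C : ℂ)⁻¹ *
      ∑ n : N, ((cjC h n⁻¹ κ c : ℂ) - (cjC h n⁻¹ κ' c : ℂ)) := by
  unfold excD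
  rw [ind_formula h _ (fun c hc => by simp [lf, hoff c hc]) c]
  rfl

variable [Fintype P]

/-- The difference of two induced linear characters has norm `2`. -/
theorem excD_norm (h : BLData P C N A) (κ κ' : C →* ℂˣ)
    (hoff : ∀ c : C, (c : G) ∉ A → κ c = κ' c) (hν : resP h κ ≠ 1) (hν' : resP h κ' ≠ 1)
    (hdis : ∀ n : N, cj h n (resP h κ) ≠ resP h κ') :
    classInner (excD κ κ') (excD κ κ') = 2 := by
  rw [excD_inner κ κ' _ (excD_class κ κ')]
  have hres : (fun c : C => excD κ κ' c) = (Nat.card C : ℂ)⁻¹ •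
      ∑ n : N, (lf (cjC h n⁻¹ κ) - lf (cjC h n⁻¹ κ')) := by
    funext c
    rw [excD_res h κ κ' hoff c]
    simp [lf, Finset.sum_apply]
  have hC : (Nat.card C : ℂ) ≠ 0 := Nat.cast_ne_zero.mpr Nat.card_pos.ne'
  have hcc : conj ((Nat.card C : ℂ)⁻¹) = (Nat.card C : ℂ)⁻¹ := by
    rw [map_inv₀, Complex.conj_natCast]
  have e1 : ∀ n : N, (if κ = cjC h n⁻¹ κ then (1 : ℂ) else 0) = if (n : G) ∈ C then 1 else 0 := by
    intro n
    by_cases hn : (n : G) ∈ C
    · rw [if_pos hn, if_pos]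
      exact (cjC_of_mem_C h n⁻¹ (by simpa using C.inv_mem hn) κ).symm
    · rw [if_neg hn, if_neg]
      intro heq
      have := cjC_fix h n⁻¹ κ hν heq.symm
      exact hn (by simpa using C.inv_mem this)
  have e2 : ∀ n : N, (if κ' = cjC h n⁻¹ κ' then (1 : ℂ) else 0) = if (n : G) ∈ C then 1 else 0 := by
    intro n
    by_cases hn : (n : G) ∈ C
    · rw [if_pos hn, if_pos]
      exact (cjC_of_mem_C h n⁻¹ (by simpa using C.inv_mem hn) κ').symm
    · rw [if_neg hn, if_neg]
      intro heq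
      have := cjC_fix h n⁻¹ κ' hν' heq.symm
      exact hn (by simpa using C.inv_mem this)
  have e3 : ∀ n : N, (if κ = cjC h n⁻¹ κ' then (1 : ℂ) else 0) = 0 := by
    intro n
    rw [if_neg]
    intro heq
    have h1 : resP h κ = cj h n⁻¹ (resP h κ') := by rw [← resP_cjC, ← heq]
    apply hdis n
    rw [h1, ← cj_mul, inv_mul_cancel, cj_one]
  have e4 : ∀ n : N, (if κ' = cjC h n⁻¹ κ then (1 : ℂ) else 0) = 0 := by
    intro n
    rw [if_neg]
    intro heq
    have h1 : resP h κ' = cj h n⁻¹ (resP h κ) := by rw [← resP_cjC, ← heq]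
    exact hdis n⁻¹ h1.symm
  rw [hres, Helper35.classInner_smul_right, Helper35.classInner_smul_right,
    Helper35.classInner_sum_right, Helper35.classInner_sum_right]
  simp only [Helper35.classInner_sub_right, lf_inner, e1, e2, e3, e4, sub_zero, zero_sub]
  rw [hcc, Finset.sum_neg_distrib, Finset.sum_ite, Finset.sum_const, Finset.sum_const_zero,
    add_zero, card_filter_C h]
  rw [nsmul_eq_mul, mul_one]
  field_simp
  ring

theorem excD_pm (h : BLData P C N A) (κ κ' : C →* ℂˣ)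
    (hoff : ∀ c : C, (c : G) ∉ A → κ c = κ' c) (hν : resP h κ ≠ 1) (hν' : resP h κ' ≠ 1) :
    pm (excD κ κ') (1 : P →* ℂˣ) = 0 := by
  unfold pm
  have hx : ∀ x : P, excD κ κ' (x : G) = (Nat.card C : ℂ)⁻¹ *
      ∑ n : N, (((cj h n⁻¹ (resP h κ)) x : ℂ) - ((cj h n⁻¹ (resP h κ')) x : ℂ)) := by
    intro x
    exact excD_res h κ κ' hoff ⟨x, h.hPC x.2⟩
  have hz : ∀ (l : P →* ℂˣ), l ≠ 1 → ∀ n : N, ∑ x : P, ((cj h n⁻¹ l) x : ℂ) = 0 := by
    intro l hl n
    have h1 := hom_orth (cj h n⁻¹ l) 1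
    rw [if_neg] at h1
    · simpa using h1
    · intro h2
      apply hl
      apply cj_injective h n⁻¹
      rw [h2, cj_triv]
  simp only [hx, MonoidHom.one_apply, inv_one, Units.val_one, mul_one]
  rw [← Finset.mul_sum, Finset.sum_comm]
  rw [Finset.sum_eq_zero (fun n _ => by
    rw [Finset.sum_sub_distrib, hz _ hν n, hz _ hν' n, sub_zero])]
  simp

/-- **Exceptional characters**: subtracting the difference of two induced linear characters
from an irreducible character containing exactly the first gives an irreducible character. -/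
theorem exc_irr (h : BLData P C N A) (κ κ' : C →* ℂˣ)
    (hoff : ∀ c : C, (c : G) ∉ A → κ c = κ' c) (hν : resP h κ ≠ 1) (hν' : resP h κ' ≠ 1)
    (hdis : ∀ n : N, cj h n (resP h κ) ≠ resP h κ') (θ : IrrCharacter G)
    (h1 : classInner (lf κ) (fun c : C => (θ : G → ℂ) c) ≠ 0)
    (h2 : classInner (lf κ') (fun c : C => (θ : G → ℂ) c) = 0) :
    IsIrrCharacter G ((θ : G → ℂ) - excD κ κ') := by
  obtain ⟨μ₁, μ₂, hμ₁, hμ₂, hne, hΔ⟩ := Helper35.gen_norm_two (excD_gen κ κ')
    (excD_norm h κ κ' hoff hν hν' hdis) (excD_one κ κ')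
  have h3 := excD_inner κ κ' (θ : G → ℂ) (Helper4.isClassFunction_irr θ)
  obtain ⟨k, hk⟩ := Helper4.classInner_isCharacter_isCharacter_nat (lf κ)
    (fun c : C => (θ : G → ℂ) c) (lf_char κ)
    (Helper4.isCharacter_restrict C _ (Helper4.isCharacter_of_irr θ))
  rw [h2, sub_zero, hΔ, Helper35.classInner_sub_left, Helper35.classInner_irr' hμ₁ θ.2,
    Helper35.classInner_irr' hμ₂ θ.2, hk] at h3
  rw [hk] at h1
  have hk0 : k ≠ 0 := fun h0 => h1 (by rw [h0]; simp)
  by_cases e1 : μ₁ = (θ : G → ℂ)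
  · by_cases e2 : μ₂ = (θ : G → ℂ)
    · exact absurd (e1.trans e2.symm) hne
    · have h4 : (θ : G → ℂ) - excD κ κ' = μ₂ := by
        rw [hΔ, e1]; abel
      rw [h4]; exact hμ₂
  · exfalso
    rw [if_neg e1] at h3
    by_cases e2 : μ₂ = (θ : G → ℂ)
    · rw [if_pos e2] at h3
      have h5 : ((k + 1 : ℕ) : ℂ) = 0 := by
        push_cast
        rw [← h3]; ring
      exact (by exact_mod_cast h5 : False)
    · rw [if_neg e2, sub_zero] at h3
      exact hk0 (by exact_mod_cast h3.symm)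

end Lin

end Cfsg.Agent.Lib.Helper46.BL2
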