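import Mathlib
import Cfsg.Agent.Lib.Helper46.BL6
import Cfsg.Agent.Lib.Helper4.CharExp

/-!
# Brauer–Leonard, part 6b: auxiliary lemmas for the borderline case
-/

set_option autoImplicit false

namespace Cfsg.Agent.Lib.Helper46.BL2

open Cfsg Cfsg.Agent.Lib.Helper46.BL1
open scoped ComplexConjugate
open Classical

section AuxGen

variable {H : Type*} [Group H] [Fintype H]

/-- Two characters both containing the principal character are not orthogonal. -/
theorem inner_ne_zero_of_triv (X Y : H → ℂ) (hX : IsCharacter H X) (hY : IsCharacter H Y)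
    (hX1 : classInner X (fun _ => (1 : ℂ)) ≠ 0) (hY1 : classInner Y (fun _ => (1 : ℂ)) ≠ 0) :
    classInner X Y ≠ 0 := by
  have := Helper4.irr_finite (G := H)
  letI : Fintype (IrrCharacter H) := Fintype.ofFinite _
  obtain ⟨x, hx⟩ := Helper4.exists_decomp_of_isCharacter X hX
  obtain ⟨y, hy⟩ := Helper4.exists_decomp_of_isCharacter Y hY
  have hx1 : x (Helper83.trivIrr H) ≠ 0 := by
    intro h0
    apply hX1
    have h1 := Helper4.classInner_sum_irr (fun φ : IrrCharacter H => (x φ : ℂ)) (Helper83.trivIrr H)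
    rw [← hx, h0] at h1
    have h2 : classInner X (fun _ => (1 : ℂ)) = classInner X (Helper83.trivIrr H : H → ℂ) := rfl
    rw [h2, h1]; simp
  have hy1 : y (Helper83.trivIrr H) ≠ 0 := by
    intro h0
    apply hY1
    have h1 := Helper4.classInner_sum_irr (fun φ : IrrCharacter H => (y φ : ℂ)) (Helper83.trivIrr H)
    rw [← hy, h0] at h1
    have h2 : classInner Y (fun _ => (1 : ℂ)) = classInner Y (Helper83.trivIrr H : H → ℂ) := rfl
    rw [h2, h1]; simp
  rw [hx, hy, Helper4.classInner_sum_sum_irr]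
  have h2 : ∑ φ : IrrCharacter H, (x φ : ℂ) * conj (y φ : ℂ) =
      ((∑ φ : IrrCharacter H, x φ * y φ : ℕ) : ℂ) := by
    push_cast
    exact Finset.sum_congr rfl fun φ _ => by rw [Complex.conj_natCast]
  rw [h2]
  have hpos : 0 < ∑ φ : IrrCharacter H, x φ * y φ :=
    Finset.sum_pos' (fun _ _ => Nat.zero_le _)
      ⟨Helper83.trivIrr H, Finset.mem_univ _,
        Nat.mul_pos (Nat.pos_of_ne_zero hx1) (Nat.pos_of_ne_zero hy1)⟩
  exact_mod_cast hpos.ne'

/-- Linear constituents of two characters give a linear constituent of `a b‾`. -/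
theorem prod_constituent (a b : H → ℂ) (ha : IsCharacter H a) (hb : IsCharacter H b)
    (μ μ' : H →* ℂˣ) (h1 : classInner a (lf μ) ≠ 0) (h2 : classInner b (lf μ') ≠ 0) :
    classInner (fun c => a c * conj (b c)) (lf (μ * μ'⁻¹)) ≠ 0 := by
  have hX := Helper4.isCharacter_mul a (lf μ⁻¹) ha (lf_char μ⁻¹)
  have hY := Helper4.isCharacter_mul b (lf μ'⁻¹) hb (lf_char μ'⁻¹)
  have e1 : classInner (a * lf μ⁻¹) (fun _ => (1 : ℂ)) = classInner a (lf μ) := by
    unfold classInner
    congr 1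
    refine Finset.sum_congr rfl fun c _ => ?_
    rw [Pi.mul_apply, map_one, mul_one, lf_apply, lf_apply, hom_conj]
    rfl
  have e2 : classInner (b * lf μ'⁻¹) (fun _ => (1 : ℂ)) = classInner b (lf μ') := by
    unfold classInner
    congr 1
    refine Finset.sum_congr rfl fun c _ => ?_
    rw [Pi.mul_apply, map_one, mul_one, lf_apply, lf_apply, hom_conj]
    rfl
  have e3 : classInner (fun c => a c * conj (b c)) (lf (μ * μ'⁻¹)) =
      classInner (a * lf μ⁻¹) (b * lf μ'⁻¹) := by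
    unfold classInner
    congr 1
    refine Finset.sum_congr rfl fun c _ => ?_
    simp only [Pi.mul_apply, lf_apply, map_mul, MonoidHom.mul_apply, MonoidHom.inv_apply,
      Units.val_mul]
    rw [hom_conj μ c]
    ring
  rw [e3]
  exact inner_ne_zero_of_triv _ _ hX hY (by rw [e1]; exact h1) (by rw [e2]; exact h2)

theorem exists_lin_of_deg_one (φ : IrrCharacter H) (h1 : (φ : H → ℂ) 1 = 1) :
    ∃ μ : H →* ℂˣ, (φ : H → ℂ) = lf μ := by
  obtain ⟨μ, hμ⟩ := Helper4.linToIrr_bijective.2 ⟨φ, h1⟩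
  refine ⟨μ, ?_⟩
  have h2 := congrArg (fun χ : {χ : IrrCharacter H // (χ : H → ℂ) 1 = 1} => (χ.1 : H → ℂ)) hμ
  exact h2.symm

end AuxGen

section Aux

variable {G : Type*} [Group G] {P C N : Subgroup G} {A : Set G} [Fintype G]
  [Fintype P] [Fintype C] [Fintype (IrrCharacter C)] [Fintype (P →* ℂˣ)] [Fintype N]

theorem cj_orb (h : BLData P C N A) (l₀ l : P →* ℂˣ) (hl : l ∈ orb h l₀) (n : N) :
    cj h n l ∈ orb h l₀ := by
  obtain ⟨n₀, rfl⟩ := (mem_orb h l₀ l).mp hl
  rw [← cj_mul]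
  exact cj_mem_orb h l₀ _

theorem orb_disjoint (h : BLData P C N A) (l₀ l₁ : P →* ℂˣ) (hl₁ : l₁ ∉ orb h l₀)
    (l : P →* ℂˣ) (hl : l ∈ orb h l₁) : l ∉ orb h l₀ := by
  intro hl0
  obtain ⟨n, rfl⟩ := (mem_orb h l₁ l).mp hl
  apply hl₁
  have h1 := cj_orb h l₀ _ hl0 n⁻¹
  rwa [← cj_mul, mul_inv_cancel, cj_one] at h1

/-- The number of linear characters of the abelian group `P`. -/
theorem card_dual (h : BLData P C N A) : Fintype.card (P →* ℂˣ) = Nat.card P := by
  rw [← Nat.card_eq_fintype_card, Nat.card_eq_of_bijective _ (Helper4.linToIrr_bijective (G := P)),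
    Helper4.card_linear]
  have h1 : commutator P = ⊥ := by
    rw [commutator_eq_bot_iff_center_eq_top, eq_top_iff]
    intro x _
    rw [Subgroup.mem_center_iff]
    intro y
    apply Subtype.ext
    exact (h.hcent x x.2 y (h.hPC y.2)).symm
  rw [h1, Subgroup.index_bot]

variable [Fintype (IrrCharacter G)]

/-- A linear constituent on `C` of a character of `G` is a constituent of the restriction of
some irreducible constituent. -/
theorem exists_constituent_res (Ψ : G → ℂ) (hΨ : IsCharacter G Ψ) (μ : C →* ℂˣ)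
    (hμ : classInner (fun c : C => Ψ c) (lf μ) ≠ 0) :
    ∃ ρ : IrrCharacter G, classInner Ψ (ρ : G → ℂ) ≠ 0 ∧
      classInner (fun c : C => (ρ : G → ℂ) c) (lf μ) ≠ 0 := by
  obtain ⟨c, hc⟩ := Helper4.exists_decomp_of_isCharacter Ψ hΨ
  have h1 : (fun x : C => Ψ x) =
      ∑ ρ : IrrCharacter G, (c ρ : ℂ) • (fun x : C => (ρ : G → ℂ) x) := by
    funext x
    rw [hc]
    simp [Finset.sum_apply]
  rw [h1, Helper35.classInner_sum_left] at hμ
  obtain ⟨ρ, -, hρ⟩ := Finset.exists_ne_zero_of_sum_ne_zero hμ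
  rw [Helper35.classInner_smul_left] at hρ
  refine ⟨ρ, ?_, right_ne_zero_of_mul hρ⟩
  have h2 := Helper4.classInner_sum_irr (fun ρ : IrrCharacter G => (c ρ : ℂ)) ρ
  rw [← hc] at h2
  rw [h2]
  exact left_ne_zero_of_mul hρ

/-- Constituents of a character without the type `l` on `P` do not have the type `l`. -/
theorem pm_constituent_zero (h : BLData P C N A) (Ψ : G → ℂ) (hΨ : IsCharacter G Ψ)
    (ρ : IrrCharacter G) (hρ : classInner Ψ (ρ : G → ℂ) ≠ 0) (l : P →* ℂˣ)
    (h0 : pm Ψ l = 0) : pm (ρ : G → ℂ) l = 0 := by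
  obtain ⟨c, hc⟩ := Helper4.exists_decomp_of_isCharacter Ψ hΨ
  have h1 : pm Ψ l = ∑ ρ' : IrrCharacter G, (c ρ' : ℂ) * pm (ρ' : G → ℂ) l := by
    conv_lhs => rw [hc]
    exact pm_sum _ _ _ _
  have hk : ∀ ρ' : IrrCharacter G, ∃ k : ℕ, pm (ρ' : G → ℂ) l = k :=
    fun ρ' => pm_nat h _ (Helper4.isCharacter_of_irr ρ') l
  choose k hk using hk
  rw [h0, Finset.sum_congr rfl (fun ρ' _ => by rw [hk ρ'])] at h1
  have h2 : ∑ ρ' : IrrCharacter G, c ρ' * k ρ' = 0 := by exact_mod_cast h1.symm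
  have h3 := (Finset.sum_eq_zero_iff.mp h2) ρ (Finset.mem_univ _)
  have h4 : c ρ ≠ 0 := by
    intro hc0
    apply hρ
    have h5 := Helper4.classInner_sum_irr (fun ρ : IrrCharacter G => (c ρ : ℂ)) ρ
    rw [← hc] at h5
    rw [h5, hc0]; simp
  rw [hk ρ]
  rcases Nat.mul_eq_zero.mp h3 with h6 | h6
  · exact absurd h6 h4
  · rw [h6]; simp

end Aux

end Cfsg.Agent.Lib.Helper46.BL2
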