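import Mathlib
import Cfsg.Agent.Lib.Helper46.BL6b

/-!
# Brauer–Leonard, part 7: the borderline case `q = e² + e + 1`
-/

set_option autoImplicit false

namespace Cfsg.Agent.Lib.Helper46.BL2

open Cfsg Cfsg.Agent.Lib.Helper46.BL1
open scoped ComplexConjugate
open Classical

section Border

variable {G : Type*} [Group G] {P C N : Subgroup G} {A : Set G} [Fintype G]
  [Fintype P] [Fintype C] [Fintype (IrrCharacter C)] [Fintype (P →* ℂˣ)] [Fintype N]
  [Fintype (IrrCharacter G)]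

omit [Fintype (IrrCharacter G)] in
theorem inner_ne_symm {H : Type*} [Group H] [Fintype H] (a b : H → ℂ)
    (hab : classInner a b ≠ 0) : classInner b a ≠ 0 := by
  rw [Helper4.classInner_conj_symm]
  intro h0
  apply hab
  have h1 := congrArg conj h0
  simpa using h1

omit [Fintype N] [Fintype (IrrCharacter G)] in
theorem lin_of_constituent (h : BLData P C N A) (χ : G → ℂ) (hχ : IsCharacter G χ)
    (hpm : ∀ l : P →* ℂˣ, pm χ l = 0 ∨ pm χ l = 1) (φ : IrrCharacter C)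
    (hφ : classInner (fun c : C => χ c) (φ : C → ℂ) ≠ 0) :
    ∃ μ : C →* ℂˣ, (φ : C → ℂ) = lf μ := by
  obtain ⟨m, hm1, -, -, hm4, -⟩ := char_struct h χ hχ
  have hmφ : m φ ≠ 0 := by
    intro h0
    apply hφ
    rw [hm1, h0]; simp
  have hS : m φ * charDegree (φ : C → ℂ) ≤ ∑ φ' : IrrCharacter C,
      if ty h φ' = ty h φ then m φ' * charDegree (φ' : C → ℂ) else 0 := by
    have h1 := Finset.single_le_sum (f := fun φ' : IrrCharacter C =>
      if ty h φ' = ty h φ then m φ' * charDegree (φ' : C → ℂ) else 0)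
      (fun _ _ => Nat.zero_le _) (Finset.mem_univ φ)
    simpa using h1
  have hS1 : (∑ φ' : IrrCharacter C,
      if ty h φ' = ty h φ then m φ' * charDegree (φ' : C → ℂ) else 0) ≤ 1 := by
    rcases hpm (ty h φ) with h0 | h1
    · rw [hm4] at h0
      have h2 : (∑ φ' : IrrCharacter C,
          if ty h φ' = ty h φ then m φ' * charDegree (φ' : C → ℂ) else 0) = 0 := by
        exact_mod_cast h0
      omega
    · rw [hm4] at h1
      have h2 : (∑ φ' : IrrCharacter C,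
          if ty h φ' = ty h φ then m φ' * charDegree (φ' : C → ℂ) else 0) = 1 := by
        exact_mod_cast h1
      omega
  have hd := Helper83.irr_degree φ.2
  have hdeg : charDegree (φ : C → ℂ) = 1 := by
    have h1 : 1 ≤ m φ := Nat.pos_of_ne_zero hmφ
    have h2 := hd.1
    nlinarith
  apply exists_lin_of_deg_one
  rw [hd.2, hdeg]; simp

omit [Fintype N] [Fintype (IrrCharacter G)] in
theorem kappa_of_theta (h : BLData P C N A) (χ : G → ℂ) (hχ : IsCharacter G χ)
    (hpm : ∀ l : P →* ℂˣ, pm χ l = 0 ∨ pm χ l = 1) (θ : G → ℂ) (hθ : IsCharacter G θ)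
    (hdiff : IsCharacter G ((fun g => χ g * conj (χ g)) - θ)) (φ : IrrCharacter C)
    (hφ : classInner (fun c : C => θ c) (φ : C → ℂ) ≠ 0) :
    ∃ μ' μ'' : C →* ℂˣ, classInner (fun c : C => χ c) (lf μ') ≠ 0 ∧
      classInner (fun c : C => χ c) (lf μ'') ≠ 0 ∧ (φ : C → ℂ) = lf (μ' * μ''⁻¹) := by
  obtain ⟨m, hm1, hm2, -, -, -⟩ := char_struct h χ hχ
  have hΨφ : classInner (fun c : C => χ c * conj (χ c)) (φ : C → ℂ) ≠ 0 := by
    obtain ⟨k1, hk1⟩ := Helper4.classInner_isCharacter_nat _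
      (Helper4.isCharacter_restrict C θ hθ) φ
    obtain ⟨k2, hk2⟩ := Helper4.classInner_isCharacter_nat _
      (Helper4.isCharacter_restrict C _ hdiff) φ
    have e : (fun c : C => χ c * conj (χ c)) = (fun c : C => θ c) +
        (fun c : C => ((fun g => χ g * conj (χ g)) - θ) c) := by
      funext c
      simp
    rw [e, Helper35.classInner_add_left, hk1, hk2]
    rw [hk1] at hφ
    have h1 : k1 ≠ 0 := fun h0 => hφ (by rw [h0]; simp)
    have h2 : k1 + k2 ≠ 0 := by omega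
    exact_mod_cast h2
  have e2 : (fun c : C => χ c * conj (χ c)) = ∑ φ' : IrrCharacter C, ∑ φ'' : IrrCharacter C,
      ((m φ' : ℂ) * (m φ'' : ℂ)) •
        (fun c : C => (φ' : C → ℂ) c * conj ((φ'' : C → ℂ) c)) := by
    funext c
    rw [hm2 c, map_sum, Finset.sum_mul_sum]
    simp only [Finset.sum_apply, Pi.smul_apply, smul_eq_mul, map_mul, Complex.conj_natCast]
    exact Finset.sum_congr rfl fun φ' _ => Finset.sum_congr rfl fun φ'' _ => by ring
  rw [e2, Helper35.classInner_sum_left] at hΨφ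
  obtain ⟨φ', -, h1⟩ := Finset.exists_ne_zero_of_sum_ne_zero hΨφ
  rw [Helper35.classInner_sum_left] at h1
  obtain ⟨φ'', -, h2⟩ := Finset.exists_ne_zero_of_sum_ne_zero h1
  rw [Helper35.classInner_smul_left] at h2
  have hm' : m φ' ≠ 0 := by
    intro h0
    apply h2
    rw [h0]; simp
  have hm'' : m φ'' ≠ 0 := by
    intro h0
    apply h2
    rw [h0]; simp
  have h3 := right_ne_zero_of_mul h2
  have hc' : classInner (fun c : C => χ c) (φ' : C → ℂ) ≠ 0 := by
    rw [hm1]; exact_mod_cast hm'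
  have hc'' : classInner (fun c : C => χ c) (φ'' : C → ℂ) ≠ 0 := by
    rw [hm1]; exact_mod_cast hm''
  obtain ⟨μ', hμ'⟩ := lin_of_constituent h χ hχ hpm φ' hc'
  obtain ⟨μ'', hμ''⟩ := lin_of_constituent h χ hχ hpm φ'' hc''
  refine ⟨μ', μ'', by rw [← hμ']; exact hc', by rw [← hμ'']; exact hc'', ?_⟩
  have e3 : (fun c : C => (φ' : C → ℂ) c * conj ((φ'' : C → ℂ) c)) = lf (μ' * μ''⁻¹) := by
    funext c
    rw [hμ', hμ'', lf_apply, lf_apply, hom_conj]
    rfl
  rw [e3, Helper35.classInner_irr' (lf_irr _) φ.2] at h3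
  by_contra hne
  rw [if_neg (fun h' => hne h'.symm)] at h3
  exact h3 rfl

omit [Fintype G] [Fintype P] [Fintype C] [Fintype (IrrCharacter C)] [Fintype N]
  [Fintype (IrrCharacter G)] [Fintype (P →* ℂˣ)] in
theorem hom_aux2 (ν σ : P →* ℂˣ) : (ν * σ⁻¹)⁻¹ * ν = σ := by
  apply MonoidHom.ext
  intro x
  simp

omit [Fintype G] [Fintype P] [Fintype C] [Fintype (IrrCharacter C)] [Fintype N]
  [Fintype (IrrCharacter G)] [Fintype (P →* ℂˣ)] in
theorem hom_mul_eq_left (ν τ : P →* ℂˣ) (heq : ν * τ = ν) : τ = 1 := by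
  apply MonoidHom.ext
  intro x
  have h1 := congrArg (fun f : P →* ℂˣ => f x) heq
  simpa using h1

omit [Fintype G] [Fintype P] [Fintype C] [Fintype (IrrCharacter C)] [Fintype N]
  [Fintype (IrrCharacter G)] in
theorem exists_sigma (e : ℕ) (he2 : 2 ≤ e) (hcard : Fintype.card (P →* ℂˣ) = e ^ 2 + e + 1)
    (S₁ S₂ : Finset (P →* ℂˣ)) (h1 : S₁.card ≤ e + 1) (h2 : S₂.card ≤ e) (l ν : P →* ℂˣ) :
    ∃ σ : P →* ℂˣ, l * σ ∉ S₁ ∧ ν * σ⁻¹ ∉ S₂ := by
  have hBc : (S₁.image (fun ρ => l⁻¹ * ρ) ∪ S₂.image (fun ρ => ρ⁻¹ * ν)).card ≤ 2 * e + 1 := by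
    calc (S₁.image (fun ρ => l⁻¹ * ρ) ∪ S₂.image (fun ρ => ρ⁻¹ * ν)).card
        ≤ (S₁.image (fun ρ => l⁻¹ * ρ)).card + (S₂.image (fun ρ => ρ⁻¹ * ν)).card :=
          Finset.card_union_le _ _
      _ ≤ S₁.card + S₂.card := Nat.add_le_add Finset.card_image_le Finset.card_image_le
      _ ≤ 2 * e + 1 := by omega
  have hlt : (S₁.image (fun ρ => l⁻¹ * ρ) ∪ S₂.image (fun ρ => ρ⁻¹ * ν)).card <
      Fintype.card (P →* ℂˣ) := by
    rw [hcard]; nlinarith
  obtain ⟨σ, hσ⟩ : ∃ σ, σ ∉ S₁.image (fun ρ => l⁻¹ * ρ) ∪ S₂.image (fun ρ => ρ⁻¹ * ν) := by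
    by_contra hcon
    push Not at hcon
    have h3 : S₁.image (fun ρ => l⁻¹ * ρ) ∪ S₂.image (fun ρ => ρ⁻¹ * ν) = Finset.univ :=
      Finset.eq_univ_iff_forall.mpr hcon
    rw [h3, Finset.card_univ] at hlt
    exact lt_irrefl _ hlt
  refine ⟨σ, fun h3 => hσ ?_, fun h4 => hσ ?_⟩
  · rw [Finset.mem_union]
    left
    rw [Finset.mem_image]
    exact ⟨l * σ, h3, inv_mul_cancel_left l σ⟩
  · rw [Finset.mem_union]
    right
    rw [Finset.mem_image]
    exact ⟨ν * σ⁻¹, h4, hom_aux2 ν σ⟩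

/-- The family of exceptional characters attached to `θ`. -/
theorem theta_family (h : BLData P C N A) {w : ℕ} (hw : Retr P C A w) (θ : IrrCharacter G)
    (κ : C →* ℂˣ) (ν : P →* ℂˣ) (hκν : resP h κ = ν) (hν : ν ≠ 1)
    (hκθ : classInner (lf κ) (fun c : C => (θ : G → ℂ) c) ≠ 0)
    (hsupp : suppF P (θ : G → ℂ) = insert 1 (orb h ν))
    (hθ1 : pm (θ : G → ℂ) (1 : P →* ℂˣ) ≠ 0)
    (τ : P →* ℂˣ) (hτ : ν * τ ∉ insert (1 : P →* ℂˣ) ((orb h ν).erase ν)) (ρ : IrrCharacter G) :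
    ∃ Θ : IrrCharacter G, pm (Θ : G → ℂ) (1 : P →* ℂˣ) ≠ 0 ∧
      classInner (Θ : G → ℂ) (ρ : G → ℂ) = classInner (θ : G → ℂ) (ρ : G → ℂ) -
        classInner (lf κ) (fun c : C => (ρ : G → ℂ) c) +
        classInner (lf (κ * extC hw τ)) (fun c : C => (ρ : G → ℂ) c) := by
  by_cases hτ1 : τ = 1
  · refine ⟨θ, hθ1, ?_⟩
    rw [hτ1]
    have h1 : κ * extC hw 1 = κ := by
      ext c
      simp [extC_apply]
    rw [h1]; ring
  · have hντ1 : ν * τ ≠ 1 := fun h1 => hτ (by rw [h1]; exact Finset.mem_insert_self _ _)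
    have hντo : ν * τ ∉ orb h ν := by
      intro ho
      apply hτ
      apply Finset.mem_insert_of_mem
      rw [Finset.mem_erase]
      refine ⟨?_, ho⟩
      intro heq
      exact hτ1 (hom_mul_eq_left ν τ heq)
    have hoff : ∀ c : C, (c : G) ∉ A → κ c = (κ * extC hw τ) c := by
      intro c hc
      rw [MonoidHom.mul_apply, extC_off hw τ c hc, mul_one]
    have hres' : resP h (κ * extC hw τ) = ν * τ := by rw [resP_mul, resP_extC, hκν]
    have hdis : ∀ n : N, cj h n (resP h κ) ≠ resP h (κ * extC hw τ) := by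
      intro n heq
      rw [hres', hκν] at heq
      exact hντo (heq ▸ cj_mem_orb h ν n)
    have hθc := Helper4.isCharacter_of_irr θ
    have h2 : classInner (lf (κ * extC hw τ)) (fun c : C => (θ : G → ℂ) c) = 0 := by
      by_contra hne
      have h3 := lin_mem_supp h (θ : G → ℂ) hθc (κ * extC hw τ) (inner_ne_symm _ _ hne)
      rw [hsupp] at h3
      have h4 : ν * τ ∈ insert 1 (orb h ν) := by rw [← hres']; exact h3
      rcases Finset.mem_insert.mp h4 with h5 | h5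
      · exact hντ1 h5
      · exact hντo h5
    have hirr := exc_irr h κ (κ * extC hw τ) hoff (by rw [hκν]; exact hν)
      (by rw [hres']; exact hντ1) hdis θ hκθ h2
    refine ⟨⟨_, hirr⟩, ?_, ?_⟩
    · show pm ((θ : G → ℂ) - excD κ (κ * extC hw τ)) 1 ≠ 0
      rw [pm_sub, excD_pm h κ _ hoff (by rw [hκν]; exact hν) (by rw [hres']; exact hντ1),
        sub_zero]
      exact hθ1
    · show classInner ((θ : G → ℂ) - excD κ (κ * extC hw τ)) (ρ : G → ℂ) = _
      rw [Helper35.classInner_sub_left, excD_inner _ _ _ (Helper4.isClassFunction_irr ρ)]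
      ring

end Border

end Cfsg.Agent.Lib.Helper46.BL2
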