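import Mathlib
import Cfsg.Agent.Lib.Helper46.BL7

/-!
# Brauer–Leonard, part 7b: the borderline case `q = e² + e + 1` (assembly)
-/

set_option autoImplicit false
set_option maxHeartbeats 1600000

namespace Cfsg.Agent.Lib.Helper46.BL2

open Cfsg Cfsg.Agent.Lib.Helper46.BL1
open scoped ComplexConjugate
open Classical

section Border

variable {G : Type*} [Group G] {P C N : Subgroup G} {A : Set G} [Fintype G]
  [Fintype P] [Fintype C] [Fintype (IrrCharacter C)] [Fintype (P →* ℂˣ)] [Fintype N]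
  [Fintype (IrrCharacter G)]

/-- The borderline case: `q = e² + e + 1` and `χ` of degree `e` whose restriction to `P` is
a single orbit of linear characters. -/
theorem borderline (h : BLData P C N A) (e : ℕ) (he : Nat.card N = e * Nat.card C)
    (he2 : 2 ≤ e) (hq : Nat.card P = e ^ 2 + e + 1) {w : ℕ} (hw : Retr P C A w)
    (χ : IrrCharacter G) (hd : charDegree (χ : G → ℂ) = e) (l₀ : P →* ℂˣ) (hl₀ : l₀ ≠ 1)
    (hsupp : suppF P (χ : G → ℂ) = orb h l₀)
    (hpm : ∀ l ∈ orb h l₀, pm (χ : G → ℂ) l = 1) :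
    ∃ K : Subgroup G, K.Normal ∧ K ≠ ⊤ ∧ P ≤ K := by
  have hχc := Helper4.isCharacter_of_irr χ
  have hχcl := Helper4.isClassFunction_irr χ
  have hdeg := (Helper83.irr_degree χ.2).2
  rw [hd] at hdeg
  have hzero : ∀ l : P →* ℂˣ, l ∉ orb h l₀ → pm (χ : G → ℂ) l = 0 := by
    intro l hl
    by_contra h0
    exact hl (hsupp ▸ (mem_suppF _ l).mpr h0)
  have hpm01 : ∀ l : P →* ℂˣ, pm (χ : G → ℂ) l = 0 ∨ pm (χ : G → ℂ) l = 1 := by
    intro l
    by_cases hl : l ∈ orb h l₀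
    · exact Or.inr (hpm l hl)
    · exact Or.inl (hzero l hl)
  have hcardorb := card_orb' h e he l₀ hl₀
  -- Step 1: a non-principal constituent `θ` of `χ χ‾` containing `1_P`
  have hΨ₀c : IsCharacter G (fun g => (χ : G → ℂ) g * conj ((χ : G → ℂ) g)) :=
    Helper4.isCharacter_mul _ _ hχc (Helper4.isCharacter_conj _ hχc)
  have hΨ₀1 : (fun g => (χ : G → ℂ) g * conj ((χ : G → ℂ) g)) 1 = ((e ^ 2 : ℕ) : ℂ) := by
    show (χ : G → ℂ) 1 * conj ((χ : G → ℂ) 1) = _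
    rw [hdeg, Complex.conj_natCast]
    push_cast
    ring
  have hΨ₀t : classInner (fun g => (χ : G → ℂ) g * conj ((χ : G → ℂ) g)) (fun _ => (1 : ℂ)) = 1 := by
    have h2 := Helper83.irr_orthonormal χ χ
    rw [if_pos rfl] at h2
    have h3 : classInner (fun g => (χ : G → ℂ) g * conj ((χ : G → ℂ) g)) (fun _ => (1 : ℂ)) =
        classInner (χ : G → ℂ) (χ : G → ℂ) := by
      unfold classInner
      congr 1
      refine Finset.sum_congr rfl fun g _ => ?_
      rw [map_one, mul_one]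
    rw [h3, h2]
  have hΨ₀p : pm (fun g => (χ : G → ℂ) g * conj ((χ : G → ℂ) g)) (1 : P →* ℂˣ) = ((e : ℕ) : ℂ) := by
    rw [pm_mul_conj h _ _ hχc hχc]
    rw [← Finset.sum_subset (Finset.subset_univ (orb h l₀)) (fun l _ hl => by
      rw [hzero l hl, mul_zero]),
      Finset.sum_congr rfl (fun l hl => by rw [hpm l hl, mul_one]), Finset.sum_const, hcardorb]
    simp
  obtain ⟨θ, hθ1, hθp, hθd, hdiff⟩ := exists_constituent _ hΨ₀c (e ^ 2) hΨ₀1 hΨ₀t e hΨ₀p he2
  have hθc := Helper4.isCharacter_of_irr θ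
  have hθcl := Helper4.isClassFunction_irr θ
  -- Step 2: the support of `θ`
  by_cases hsθ : suppF P (θ : G → ℂ) ⊆ {1}
  · exact fact0 h θ hθ1 hsθ
  exfalso
  have hex : ∃ ν ∈ suppF P (θ : G → ℂ), ν ≠ 1 := by
    by_contra hcon
    push Not at hcon
    exact hsθ (fun l hl => Finset.mem_singleton.mpr (hcon l hl))
  obtain ⟨ν, hνs, hν⟩ := hex
  have h1θ : (1 : P →* ℂˣ) ∈ suppF P (θ : G → ℂ) := (mem_suppF _ _).mpr hθp
  obtain ⟨-, hb2⟩ := orb_card_le h e he (θ : G → ℂ) hθcl ν hνs hν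
  have hrge := hb2 h1θ
  have hrle := card_supp_le h (θ : G → ℂ) hθc _ (Helper83.irr_degree θ.2).2
  have hstar := ineq_star' h θ e he
  have hr : (suppF P (θ : G → ℂ)).card = e + 1 := by
    by_contra hne
    have h2 : e + 2 ≤ (suppF P (θ : G → ℂ)).card := by omega
    have h3 : (suppF P (θ : G → ℂ)).card + 1 ≤ e ^ 2 := by omega
    rw [hq] at hstar
    push_cast at hstar
    have h2' : ((e : ℤ) + 2) ≤ (suppF P (θ : G → ℂ)).card := by exact_mod_cast h2
    have h3' : ((suppF P (θ : G → ℂ)).card : ℤ) + 1 ≤ (e : ℤ) ^ 2 := by exact_mod_cast h3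
    have he3 : (3 : ℤ) ≤ e := by
      by_contra hlt
      push Not at hlt
      have he' : e = 2 := by omega
      subst he'
      omega
    nlinarith [mul_nonneg (by linarith : (0 : ℤ) ≤ ((suppF P (θ : G → ℂ)).card : ℤ) - (e + 2))
      (by linarith : (0 : ℤ) ≤ (e : ℤ) ^ 2 - 1 - (suppF P (θ : G → ℂ)).card),
      mul_nonneg (by linarith : (0 : ℤ) ≤ (e : ℤ) - 3) (by linarith : (0 : ℤ) ≤ (e : ℤ))]
  have hsuppθ : suppF P (θ : G → ℂ) = insert 1 (orb h ν) := by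
    symm
    apply Finset.eq_of_subset_of_card_le
    · intro l hl
      rcases Finset.mem_insert.mp hl with rfl | hl
      · exact h1θ
      · exact orb_subset_supp h _ hθcl ν hνs hl
    · rw [hr, Finset.card_insert_of_notMem (one_not_mem_orb h ν hν), card_orb' h e he ν hν]
  -- Step 3: a linear constituent `κ` of `θ` on `C` of type `ν`
  obtain ⟨mθ, hmθ1, -, -, hmθ4, -⟩ := char_struct h (θ : G → ℂ) hθc
  have hexφ : ∃ φ : IrrCharacter C, ty h φ = ν ∧ mθ φ ≠ 0 := by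
    have h2 := (mem_suppF _ _).mp hνs
    rw [hmθ4] at h2
    have h3 : (∑ φ : IrrCharacter C,
        if ty h φ = ν then mθ φ * charDegree (φ : C → ℂ) else 0) ≠ 0 := by
      intro h0
      apply h2
      rw [h0]; simp
    obtain ⟨φ, -, hφ⟩ := Finset.exists_ne_zero_of_sum_ne_zero h3
    by_cases hty : ty h φ = ν
    · rw [if_pos hty] at hφ
      exact ⟨φ, hty, fun h0 => hφ (by rw [h0, zero_mul])⟩
    · rw [if_neg hty] at hφ
      exact absurd rfl hφ
  obtain ⟨φ, hφty, hφm⟩ := hexφ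
  have hφθ : classInner (fun c : C => (θ : G → ℂ) c) (φ : C → ℂ) ≠ 0 := by
    rw [hmθ1]; exact_mod_cast hφm
  obtain ⟨μ', μ'', hμ', hμ'', hφκ⟩ :=
    kappa_of_theta h (χ : G → ℂ) hχc hpm01 (θ : G → ℂ) hθc hdiff φ hφθ
  have hκν : resP h (μ' * μ''⁻¹) = ν := by
    rw [← hφty]
    apply MonoidHom.ext
    intro x
    rw [ty_lin h φ (μ' * μ''⁻¹) (fun c => by rw [hφκ]; rfl) x]
    rfl
  have hκθ : classInner (lf (μ' * μ''⁻¹)) (fun c : C => (θ : G → ℂ) c) ≠ 0 := by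
    apply inner_ne_symm
    rw [← hφκ]; exact hφθ
  have hl''orb : resP h μ'' ∈ orb h l₀ := by
    have h2 := lin_mem_supp h (χ : G → ℂ) hχc μ'' hμ''
    rw [hsupp] at h2
    exact h2
  -- Step 4: choice of `σ`
  have hdual := card_dual h
  have hS₂card : (insert (1 : P →* ℂˣ) ((orb h ν).erase ν)).card ≤ e := by
    calc (insert (1 : P →* ℂˣ) ((orb h ν).erase ν)).card
        ≤ ((orb h ν).erase ν).card + 1 := Finset.card_insert_le _ _
      _ = e := by
        rw [Finset.card_erase_of_mem (self_mem_orb h ν), card_orb' h e he ν hν]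
        omega
  obtain ⟨σ, hσ1, hσ2⟩ := exists_sigma e he2 (by rw [hdual, hq]) (insert 1 (orb h l₀))
    (insert 1 ((orb h ν).erase ν))
    (by rw [Finset.card_insert_of_notMem (one_not_mem_orb h l₀ hl₀), hcardorb])
    hS₂card (resP h μ'') ν
  -- Step 5: the exceptional character `χ'`
  have hl''1 : resP h μ'' ≠ 1 := fun h1 => one_not_mem_orb h l₀ hl₀ (h1 ▸ hl''orb)
  have hres1 : resP h (μ'' * extC hw σ) = resP h μ'' * σ := by rw [resP_mul, resP_extC]
  have hl''σ1 : resP h μ'' * σ ≠ 1 := fun h1 => hσ1 (by rw [h1]; exact Finset.mem_insert_self _ _)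
  have hl''σo : resP h μ'' * σ ∉ orb h l₀ := fun ho => hσ1 (Finset.mem_insert_of_mem ho)
  have hoff1 : ∀ c : C, (c : G) ∉ A → μ'' c = (μ'' * extC hw σ) c := by
    intro c hc
    rw [MonoidHom.mul_apply, extC_off hw σ c hc, mul_one]
  have hdis1 : ∀ n : N, cj h n (resP h μ'') ≠ resP h (μ'' * extC hw σ) := by
    intro n heq
    rw [hres1] at heq
    exact hl''σo (heq ▸ cj_orb h l₀ _ hl''orb n)
  have hχμ'' : classInner (lf μ'') (fun c : C => (χ : G → ℂ) c) ≠ 0 := inner_ne_symm _ _ hμ''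
  have hχκ₁' : classInner (lf (μ'' * extC hw σ)) (fun c : C => (χ : G → ℂ) c) = 0 := by
    by_contra hne
    have h2 := lin_mem_supp h (χ : G → ℂ) hχc (μ'' * extC hw σ) (inner_ne_symm _ _ hne)
    rw [hsupp] at h2
    exact hl''σo (hres1 ▸ h2)
  have hirr1 := exc_irr h μ'' (μ'' * extC hw σ) hoff1 hl''1 (by rw [hres1]; exact hl''σ1)
    hdis1 χ hχμ'' hχκ₁'
  obtain ⟨χ', hχ'val⟩ : ∃ χ' : IrrCharacter G,
      (χ' : G → ℂ) = (χ : G → ℂ) - excD μ'' (μ'' * extC hw σ) := ⟨⟨_, hirr1⟩, rfl⟩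
  have hχ'c := Helper4.isCharacter_of_irr χ'
  have hχ'1 : (χ' : G → ℂ) 1 = (e : ℂ) := by
    rw [hχ'val, Pi.sub_apply, excD_one, sub_zero, hdeg]
  have hχ'κ : classInner (lf (μ'' * extC hw σ)) (fun c : C => (χ' : G → ℂ) c) ≠ 0 := by
    rw [← Helper4.frobenius_reciprocity C (lf (μ'' * extC hw σ)) _
      (Helper4.isClassFunction_irr χ')]
    have hΓ : indFun C (lf (μ'' * extC hw σ)) =
        (χ' : G → ℂ) - (χ : G → ℂ) + indFun C (lf μ'') := by
      rw [hχ'val]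
      unfold excD
      rw [Helper35.indFun_sub]
      abel
    rw [hΓ, Helper35.classInner_add_left, Helper35.classInner_sub_left]
    have hne : χ ≠ χ' := by
      intro heq
      have h0 : excD μ'' (μ'' * extC hw σ) = 0 := by
        have h3 : (χ' : G → ℂ) = (χ : G → ℂ) := by rw [heq]
        rw [hχ'val] at h3
        exact sub_eq_self.mp h3
      have hn := excD_norm h μ'' (μ'' * extC hw σ) hoff1 hl''1 (by rw [hres1]; exact hl''σ1) hdis1
      rw [h0, Helper35.classInner_zero_left] at hn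
      norm_num at hn
    rw [Helper83.irr_orthonormal χ' χ', if_pos rfl, Helper83.irr_orthonormal χ χ', if_neg hne]
    obtain ⟨k, hk⟩ := Helper4.classInner_isCharacter_isCharacter_nat (indFun C (lf μ''))
      (χ' : G → ℂ) (Helper4.isCharacter_indFun C _ (lf_char μ'')) hχ'c
    rw [hk]
    have h4 : ((1 + k : ℕ) : ℂ) ≠ 0 := by exact_mod_cast (by omega : 1 + k ≠ 0)
    push_cast at h4
    simpa using h4
  have hl''σs : resP h μ'' * σ ∈ suppF P (χ' : G → ℂ) := by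
    have h2 := lin_mem_supp h (χ' : G → ℂ) hχ'c (μ'' * extC hw σ) (inner_ne_symm _ _ hχ'κ)
    exact hres1 ▸ h2
  have hsuppχ' : suppF P (χ' : G → ℂ) = orb h (resP h μ'' * σ) := by
    symm
    apply Finset.eq_of_subset_of_card_le
      (orb_subset_supp h _ (Helper4.isClassFunction_irr χ') _ hl''σs)
    rw [card_orb' h e he _ hl''σ1]
    exact card_supp_le h _ hχ'c e hχ'1
  -- Step 6: the character `Ψ = χ χ'‾` and its constituent `ρ`
  have hΨc : IsCharacter G (fun g => (χ : G → ℂ) g * conj ((χ' : G → ℂ) g)) :=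
    Helper4.isCharacter_mul _ _ hχc (Helper4.isCharacter_conj _ hχ'c)
  have hΨ1 : (fun g => (χ : G → ℂ) g * conj ((χ' : G → ℂ) g)) 1 = ((e ^ 2 : ℕ) : ℂ) := by
    show (χ : G → ℂ) 1 * conj ((χ' : G → ℂ) 1) = _
    rw [hdeg, hχ'1, Complex.conj_natCast]
    push_cast
    ring
  have hΨp : pm (fun g => (χ : G → ℂ) g * conj ((χ' : G → ℂ) g)) (1 : P →* ℂˣ) = 0 := by
    rw [pm_mul_conj h _ _ hχc hχ'c]
    apply Finset.sum_eq_zero
    intro l _
    by_cases hl : l ∈ orb h l₀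
    · have h2 : pm (χ' : G → ℂ) l = 0 := by
        by_contra h0
        have h1 : l ∈ orb h (resP h μ'' * σ) := hsuppχ' ▸ (mem_suppF _ l).mpr h0
        exact orb_disjoint h l₀ _ hl''σo l h1 hl
      rw [h2, mul_zero]
    · rw [hzero l hl, zero_mul]
  have hκ₂ : μ' * (μ'' * extC hw σ)⁻¹ = (μ' * μ''⁻¹) * extC hw σ⁻¹ := by
    apply MonoidHom.ext
    intro c
    simp only [MonoidHom.mul_apply, MonoidHom.inv_apply, extC_apply]
    rw [mul_inv, mul_assoc]
  have hΨκ : classInner (fun c : C => (fun g => (χ : G → ℂ) g * conj ((χ' : G → ℂ) g)) c)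
      (lf ((μ' * μ''⁻¹) * extC hw σ⁻¹)) ≠ 0 := by
    have h2 := prod_constituent (fun c : C => (χ : G → ℂ) c) (fun c : C => (χ' : G → ℂ) c)
      (Helper4.isCharacter_restrict C _ hχc) (Helper4.isCharacter_restrict C _ hχ'c) μ'
      (μ'' * extC hw σ) hμ' (inner_ne_symm _ _ hχ'κ)
    rw [hκ₂] at h2
    exact h2
  obtain ⟨ρ, hρΨ, hρκ⟩ := exists_constituent_res _ hΨc _ hΨκ
  have hρp : pm (ρ : G → ℂ) (1 : P →* ℂˣ) = 0 := pm_constituent_zero h _ hΨc ρ hρΨ 1 hΨp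
  have hρd : charDegree (ρ : G → ℂ) ≤ e ^ 2 :=
    Helper83.constituent_degree_le _ hΨc ρ hρΨ (e ^ 2) hΨ1
  have hρc := Helper4.isCharacter_of_irr ρ
  -- Step 7/8: the family `Θ_τ` and counting
  have hTcard : e ^ 2 + 1 ≤ (Finset.univ.filter (fun τ : P →* ℂˣ =>
      ν * τ ∉ insert (1 : P →* ℂˣ) ((orb h ν).erase ν))).card := by
    have hcompl : Finset.univ \ (Finset.univ.filter (fun τ : P →* ℂˣ =>
        ν * τ ∉ insert (1 : P →* ℂˣ) ((orb h ν).erase ν))) ⊆
        (insert (1 : P →* ℂˣ) ((orb h ν).erase ν)).image (fun ρ => ν⁻¹ * ρ) := by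
      intro τ hτ
      rw [Finset.mem_sdiff, Finset.mem_filter] at hτ
      have h2 : ν * τ ∈ insert (1 : P →* ℂˣ) ((orb h ν).erase ν) := by
        by_contra hn
        exact hτ.2 ⟨Finset.mem_univ _, hn⟩
      rw [Finset.mem_image]
      exact ⟨ν * τ, h2, inv_mul_cancel_left ν τ⟩
    have h1 : (Finset.univ \ (Finset.univ.filter (fun τ : P →* ℂˣ =>
        ν * τ ∉ insert (1 : P →* ℂˣ) ((orb h ν).erase ν)))).card ≤ e :=
      calc _ ≤ ((insert (1 : P →* ℂˣ) ((orb h ν).erase ν)).image (fun ρ => ν⁻¹ * ρ)).card :=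
            Finset.card_le_card hcompl
        _ ≤ (insert (1 : P →* ℂˣ) ((orb h ν).erase ν)).card := Finset.card_image_le
        _ ≤ e := hS₂card
    have h2 := Finset.card_sdiff_add_card_eq_card (Finset.subset_univ
      (Finset.univ.filter (fun τ : P →* ℂˣ =>
        ν * τ ∉ insert (1 : P →* ℂˣ) ((orb h ν).erase ν))))
    rw [Finset.card_univ, hdual, hq] at h2
    omega
  have hex0 : ∃ τ ∈ Finset.univ.filter (fun τ : P →* ℂˣ =>
      ν * τ ∉ insert (1 : P →* ℂˣ) ((orb h ν).erase ν)),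
      classInner (lf ((μ' * μ''⁻¹) * extC hw τ)) (fun c : C => (ρ : G → ℂ) c) = 0 := by
    by_contra hcon
    push Not at hcon
    have hinj : (Finset.univ.filter (fun τ : P →* ℂˣ =>
        ν * τ ∉ insert (1 : P →* ℂˣ) ((orb h ν).erase ν))).card ≤
        (suppF P (ρ : G → ℂ)).card := by
      apply Finset.card_le_card_of_injOn (fun τ => ν * τ)
      · intro τ hτ
        have h2 := lin_mem_supp h (ρ : G → ℂ) hρc ((μ' * μ''⁻¹) * extC hw τ)
          (inner_ne_symm _ _ (hcon τ hτ))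
        have e1 : ((μ' * μ''⁻¹) * extC hw τ).comp (Subgroup.inclusion h.hPC) = ν * τ := by
          show resP h ((μ' * μ''⁻¹) * extC hw τ) = _
          rw [resP_mul, resP_extC, hκν]
        rw [e1] at h2
        exact h2
      · intro a _ b _ hab
        exact mul_left_cancel hab
    have h3 := card_supp_le h (ρ : G → ℂ) hρc _ (Helper83.irr_degree ρ.2).2
    omega
  obtain ⟨τ₂, hτ₂T, hτ₂⟩ := hex0
  obtain ⟨Θ₀, hΘ₀p, hΘ₀⟩ := theta_family h hw θ (μ' * μ''⁻¹) ν hκν hν hκθ hsuppθ hθp σ⁻¹ hσ2 ρ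
  obtain ⟨Θ₂, hΘ₂p, hΘ₂⟩ := theta_family h hw θ (μ' * μ''⁻¹) ν hκν hν hκθ hsuppθ hθp τ₂
    (Finset.mem_filter.mp hτ₂T).2 ρ
  rw [hτ₂] at hΘ₂
  obtain ⟨k, hk⟩ := Helper4.classInner_isCharacter_isCharacter_nat
    (lf ((μ' * μ''⁻¹) * extC hw σ⁻¹)) (fun c : C => (ρ : G → ℂ) c) (lf_char _)
    (Helper4.isCharacter_restrict C _ hρc)
  have hk0 : k ≠ 0 := by
    intro h0
    apply inner_ne_symm _ _ hρκ
    rw [hk, h0]; simp
  rw [hk] at hΘ₀
  have hdiffΘ : classInner (Θ₀ : G → ℂ) (ρ : G → ℂ) =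
      classInner (Θ₂ : G → ℂ) (ρ : G → ℂ) + k := by
    rw [hΘ₀, hΘ₂]; ring
  rw [Helper83.irr_orthonormal Θ₀ ρ, Helper83.irr_orthonormal Θ₂ ρ] at hdiffΘ
  by_cases e0 : Θ₀ = ρ
  · rw [e0] at hΘ₀p
    exact hΘ₀p hρp
  · rw [if_neg e0] at hdiffΘ
    by_cases e2 : Θ₂ = ρ
    · rw [if_pos e2] at hdiffΘ
      have h5 : ((1 + k : ℕ) : ℂ) = 0 := by
        push_cast
        rw [← hdiffΘ]
      have h6 : 1 + k = 0 := by exact_mod_cast h5
      omega
    · rw [if_neg e2, zero_add] at hdiffΘ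
      exact hk0 (by exact_mod_cast hdiffΘ.symm)

end Border

end Cfsg.Agent.Lib.Helper46.BL2
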