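import Mathlib
import Cfsg.Agent.Lib.Helper46.BL7b

/-!
# Brauer–Leonard, part 8: the theorem

Let `P` be a Sylow `p`-subgroup of `G` of order `q = p^n` all of whose non-identity elements
have centralizer `C_G(P)`.  If `χ` is a non-principal irreducible character of `G` with
`χ(1)² + 1 < q`, then either `G` has a proper normal subgroup containing `P`, or `χ` is linear
and `G` has a normal subgroup of index `q`.
-/

set_option autoImplicit false

namespace Cfsg.Agent.Lib.Helper46.BL2

open Cfsg Cfsg.Agent.Lib.Helper46.BL1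
open scoped ComplexConjugate

theorem finite_dual (H : Type*) [Group H] [Finite H] : Finite (H →* ℂˣ) := by
  classical
  letI := Fintype.ofFinite H
  haveI := Helper4.irr_finite (G := H)
  exact Finite.of_injective _ (Helper4.linToIrr_bijective (G := H)).injective

/-- **Brauer–Leonard**. -/
theorem brauer_leonard {G : Type*} [Group G] [Finite G] (p : ℕ) (hp : p.Prime)
    (P : Sylow p G)
    (hstar : ∀ x ∈ (P : Subgroup G), x ≠ 1 →
      Subgroup.centralizer ({x} : Set G) = Subgroup.centralizer ((P : Subgroup G) : Set G))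
    (χ : IrrCharacter G) (h1 : (χ : G → ℂ) ≠ fun _ => 1)
    (hdeg : charDegree (χ : G → ℂ) ^ 2 + 1 < Nat.card P) :
    (∃ K : Subgroup G, K.Normal ∧ K ≠ ⊤ ∧ (P : Subgroup G) ≤ K) ∨
      ((∃ M : Subgroup G, M.Normal ∧ M.index = Nat.card P) ∧
        charDegree (χ : G → ℂ) = 1) := by
  classical
  haveI : Fact p.Prime := ⟨hp⟩
  letI : Fintype G := Fintype.ofFinite G
  letI : Fintype (P : Subgroup G) := Fintype.ofFinite _
  letI : Fintype (Subgroup.centralizer ((P : Subgroup G) : Set G)) := Fintype.ofFinite _
  letI : Fintype (Subgroup.normalizer ((P : Subgroup G) : Set G)) := Fintype.ofFinite _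
  haveI := Helper4.irr_finite (G := G)
  letI : Fintype (IrrCharacter G) := Fintype.ofFinite _
  haveI := Helper4.irr_finite (G := Subgroup.centralizer ((P : Subgroup G) : Set G))
  letI : Fintype (IrrCharacter (Subgroup.centralizer ((P : Subgroup G) : Set G))) :=
    Fintype.ofFinite _
  haveI := finite_dual (P : Subgroup G)
  letI : Fintype ((P : Subgroup G) →* ℂˣ) := Fintype.ofFinite _
  have h := blData P hstar
  have hq1 : 1 < Nat.card P := by omega
  obtain ⟨e, he⟩ : ∃ e, Nat.card (Subgroup.normalizer ((P : Subgroup G) : Set G)) =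
      e * Nat.card (Subgroup.centralizer ((P : Subgroup G) : Set G)) := by
    obtain ⟨e, he⟩ := Subgroup.card_dvd_of_le h.hCN
    exact ⟨e, by rw [he, mul_comm]⟩
  have hediv := e_dvd h e he
  have he0 : e ≠ 0 := by
    intro h0
    rw [h0, zero_mul] at he
    have : 0 < Nat.card (Subgroup.normalizer ((P : Subgroup G) : Set G)) := Nat.card_pos
    omega
  obtain ⟨w, hw1, hw2, hw3, hw4⟩ := exists_retraction P hstar hq1
  have hw : Retr (P : Subgroup G) (Subgroup.centralizer ((P : Subgroup G) : Set G))
      {c | c ∈ Subgroup.centralizer ((P : Subgroup G) : Set G) ∧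
        c ^ (P : Subgroup G).index ≠ 1} w :=
    ⟨hw1, hw2, hw3, fun c hc hcA => hw4 c hc (by
      by_contra hne
      exact hcA ⟨hc, hne⟩)⟩
  by_cases he1 : e = 1
  · have hNC : Subgroup.normalizer ((P : Subgroup G) : Set G) ≤
        Subgroup.centralizer ((P : Subgroup G) : Set G) := by
      have h2 : Subgroup.centralizer ((P : Subgroup G) : Set G) =
          Subgroup.normalizer ((P : Subgroup G) : Set G) := by
        apply Subgroup.eq_of_le_of_card_ge h.hCN
        rw [he, he1, one_mul]
      rw [← h2]
    have hM := exists_normal_index P hNC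
    have hext := exists_lin_ext P hNC hq1
    rw [he1] at he
    exact case_one h he hM hext χ hdeg
  · left
    have he2 : 2 ≤ e := by omega
    by_cases hq2 : (e + 1) ^ 2 ≤ Nat.card P
    · exact case_nb h e he he2 hediv hq2 χ h1 hdeg
    · push Not at hq2
      by_cases hs : suppF (P : Subgroup G) (χ : G → ℂ) ⊆ {1}
      · exact fact0 h χ h1 hs
      · obtain ⟨hq, hd, l₀, hl₀, hsupp, hpm⟩ := case_b_reduce h e he he2 hediv hq2 χ hdeg hs
        exact borderline h e he he2 hq hw χ hd l₀ hl₀ hsupp hpm

end Cfsg.Agent.Lib.Helper46.BL2
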