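import Mathlib
import Cfsg.Agent.Lib.Helper46.BL8

/-!
# Brauer–Leonard, part 9: faithful characters of small degree

If every non-identity element of the Sylow `p`-subgroup `P` has centralizer `C_G(P)` and `G` has
a faithful character of degree `x` with `x² + 1 < |P|`, then `P` is normal in `G`.
-/

set_option autoImplicit false

namespace Cfsg.Agent.Lib.Helper46.BL2

open Cfsg Cfsg.Agent.Lib.Helper46.BL1
open scoped ComplexConjugate

universe u

theorem hstar_restrict {G : Type u} [Group G] [Finite G] {p : ℕ} [Fact p.Prime] (P : Sylow p G)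
    (K : Subgroup G) (hPK : (P : Subgroup G) ≤ K)
    (hstar : ∀ x ∈ (P : Subgroup G), x ≠ 1 →
      Subgroup.centralizer ({x} : Set G) = Subgroup.centralizer ((P : Subgroup G) : Set G)) :
    ∀ x ∈ ((P.subtype hPK : Sylow p K) : Subgroup K), x ≠ 1 →
      Subgroup.centralizer ({x} : Set K) =
        Subgroup.centralizer (((P.subtype hPK : Sylow p K) : Subgroup K) : Set K) := by
  intro x hx hx1
  have hxP : (x : G) ∈ (P : Subgroup G) := Subgroup.mem_subgroupOf.mp hx
  have hx1' : (x : G) ≠ 1 := fun h => hx1 (Subtype.ext h)
  have hc := hstar (x : G) hxP hx1'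
  ext c
  rw [Subgroup.mem_centralizer_iff, Subgroup.mem_centralizer_iff]
  constructor
  · intro hcx y hy
    have hyP : (y : G) ∈ (P : Subgroup G) := Subgroup.mem_subgroupOf.mp hy
    have h1 : (c : G) ∈ Subgroup.centralizer ({(x : G)} : Set G) := by
      rw [Subgroup.mem_centralizer_iff]
      intro z hz
      rw [Set.mem_singleton_iff] at hz
      rw [hz]
      have h2 := hcx x (Set.mem_singleton x)
      exact congrArg Subtype.val h2
    rw [hc] at h1
    have h2 := Subgroup.mem_centralizer_iff.mp h1 (y : G) hyP
    exact Subtype.ext h2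
  · intro hcP y hy
    rw [Set.mem_singleton_iff] at hy
    rw [hy]
    exact hcP x hx

/-- **Brauer–Leonard** for faithful characters, by induction on the group order. -/
theorem bl_normal (p : ℕ) (hp : p.Prime) : ∀ (k : ℕ) (G : Type u) [Group G] [Finite G],
    Nat.card G = k → ∀ (P : Sylow p G),
    (∀ x ∈ (P : Subgroup G), x ≠ 1 →
      Subgroup.centralizer ({x} : Set G) = Subgroup.centralizer ((P : Subgroup G) : Set G)) →
    ∀ (χ : G → ℂ), IsCharacter G χ → (∀ g : G, χ g = χ 1 → g = 1) →
      charDegree χ ^ 2 + 1 < Nat.card P → (P : Subgroup G).Normal := by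
  haveI : Fact p.Prime := ⟨hp⟩
  intro k
  induction k using Nat.strong_induction_on with
  | _ k ih =>
    intro G _ _ hk P hstar χ hχ hfaith hdeg
    by_cases hA : ∃ K : Subgroup G, K.Normal ∧ K ≠ ⊤ ∧ (P : Subgroup G) ≤ K
    · obtain ⟨K, hKn, hKtop, hPK⟩ := hA
      have hlt : Nat.card K < k := by
        rw [← hk]
        have hle : Nat.card K ≤ Nat.card G := Subgroup.card_le_card_group _
        rcases hle.lt_or_eq with h | h
        · exact h
        · exact absurd (Subgroup.eq_top_of_card_eq _ h) hKtop
      have hcardP : Nat.card (P.subtype hPK : Sylow p K) = Nat.card P :=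
        Nat.card_congr (Subgroup.subgroupOfEquivOfLe hPK).toEquiv
      have hdeg' : charDegree (fun c : K => χ c) ^ 2 + 1 <
          Nat.card (P.subtype hPK : Sylow p K) := by
        rw [hcardP]
        exact hdeg
      have hnorm := ih (Nat.card K) hlt K rfl (P.subtype hPK) (hstar_restrict P K hPK hstar)
        (fun c : K => χ c) (Helper4.isCharacter_restrict K χ hχ)
        (fun c hc => Subtype.ext (hfaith c hc)) hdeg'
      haveI := hKn
      haveI : ((P.subtype hPK : Sylow p K) : Subgroup K).Characteristic :=
        Sylow.characteristic_of_normal _ hnorm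
      have h3 := ConjAct.normal_of_characteristic_of_normal (H := K)
        (K := ((P.subtype hPK : Sylow p K) : Subgroup K))
      have h4 : ((P.subtype hPK : Sylow p K) : Subgroup K).map K.subtype = (P : Subgroup G) := by
        rw [Sylow.coe_subtype]
        exact Subgroup.map_subgroupOf_eq_of_le hPK
      rw [h4] at h3
      exact h3
    · classical
      letI : Fintype G := Fintype.ofFinite G
      haveI := Helper4.irr_finite (G := G)
      letI : Fintype (IrrCharacter G) := Fintype.ofFinite _
      obtain ⟨m, hm⟩ := Helper4.exists_decomp_of_isCharacter χ hχ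
      obtain ⟨d, hd⟩ : ∃ d : ℕ, χ 1 = d := by
        obtain ⟨n, ρ, hρ⟩ := hχ
        exact ⟨n, by rw [← hρ, Representation.char_one]; simp⟩
      have hdd : charDegree χ = d := by
        unfold charDegree
        rw [hd]; simp
      have hlin : ∀ ψ : IrrCharacter G, m ψ ≠ 0 → (ψ : G → ℂ) 1 = 1 := by
        intro ψ hψ
        have hin : classInner χ (ψ : G → ℂ) ≠ 0 := by
          rw [hm, Helper4.classInner_sum_irr]
          exact_mod_cast hψ
        have hle := Helper83.constituent_degree_le χ hχ ψ hin d hd
        by_cases h1 : (ψ : G → ℂ) = fun _ => 1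
        · rw [h1]
        · have h2 := brauer_leonard p hp P hstar ψ h1 (by
            have h3 : charDegree (ψ : G → ℂ) ^ 2 ≤ charDegree χ ^ 2 :=
              Nat.pow_le_pow_left (hdd ▸ hle) 2
            omega)
          rcases h2 with hK | ⟨-, h2⟩
          · exact absurd hK hA
          · rw [(Helper83.irr_degree ψ.2).2, h2]; simp
      have hcomm : ∀ g ∈ commutator G, g = 1 := by
        intro g hg
        apply hfaith
        rw [hm]
        simp only [Finset.sum_apply, Pi.smul_apply, smul_eq_mul]
        refine Finset.sum_congr rfl fun ψ _ => ?_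
        by_cases hψ : m ψ = 0
        · rw [hψ]; simp
        · rw [Helper83.irr_linear_commutator ψ.2 (hlin ψ hψ) hg, hlin ψ hψ]
      constructor
      intro n hn g
      have h1 : g * n * g⁻¹ * n⁻¹ ∈ commutator G := by
        rw [commutator_def]
        exact Subgroup.commutator_mem_commutator (Subgroup.mem_top g) (Subgroup.mem_top n)
      have h2 := hcomm _ h1
      have h3 : g * n * g⁻¹ = n := mul_inv_eq_one.mp h2
      rw [h3]
      exact hn

end Cfsg.Agent.Lib.Helper46.BL2
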