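import Mathlib
import Cfsg.Agent.Lib.Helper5.BQ0

/-! S0996 piece BQ-ADE `arith_DE` (helper46): pure arithmetic. -/

set_option autoImplicit false

namespace Cfsg.Agent.Lib.Helper5.BQ

/-- BQ-ADE (pure arithmetic) -/
theorem arith_DE (p e t n x₀ a b : ℕ) (ε : ℤ) (hp : p.Prime) (hp5 : 5 ≤ p) (he2 : 2 ≤ e)
    (het : e * t = p - 1) (hn1 : 1 ≤ n) (hab : a + b = e - 1) (hb : 0 < b → t ∣ n + 1)
    (hmod : (x₀ : ℤ) ≡ ε * (e : ℤ) [ZMOD p])
    (hDE : ε * (x₀ : ℤ) =
      1 + (a : ℤ) * ((1 + n * p : ℕ) : ℤ) - (b : ℤ) * ((p - 1 : ℕ) : ℤ))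
    (hcase : (ε = 1 ∧ x₀ = e) ∨ (ε = -1 ∧ x₀ * t = 1 + n * p)) :
    Num p e t n a ε x₀ ∧ t ∣ n + 1 := by
  have hp0 : (p : ℤ) ≠ 0 := by
    have : p ≠ 0 := by omega
    exact_mod_cast this
  have hp1 : ((p - 1 : ℕ) : ℤ) = (p : ℤ) - 1 := by
    have : 1 ≤ p := by omega
    push_cast [this]
    ring
  have het' : (e : ℤ) * t = (p : ℤ) - 1 := by
    rw [← hp1]
    exact_mod_cast het
  have hab' : (a : ℤ) + b = (e : ℤ) - 1 := by
    have h1 : 1 ≤ e := by omega
    have h2 : ((e - 1 : ℕ) : ℤ) = (e : ℤ) - 1 := by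
      push_cast [h1]
      ring
    rw [← h2]
    exact_mod_cast hab
  rw [hp1] at hDE
  push_cast at hDE
  rcases hcase with ⟨hε, hx⟩ | ⟨hε, hx⟩
  · subst hε
    subst hx
    have h1 : (p : ℤ) * ((a : ℤ) * n - b) = 0 := by
      linear_combination (-1 : ℤ) * hDE - hab'
    have h2 : (a : ℤ) * n - b = 0 := by
      rcases mul_eq_zero.mp h1 with h | h
      · exact absurd h hp0
      · exact h
    have h3 : a * n = b := by
      have : (a : ℤ) * n = b := by linarith
      exact_mod_cast this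
    have h4 : a * (n + 1) = a * n + a := by ring
    have h5 : a * (n + 1) + 1 = x₀ := by omega
    have ha : 1 ≤ a := by
      rcases Nat.eq_zero_or_pos a with h | h
      · subst h
        omega
      · exact h
    have hbpos : 0 < b := by
      rw [← h3]
      exact Nat.mul_pos ha hn1
    exact ⟨Or.inl ⟨rfl, rfl, h5⟩, hb hbpos⟩
  · subst hε
    have hdvd : (p : ℤ) ∣ ((x₀ + e : ℕ) : ℤ) := by
      have h := Int.modEq_iff_dvd.mp hmod
      rw [← dvd_neg] at h
      have h' : -(-1 * (e : ℤ) - (x₀ : ℤ)) = ((x₀ + e : ℕ) : ℤ) := by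
        push_cast
        ring
      rw [h'] at h
      exact h
    have hdvd' : p ∣ x₀ + e := Int.natCast_dvd_natCast.mp hdvd
    obtain ⟨k, hk⟩ := hdvd'
    have hk' : (x₀ : ℤ) + e = (p : ℤ) * k := by exact_mod_cast hk
    have hxt : (x₀ : ℤ) * t = 1 + (n : ℤ) * p := by exact_mod_cast hx
    have h1 : (p : ℤ) * ((t : ℤ) * k - (n + 1)) = 0 := by
      linear_combination (-(t : ℤ)) * hk' + hxt + het'
    have h2 : (t : ℤ) * k - (n + 1) = 0 := by
      rcases mul_eq_zero.mp h1 with h | h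
      · exact absurd h hp0
      · exact h
    have h3 : n + 1 = k * t := by
      have : ((n + 1 : ℕ) : ℤ) = ((k * t : ℕ) : ℤ) := by
        push_cast
        linarith
      exact_mod_cast this
    have h4 : (p : ℤ) * ((a : ℤ) * n - b + k) = 0 := by
      linear_combination (-1 : ℤ) * hDE - hk' - hab'
    have h5 : (a : ℤ) * n - b + k = 0 := by
      rcases mul_eq_zero.mp h4 with h | h
      · exact absurd h hp0
      · exact h
    have h6 : b = a * n + k := by
      have : (b : ℤ) = ((a * n + k : ℕ) : ℤ) := by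
        push_cast
        linarith
      exact_mod_cast this
    have h7 : a * (n + 1) = a * n + a := by ring
    have h8 : a * (n + 1) + k + 1 = e := by omega
    refine ⟨Or.inr ⟨rfl, k, ?_, h3, h8⟩, ⟨k, ?_⟩⟩
    · rw [hk, mul_comm]
    · rw [h3, mul_comm]

end Cfsg.Agent.Lib.Helper5.BQ
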