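import Mathlib
import Cfsg.Agent.Lib.Helper5.BQ0

/-! S0996 piece BQ-AFIN `final_arith` (helper46): pure arithmetic. -/

set_option autoImplicit false

namespace Cfsg.Agent.Lib.Helper5.BQ

/-- BQ-AFIN (pure arithmetic) -/
theorem final_arith (p e t n a x₀ : ℕ) (ε : ℤ) (hp : p.Prime) (hp5 : 5 ≤ p) (he2 : 2 ≤ e)
    (het : e * t = p - 1) (hn1 : 1 ≤ n) (hn : 2 * n < p + 3)
    (hnum : Num p e t n a ε x₀) (hdiv : t ∣ n + 1)
    (hM : (n + 1) * e ∣ (1 + n * p) * (e * p)) : (1 + n * p) * (e * p) < p ^ 3 := by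
  have he0 : 0 < e := by omega
  have h1 : n + 1 ∣ (1 + n * p) * p := by
    have h : (n + 1) * e ∣ ((1 + n * p) * p) * e := by
      have : (1 + n * p) * (e * p) = ((1 + n * p) * p) * e := by ring
      rw [← this]
      exact hM
    exact Nat.dvd_of_mul_dvd_mul_right he0 h
  have hcop : Nat.Coprime (n + 1) p := by
    rw [Nat.coprime_comm]
    apply (Nat.Prime.coprime_iff_not_dvd hp).mpr
    intro h
    have := Nat.le_of_dvd (by omega) h
    omega
  have h2 : n + 1 ∣ 1 + n * p := hcop.dvd_of_dvd_mul_right h1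
  have h3 : n + 1 ∣ p - 1 := by
    have h : (1 + n * p) + (p - 1) = (n + 1) * p := by
      have : 1 ≤ p := by omega
      have h' : (n + 1) * p = n * p + p := by ring
      omega
    have h' : n + 1 ∣ (1 + n * p) + (p - 1) := by
      rw [h]
      exact Dvd.intro _ rfl
    exact (Nat.dvd_add_right h2).mp h'
  have h4 : n + 1 ∣ (e - 1) * t := by
    rcases hnum with ⟨_, _, he⟩ | ⟨_, k, _, hnk, he⟩
    · have : e - 1 = a * (n + 1) := by omega
      rw [this]
      exact ⟨a * t, by ring⟩
    · have : e - 1 = a * (n + 1) + k := by omega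
      rw [this]
      refine ⟨a * t + 1, ?_⟩
      have : (a * (n + 1) + k) * t = a * (n + 1) * t + k * t := by ring
      rw [this, ← hnk]
      ring
  have h5 : (e - 1) * t + t = p - 1 := by
    rw [← het]
    have : e = (e - 1) + 1 := by omega
    nth_rewrite 2 [this]
    ring
  have h6 : n + 1 ∣ t := by
    have h : n + 1 ∣ (e - 1) * t + t := by
      rw [h5]
      exact h3
    exact (Nat.dvd_add_right h4).mp h
  have h7 : t = n + 1 := Nat.dvd_antisymm hdiv h6
  subst h7
  have hpe : p = n * e + e + 1 := by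
    have : e * (n + 1) = n * e + e := by ring
    omega
  subst hpe
  have hfin : (n * e + e + 1) ^ 3 = (1 + n * (n * e + e + 1)) * (e * (n * e + e + 1)) +
      (e * (n * e + e + 1) * (n * e + e) + (n * e + e + 1) ^ 2) := by ring
  rw [hfin]
  apply Nat.lt_add_of_pos_right
  positivity

end Cfsg.Agent.Lib.Helper5.BQ
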