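import Mathlib
import Cfsg.Agent.Lib.Helper5.BQ0

/-! S0996 piece BQ-ASQ `num_sq` (helper46): pure arithmetic. -/

set_option autoImplicit false

namespace Cfsg.Agent.Lib.Helper5.BQ

/-- BQ-ASQ (pure arithmetic) -/
theorem num_sq (p e t n a b x₀ : ℕ) (ε : ℤ) (hp5 : 5 ≤ p) (he2 : 2 ≤ e)
    (het : e * t = p - 1) (hab : a + b = e - 1) (hnum : Num p e t n a ε x₀) :
    1 + a * (1 + n * p) ^ 2 + b * (p - 1) ^ 2 + t * x₀ ^ 2 + n * p ^ 2 =
      (1 + n * p) * (e * p) := by
  have hpe : p = e * t + 1 := by omega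
  rw [← het]
  rcases hnum with ⟨_, hx, he⟩ | ⟨_, k, hx, hn, he⟩
  · subst hx
    have h4 : a * (n + 1) = a * n + a := by ring
    have hb : b = a * n := by omega
    subst hb
    subst hpe
    rw [← he]
    ring
  · have hz : (1 : ℤ) + a * (1 + n * p) ^ 2 + b * ((e : ℤ) * t) ^ 2 + t * (x₀ : ℤ) ^ 2 +
        n * (p : ℤ) ^ 2 = (1 + n * p) * (e * p) := by
      have hx' : (x₀ : ℤ) = (k : ℤ) * p - e := by
        have : (x₀ : ℤ) + e = (k : ℤ) * p := by exact_mod_cast hx
        linarith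
      have hb' : (b : ℤ) = (e : ℤ) - 1 - a := by
        have h1 : 1 ≤ e := by omega
        have h2 : ((e - 1 : ℕ) : ℤ) = (e : ℤ) - 1 := by
          push_cast [h1]
          ring
        have : (a : ℤ) + b = (e : ℤ) - 1 := by
          rw [← h2]
          exact_mod_cast hab
        linarith
      have hp' : (p : ℤ) = (e : ℤ) * t + 1 := by exact_mod_cast hpe
      have hn' : (n : ℤ) = (k : ℤ) * t - 1 := by
        have : (n : ℤ) + 1 = (k : ℤ) * t := by exact_mod_cast hn
        linarith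
      have he' : (e : ℤ) = (a : ℤ) * ((k : ℤ) * t) + k + 1 := by
        have : (a : ℤ) * ((n : ℤ) + 1) + k + 1 = e := by exact_mod_cast he
        rw [hn'] at this
        linarith
      rw [hx', hb', hp', hn', he']
      ring
    exact_mod_cast hz

end Cfsg.Agent.Lib.Helper5.BQ
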