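import Mathlib
import Cfsg.Agent.Lib.Helper10.BWDefs
import Cfsg.Agent.Lib.Helper83.TGORTH

/-!
# S0997 case B2 (project BW), piece BW-MUL (for helper10)
-/

set_option autoImplicit false
set_option linter.style.haveILetI false

namespace Cfsg.Agent.Lib.Helper10.BW

open Cfsg
open Cfsg.Agent.Lib.Helper83 (trivIrr)
open Cfsg.Agent.Lib.Helper10.BR (psum)
open scoped ComplexConjugate

universe u

variable {G : Type u} [Group G] [Fintype G]

/-- `Σ_h psum(h⁻¹) psum(g h) = (|G| / χ(1)) |P| psum(g)`. -/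
theorem mul_conv (P : Subgroup G) (χ : IrrCharacter G) (g : G) :
    ∑ h : G, psum P (χ : G → ℂ) h⁻¹ * psum P (χ : G → ℂ) (g * h) =
      (Nat.card G : ℂ) / (χ : G → ℂ) 1 * ((Nat.card P : ℂ) * psum P (χ : G → ℂ) g) := by
  classical
  haveI : Fintype P := Fintype.ofFinite P
  have hinner : ∀ u u' : P,
      ∑ h : G, (χ : G → ℂ) (h⁻¹ * (u : G)) * (χ : G → ℂ) (g * h * (u' : G)) =
      (Nat.card G : ℂ) / (χ : G → ℂ) 1 * (χ : G → ℂ) (g * ((u : G) * (u' : G))) := by
    intro u u'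
    have h0 : (χ : G → ℂ) (g * ((u : G) * (u' : G))) =
        (χ : G → ℂ) ((u' : G) * g * (u : G)) := by
      have h00 := Cfsg.Agent.Lib.Helper83.irr_mul_comm χ.2 (g * (u : G)) (u' : G)
      rw [show g * ((u : G) * (u' : G)) = g * (u : G) * (u' : G) by group, ← h00]
      congr 1
      group
    rw [h0, ← Cfsg.Agent.Lib.Helper83.TG.irr_conv χ ((u' : G) * g * (u : G))]
    rw [← Equiv.sum_comp (Equiv.mulLeft (u : G))]
    refine Finset.sum_congr rfl fun w _ => ?_
    simp only [Equiv.coe_mulLeft]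
    have e1 : ((u : G) * w)⁻¹ * (u : G) = w⁻¹ := by group
    have e2 : (χ : G → ℂ) (g * ((u : G) * w) * (u' : G)) =
        (χ : G → ℂ) (w * ((u' : G) * g * (u : G))) := by
      have h00 := Cfsg.Agent.Lib.Helper83.irr_mul_comm χ.2 (w * (u' : G)) (g * (u : G))
      rw [show g * ((u : G) * w) * (u' : G) = g * (u : G) * (w * (u' : G)) by group, h00]
      congr 1
      group
    rw [e1, e2]
  calc ∑ h : G, psum P (χ : G → ℂ) h⁻¹ * psum P (χ : G → ℂ) (g * h)
      = ∑ h : G, ∑ u : P, ∑ u' : P,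
          (χ : G → ℂ) (h⁻¹ * (u : G)) * (χ : G → ℂ) (g * h * (u' : G)) := by
        refine Finset.sum_congr rfl fun h _ => ?_
        rw [BR.psum_eq_sum, BR.psum_eq_sum, Finset.sum_mul_sum]
    _ = ∑ u : P, ∑ u' : P, ∑ h : G,
          (χ : G → ℂ) (h⁻¹ * (u : G)) * (χ : G → ℂ) (g * h * (u' : G)) := by
        rw [Finset.sum_comm]
        refine Finset.sum_congr rfl fun u _ => ?_
        rw [Finset.sum_comm]
    _ = ∑ u : P, ∑ u' : P,
          (Nat.card G : ℂ) / (χ : G → ℂ) 1 * (χ : G → ℂ) (g * ((u : G) * (u' : G))) := by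
        refine Finset.sum_congr rfl fun u _ => Finset.sum_congr rfl fun u' _ => hinner u u'
    _ = ∑ _u : P, (Nat.card G : ℂ) / (χ : G → ℂ) 1 * psum P (χ : G → ℂ) g := by
        refine Finset.sum_congr rfl fun u _ => ?_
        rw [← Finset.mul_sum, BR.psum_eq_sum]
        congr 1
        rw [← Equiv.sum_comp (Equiv.mulLeft u) (fun u'' : P => (χ : G → ℂ) (g * (u'' : G)))]
        refine Finset.sum_congr rfl fun u' _ => ?_
        simp only [Equiv.coe_mulLeft, Subgroup.coe_mul]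
    _ = (Nat.card G : ℂ) / (χ : G → ℂ) 1 * ((Nat.card P : ℂ) * psum P (χ : G → ℂ) g) := by
        rw [Finset.sum_const, Finset.card_univ, Nat.card_eq_fintype_card (α := P), nsmul_eq_mul]
        ring

/-- `om(g⁻¹) = conj (om g)` -/
theorem mul_ominv (P : Subgroup G) (χ : IrrCharacter G) (g : G) :
    om P (χ : G → ℂ) g⁻¹ = conj (om P (χ : G → ℂ) g) := by
  classical
  haveI : Fintype P := Fintype.ofFinite P
  unfold om
  rw [map_div₀, Complex.conj_natCast, BR.psum_eq_sum, BR.psum_eq_sum, map_sum]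
  congr 1
  rw [← Equiv.sum_comp (Equiv.inv P)]
  refine Finset.sum_congr rfl fun u _ => ?_
  rw [← Cfsg.Agent.Lib.Helper83.irr_inv χ.2]
  simp only [Equiv.inv_apply, Subgroup.coe_inv, mul_inv_rev]
  exact Cfsg.Agent.Lib.Helper83.irr_mul_comm χ.2 (u : G)⁻¹ g⁻¹

/-- the abstract sum-of-squares argument -/
theorem mul_abstract (o : G → ℂ) (S : ℂ)
    (hA : ∀ a : G, ∑ k : G, o k⁻¹ * o (a * k) = S * o a)
    (hB : ∀ k : G, o k⁻¹ = conj (o k)) (hC : o 1 = 1) (g : G) (hD : o g⁻¹ * o g = 1) (h : G) :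
    o (g * h) = o g * o h := by
  have s1 : ∑ k : G, conj (o (g * k)) * o (g * k) = S := by
    have e : ∑ k : G, conj (o (g * k)) * o (g * k) = ∑ k : G, o k⁻¹ * o (1 * k) := by
      rw [← Equiv.sum_comp (Equiv.mulLeft g) (fun k => o k⁻¹ * o (1 * k))]
      refine Finset.sum_congr rfl fun k _ => ?_
      simp only [Equiv.coe_mulLeft, one_mul]
      rw [hB]
    rw [e, hA 1, hC, mul_one]
  have s2 : ∑ k : G, conj (o k) * o (g * k) = S * o g := by
    rw [← hA g]
    refine Finset.sum_congr rfl fun k _ => ?_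
    rw [hB]
  have s3 : ∑ k : G, conj (o (g * k)) * o k = S * o g⁻¹ := by
    rw [← hA g⁻¹]
    rw [← Equiv.sum_comp (Equiv.mulLeft g) (fun k => o k⁻¹ * o (g⁻¹ * k))]
    refine Finset.sum_congr rfl fun k _ => ?_
    simp only [Equiv.coe_mulLeft, inv_mul_cancel_left]
    rw [hB]
  have s4 : ∑ k : G, conj (o k) * o k = S := by
    have h4 := hA 1
    simp only [one_mul] at h4
    rw [hC, mul_one] at h4
    rw [← h4]
    refine Finset.sum_congr rfl fun k _ => ?_
    rw [hB]
  have hsum : ∑ k : G, conj (o (g * k) - o g * o k) * (o (g * k) - o g * o k) = 0 := by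
    have e : ∀ k : G, conj (o (g * k) - o g * o k) * (o (g * k) - o g * o k) =
        conj (o (g * k)) * o (g * k) - o g * (conj (o (g * k)) * o k)
          - o g⁻¹ * (conj (o k) * o (g * k)) + (o g⁻¹ * o g) * (conj (o k) * o k) := by
      intro k
      rw [map_sub, map_mul, hB g]
      ring
    simp only [e]
    rw [Finset.sum_add_distrib, Finset.sum_sub_distrib, Finset.sum_sub_distrib, ← Finset.mul_sum,
      ← Finset.mul_sum, ← Finset.mul_sum, s1, s2, s3, s4]
    linear_combination (-S) * hD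
  have hreal : ∑ k : G, Complex.normSq (o (g * k) - o g * o k) = 0 := by
    have h5 : ((∑ k : G, Complex.normSq (o (g * k) - o g * o k) : ℝ) : ℂ) = 0 := by
      rw [Complex.ofReal_sum, ← hsum]
      refine Finset.sum_congr rfl fun k _ => ?_
      rw [Complex.normSq_eq_conj_mul_self]
    exact_mod_cast h5
  have hz := (Finset.sum_eq_zero_iff_of_nonneg
    (fun k _ => Complex.normSq_nonneg (o (g * k) - o g * o k))).mp hreal h (Finset.mem_univ h)
  exact sub_eq_zero.mp (Complex.normSq_eq_zero.mp hz)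

/-- BW-MUL -/
theorem om_mul_of_cv_one (P : Subgroup G) (χ : IrrCharacter G)
    (h1 : psum P (χ : G → ℂ) 1 = (Nat.card P : ℂ)) (g : G)
    (hg : cv P (χ : G → ℂ) g = 1) (h : G) :
    om P (χ : G → ℂ) (g * h) = om P (χ : G → ℂ) g * om P (χ : G → ℂ) h := by
  have hP0 : (Nat.card P : ℂ) ≠ 0 := by
    exact_mod_cast (Nat.card_pos (α := P)).ne'
  refine mul_abstract (om P (χ : G → ℂ)) ((Nat.card G : ℂ) / (χ : G → ℂ) 1) ?_
    (mul_ominv P χ) ?_ g hg h
  · intro a
    have h2 := mul_conv P χ a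
    unfold om
    have h3 : ∀ k : G, psum P (χ : G → ℂ) k⁻¹ / (Nat.card P : ℂ) *
        (psum P (χ : G → ℂ) (a * k) / (Nat.card P : ℂ)) =
        (psum P (χ : G → ℂ) k⁻¹ * psum P (χ : G → ℂ) (a * k)) /
          ((Nat.card P : ℂ) * (Nat.card P : ℂ)) := by
      intro k
      field_simp
    simp only [h3]
    rw [← Finset.sum_div, h2]
    field_simp
  · unfold om
    rw [h1]
    exact div_self hP0

end Cfsg.Agent.Lib.Helper10.BW
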