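import Mathlib
import Cfsg.Agent.Lib.Helper10.BWDefs
import Cfsg.Agent.Lib.Helper83.TGORTH

/-!
# S0997 case B2 (project BW), piece BW-SUMC (for helper10)
-/

set_option autoImplicit false
set_option linter.style.haveILetI false

namespace Cfsg.Agent.Lib.Helper10.BW

open Cfsg
open Cfsg.Agent.Lib.Helper83 (trivIrr)
open Cfsg.Agent.Lib.Helper10.BR (psum)
open scoped ComplexConjugate

universe u

variable {G : Type u} [Group G] [Fintype G]

/-- `Σ_h psum(h⁻¹) psum(g h) = (|G| / χ(1)) |P| psum(g)`. -/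
theorem sumc_conv (P : Subgroup G) (χ : IrrCharacter G) (g : G) :
    ∑ h : G, psum P (χ : G → ℂ) h⁻¹ * psum P (χ : G → ℂ) (g * h) =
      (Nat.card G : ℂ) / (χ : G → ℂ) 1 * ((Nat.card P : ℂ) * psum P (χ : G → ℂ) g) := by
  classical
  haveI : Fintype P := Fintype.ofFinite P
  have hinner : ∀ u u' : P,
      ∑ h : G, (χ : G → ℂ) (h⁻¹ * (u : G)) * (χ : G → ℂ) (g * h * (u' : G)) =
      (Nat.card G : ℂ) / (χ : G → ℂ) 1 * (χ : G → ℂ) (g * ((u : G) * (u' : G))) := by
    intro u u'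
    have h0 : (χ : G → ℂ) (g * ((u : G) * (u' : G))) =
        (χ : G → ℂ) ((u' : G) * g * (u : G)) := by
      have h00 := Cfsg.Agent.Lib.Helper83.irr_mul_comm χ.2 (g * (u : G)) (u' : G)
      rw [show g * ((u : G) * (u' : G)) = g * (u : G) * (u' : G) by group, ← h00]
      congr 1
      group
    rw [h0, ← Cfsg.Agent.Lib.Helper83.TG.irr_conv χ ((u' : G) * g * (u : G))]
    rw [← Equiv.sum_comp (Equiv.mulLeft (u : G))]
    refine Finset.sum_congr rfl fun w _ => ?_
    simp only [Equiv.coe_mulLeft]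
    have e1 : ((u : G) * w)⁻¹ * (u : G) = w⁻¹ := by group
    have e2 : (χ : G → ℂ) (g * ((u : G) * w) * (u' : G)) =
        (χ : G → ℂ) (w * ((u' : G) * g * (u : G))) := by
      have h00 := Cfsg.Agent.Lib.Helper83.irr_mul_comm χ.2 (w * (u' : G)) (g * (u : G))
      rw [show g * ((u : G) * w) * (u' : G) = g * (u : G) * (w * (u' : G)) by group, h00]
      congr 1
      group
    rw [e1, e2]
  calc ∑ h : G, psum P (χ : G → ℂ) h⁻¹ * psum P (χ : G → ℂ) (g * h)
      = ∑ h : G, ∑ u : P, ∑ u' : P,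
          (χ : G → ℂ) (h⁻¹ * (u : G)) * (χ : G → ℂ) (g * h * (u' : G)) := by
        refine Finset.sum_congr rfl fun h _ => ?_
        rw [BR.psum_eq_sum, BR.psum_eq_sum, Finset.sum_mul_sum]
    _ = ∑ u : P, ∑ u' : P, ∑ h : G,
          (χ : G → ℂ) (h⁻¹ * (u : G)) * (χ : G → ℂ) (g * h * (u' : G)) := by
        rw [Finset.sum_comm]
        refine Finset.sum_congr rfl fun u _ => ?_
        rw [Finset.sum_comm]
    _ = ∑ u : P, ∑ u' : P,
          (Nat.card G : ℂ) / (χ : G → ℂ) 1 * (χ : G → ℂ) (g * ((u : G) * (u' : G))) := by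
        refine Finset.sum_congr rfl fun u _ => Finset.sum_congr rfl fun u' _ => hinner u u'
    _ = ∑ _u : P, (Nat.card G : ℂ) / (χ : G → ℂ) 1 * psum P (χ : G → ℂ) g := by
        refine Finset.sum_congr rfl fun u _ => ?_
        rw [← Finset.mul_sum, BR.psum_eq_sum]
        congr 1
        rw [← Equiv.sum_comp (Equiv.mulLeft u) (fun u'' : P => (χ : G → ℂ) (g * (u'' : G)))]
        refine Finset.sum_congr rfl fun u' _ => ?_
        simp only [Equiv.coe_mulLeft, Subgroup.coe_mul]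
    _ = (Nat.card G : ℂ) / (χ : G → ℂ) 1 * ((Nat.card P : ℂ) * psum P (χ : G → ℂ) g) := by
        rw [Finset.sum_const, Finset.card_univ, Nat.card_eq_fintype_card (α := P), nsmul_eq_mul]
        ring

/-- BW-SUMC -/
theorem sum_cv (P : Subgroup G) (χ : IrrCharacter G)
    (h1 : psum P (χ : G → ℂ) 1 = (Nat.card P : ℂ)) :
    ∑ g : G, cv P (χ : G → ℂ) g = (Nat.card G : ℂ) / (χ : G → ℂ) 1 := by
  have hP0 : (Nat.card P : ℂ) ≠ 0 := by
    exact_mod_cast (Nat.card_pos (α := P)).ne'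
  have h2 := sumc_conv P χ 1
  simp only [one_mul] at h2
  rw [h1] at h2
  unfold cv om
  have h3 : ∀ g : G, psum P (χ : G → ℂ) g⁻¹ / (Nat.card P : ℂ) *
      (psum P (χ : G → ℂ) g / (Nat.card P : ℂ)) =
      (psum P (χ : G → ℂ) g⁻¹ * psum P (χ : G → ℂ) g) /
        ((Nat.card P : ℂ) * (Nat.card P : ℂ)) := by
    intro g
    field_simp
  simp only [h3]
  rw [← Finset.sum_div, h2]
  field_simp

end Cfsg.Agent.Lib.Helper10.BW
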