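import Cfsg.Agent.Lib.Helper80.Galois
import Cfsg.Agent.Lib.Helper83.Quot

/-!
# Blichfeldt's theorem, part A: rationality at a large prime kills `p`-elements

* `cyclo_coeff_eq`: a rational relation among `1, ε, …, ε^(p-1)` has equal coefficients.
* `mult_zero_of_galois`: Galois-stable eigenvalue multiplicities with fewer than `p - 1`
  eigenvalues are concentrated at `1`.
* `rho_eq_one_of_prational`: a representation of degree `< p - 1` whose character is
  `p`-rational on the powers of a `p`-element is trivial on that element.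
-/

namespace Cfsg.Agent.Lib.Helper46

open Polynomial Finset

theorem cyclo_coeff_eq (p : ℕ) (hp : p.Prime) (ε : ℂ) (hε : IsPrimitiveRoot ε p) (c : ℕ → ℚ)
    (h : ∑ j ∈ range p, (c j : ℂ) * ε ^ j = 0) : ∀ j < p, c j = c 0 := by
  haveI : Fact p.Prime := ⟨hp⟩
  set P : ℚ[X] := ∑ j ∈ range p, C (c j) * X ^ j with hPdef
  have hP : aeval ε P = 0 := by
    rw [hPdef, map_sum]
    rw [← h]
    refine Finset.sum_congr rfl fun j _ => ?_
    rw [map_mul, map_pow, aeval_X, aeval_C]
    rfl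
  have hdvd : cyclotomic p ℚ ∣ P := by
    rw [cyclotomic_eq_minpoly_rat hε hp.pos]
    exact minpoly.dvd ℚ ε hP
  have hcoef : ∀ j < p, P.coeff j = c j := by
    intro j hj
    rw [hPdef, finset_sum_coeff]
    rw [Finset.sum_eq_single j]
    · rw [coeff_C_mul, coeff_X_pow, if_pos rfl, mul_one]
    · intro i _ hij
      rw [coeff_C_mul, coeff_X_pow, if_neg (Ne.symm hij), mul_zero]
    · intro hj'
      exact absurd (Finset.mem_range.2 hj) hj'
  have hcyc : ∀ j < p, (cyclotomic p ℚ).coeff j = 1 := by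
    intro j hj
    rw [cyclotomic_prime ℚ p, finset_sum_coeff]
    rw [Finset.sum_eq_single j]
    · rw [coeff_X_pow, if_pos rfl]
    · intro i _ hij
      rw [coeff_X_pow, if_neg (Ne.symm hij)]
    · intro hj'
      exact absurd (Finset.mem_range.2 hj) hj'
  obtain ⟨R, hR⟩ := hdvd
  have key : ∀ j < p, c j = R.coeff 0 := by
    intro j hj
    by_cases hR0 : R = 0
    · rw [hR0, mul_zero] at hR
      rw [← hcoef j hj, hR, hR0]
      simp
    · have hcne : cyclotomic p ℚ ≠ 0 := cyclotomic_ne_zero p ℚ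
      have hdegP : P.natDegree ≤ p - 1 := by
        rw [hPdef]
        refine natDegree_sum_le_of_forall_le _ _ fun i hi => ?_
        have hi' := Finset.mem_range.1 hi
        calc (C (c i) * X ^ i).natDegree ≤ i := natDegree_C_mul_X_pow_le _ _
          _ ≤ p - 1 := by omega
      have hdeg : P.natDegree = (cyclotomic p ℚ).natDegree + R.natDegree := by
        rw [hR, natDegree_mul hcne hR0]
      rw [natDegree_cyclotomic, Nat.totient_prime hp] at hdeg
      have hR1 : R.natDegree = 0 := by omega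
      have hRC : R = C (R.coeff 0) := eq_C_of_natDegree_eq_zero hR1
      rw [← hcoef j hj, hR, hRC, coeff_mul_C, hcyc j hj, one_mul, coeff_C_zero]
  intro j hj
  rw [key j hj, key 0 hp.pos]

theorem mult_zero_of_galois (p : ℕ) (hp : p.Prime) (ε : ℂ) (hε : IsPrimitiveRoot ε p)
    (m : ℕ → ℕ) (hsum : ∑ j ∈ range p, m j < p - 1)
    (h : ∀ k, 1 ≤ k → k < p → ∑ j ∈ range p, (m j : ℂ) * (ε ^ j) ^ k
      = ∑ j ∈ range p, (m j : ℂ) * ε ^ j) :
    ∀ j, 1 ≤ j → j < p → m j = 0 := by
  have hp1 : 1 < p := hp.one_lt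
  set T : ℂ := ∑ j ∈ range p, (m j : ℂ) * ε ^ j with hT
  set s : ℕ := ∑ j ∈ Ico 1 p, m j with hs
  have hsplit : ∀ f : ℕ → ℂ, ∑ j ∈ range p, f j = f 0 + ∑ j ∈ Ico 1 p, f j := by
    intro f
    rw [Finset.range_eq_Ico, Finset.sum_eq_sum_Ico_succ_bot hp.pos]
  have hsplitN : ∑ j ∈ range p, m j = m 0 + s := by
    rw [Finset.range_eq_Ico, Finset.sum_eq_sum_Ico_succ_bot hp.pos]
  -- geometric sums
  have hgeo : ∀ j, 1 ≤ j → j < p → ∑ k ∈ Ico 1 p, (ε ^ j) ^ k = -1 := by
    intro j hj1 hjp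
    have hprim : IsPrimitiveRoot (ε ^ j) p :=
      hε.pow_of_coprime j
        ((Nat.Prime.coprime_iff_not_dvd hp).2 (Nat.not_dvd_of_pos_of_lt hj1 hjp)).symm
    have h0 := hprim.geom_sum_eq_zero hp1
    rw [hsplit] at h0
    rw [pow_zero] at h0
    linear_combination h0
  -- sum of the hypotheses over k
  have h1 : ∑ k ∈ Ico 1 p, ∑ j ∈ range p, (m j : ℂ) * (ε ^ j) ^ k = ((p : ℂ) - 1) * T := by
    rw [Finset.sum_congr rfl (fun k hk => h k (Finset.mem_Ico.1 hk).1 (Finset.mem_Ico.1 hk).2)]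
    rw [Finset.sum_const, Nat.card_Ico, nsmul_eq_mul, Nat.cast_sub hp1.le]
    simp
  have h2 : ∑ k ∈ Ico 1 p, ∑ j ∈ range p, (m j : ℂ) * (ε ^ j) ^ k
      = ((p : ℂ) - 1) * m 0 - s := by
    rw [Finset.sum_comm]
    rw [hsplit]
    have e0 : ∑ k ∈ Ico 1 p, (m 0 : ℂ) * (ε ^ 0) ^ k = ((p : ℂ) - 1) * m 0 := by
      simp only [pow_zero, one_pow, mul_one, Finset.sum_const, Nat.card_Ico, nsmul_eq_mul]
      rw [Nat.cast_sub hp1.le]
      simp
    have e1 : ∑ j ∈ Ico 1 p, ∑ k ∈ Ico 1 p, (m j : ℂ) * (ε ^ j) ^ k = -(s : ℂ) := by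
      rw [hs, Nat.cast_sum, ← Finset.sum_neg_distrib]
      refine Finset.sum_congr rfl fun j hj => ?_
      rw [← Finset.mul_sum, hgeo j (Finset.mem_Ico.1 hj).1 (Finset.mem_Ico.1 hj).2]
      ring
    rw [e0, e1]
    ring
  have h3 : ((p : ℂ) - 1) * T = ((p : ℂ) - 1) * m 0 - s := by rw [← h1, h2]
  -- the rational relation
  let c : ℕ → ℚ := fun j => if j = 0 then (s : ℚ) else ((p : ℚ) - 1) * m j
  have hrel : ∑ j ∈ range p, (c j : ℂ) * ε ^ j = 0 := by
    rw [hsplit]
    have e2 : ∑ j ∈ Ico 1 p, (c j : ℂ) * ε ^ j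
        = ((p : ℂ) - 1) * ∑ j ∈ Ico 1 p, (m j : ℂ) * ε ^ j := by
      rw [Finset.mul_sum]
      refine Finset.sum_congr rfl fun j hj => ?_
      have hj0 : j ≠ 0 := by
        have := (Finset.mem_Ico.1 hj).1
        omega
      simp only [c, if_neg hj0]
      push_cast
      ring
    have e3 : T = m 0 + ∑ j ∈ Ico 1 p, (m j : ℂ) * ε ^ j := by
      rw [hT, hsplit]
      simp
    rw [e2]
    simp only [c, if_true, pow_zero, mul_one]
    have : ((p : ℂ) - 1) * ∑ j ∈ Ico 1 p, (m j : ℂ) * ε ^ j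
        = ((p : ℂ) - 1) * T - ((p : ℂ) - 1) * m 0 := by
      rw [e3]; ring
    rw [this, h3]
    push_cast
    ring
  have hc := cyclo_coeff_eq p hp ε hε c hrel
  intro j hj1 hjp
  have hj0 : j ≠ 0 := by omega
  have h4 := hc j hjp
  simp only [c, if_neg hj0, if_true] at h4
  by_contra hm
  have hm1 : 1 ≤ m j := Nat.one_le_iff_ne_zero.2 hm
  have h5 : ((p : ℚ) - 1) * 1 ≤ ((p : ℚ) - 1) * m j := by
    apply mul_le_mul_of_nonneg_left
    · exact_mod_cast hm1
    · have : (1 : ℚ) ≤ p := by exact_mod_cast hp1.le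
      linarith
  rw [h4, mul_one] at h5
  have h6 : (p : ℚ) - 1 = ((p - 1 : ℕ) : ℚ) := by
    rw [Nat.cast_sub hp1.le]; simp
  rw [h6] at h5
  have h7 : p - 1 ≤ s := by exact_mod_cast h5
  omega

theorem rho_eq_one_of_prational {G : Type*} [Group G] [Finite G] {V : Type*} [AddCommGroup V]
    [Module ℂ V] [FiniteDimensional ℂ V] (ρ : Representation ℂ G V) (p : ℕ) (hp : p.Prime)
    (hd : Module.finrank ℂ V < p - 1) :
    ∀ (a : ℕ) (u : G), u ^ (p ^ a) = 1 →
      (∀ i k : ℕ, Nat.Coprime k p → ρ.character ((u ^ i) ^ k) = ρ.character (u ^ i)) →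
      ρ u = 1 := by
  intro a
  induction a with
  | zero =>
    intro u hu _
    rw [pow_zero, pow_one] at hu
    rw [hu, map_one]
  | succ a ih =>
    intro u hu hrat
    have h1 : ρ (u ^ p) = 1 := by
      apply ih (u ^ p)
      · rw [← pow_mul, ← pow_succ']; exact hu
      · intro i k hk
        rw [← pow_mul u p i]
        exact hrat (p * i) k hk
    have hf : (ρ u) ^ p = 1 := by rw [← map_pow, h1]
    have hε := Complex.isPrimitiveRoot_exp p hp.ne_zero
    obtain ⟨m, hm⟩ := Cfsg.Agent.Lib.Helper80.trace_pow_eq (ρ u) p hp.pos hf _ hε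
    have hm0 : ∑ j ∈ range p, m j = Module.finrank ℂ V := by
      have := hm 0
      simp only [pow_zero, mul_one] at this
      rw [show (1 : Module.End ℂ V) = LinearMap.id from rfl, LinearMap.trace_id] at this
      have h2 : ((Module.finrank ℂ V : ℕ) : ℂ) = ((∑ j ∈ range p, m j : ℕ) : ℂ) := by
        rw [this]; push_cast; rfl
      exact_mod_cast h2.symm
    have hgal : ∀ k, 1 ≤ k → k < p →
        ∑ j ∈ range p, (m j : ℂ) * (Complex.exp (2 * Real.pi * Complex.I / p) ^ j) ^ k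
          = ∑ j ∈ range p, (m j : ℂ) * Complex.exp (2 * Real.pi * Complex.I / p) ^ j := by
      intro k hk1 hkp
      have e1 := hm k
      have e2 := hm 1
      simp only [pow_one] at e2
      rw [← e1, ← e2]
      have hcop : Nat.Coprime k p :=
        ((Nat.Prime.coprime_iff_not_dvd hp).2 (Nat.not_dvd_of_pos_of_lt hk1 hkp)).symm
      have := hrat 1 k hcop
      rw [pow_one] at this
      unfold Representation.character at this
      rw [map_pow] at this
      exact this
    have hzero := mult_zero_of_galois p hp _ hε m (by rw [hm0]; exact hd) hgal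
    apply (Cfsg.Agent.Lib.Helper83.char_eq_iff_rho_eq_one ρ u).1
    have e2 := hm 1
    simp only [pow_one] at e2
    unfold Representation.character
    rw [e2, map_one]
    rw [show (1 : Module.End ℂ V) = LinearMap.id from rfl, LinearMap.trace_id, ← hm0]
    push_cast
    refine Finset.sum_congr rfl fun j hj => ?_
    rcases Nat.eq_zero_or_pos j with rfl | hjpos
    · simp
    · rw [hzero j hjpos (Finset.mem_range.1 hj)]
      simp

end Cfsg.Agent.Lib.Helper46
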