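import Cfsg.Agent.Lib.Helper46.BlichA
import Cfsg.Agent.Lib.Helper80.Schur
import Cfsg.Agent.Lib.Helper4.BrMono

/-!
# Blichfeldt's theorem, part B: twisting by a power of the determinant, and the two-prime
rationality dichotomy
-/

namespace Cfsg.Agent.Lib.Helper46

open Cfsg Cfsg.Agent.Lib.Helper4
open scoped ComplexConjugate

section Twist

variable {G : Type*} [Group G] [Fintype G]

/-- The degree of an irreducible character is a positive natural number. -/
theorem irr_one_eq_nat (ψ : IrrCharacter G) : ∃ d : ℕ, 0 < d ∧ (ψ : G → ℂ) 1 = d := by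
  classical
  have := irr_finite (G := G)
  obtain ⟨d, ρ, hirr, hρ⟩ := ψ.2
  have h1 : (ψ : G → ℂ) 1 = d := by
    rw [← hρ]
    show LinearMap.trace ℂ (Fin d → ℂ) (ρ 1) = d
    rw [map_one, LinearMap.trace_one, Module.finrank_fin_fun]
  refine ⟨d, ?_, h1⟩
  rcases Nat.eq_zero_or_pos d with rfl | hd
  · exfalso
    have h0 : ∀ g : G, (ψ : G → ℂ) g = 0 := by
      intro g
      rw [← hρ]
      show LinearMap.trace ℂ (Fin 0 → ℂ) (ρ g) = 0
      have : ρ g = 0 := by
        apply LinearMap.ext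
        intro v
        exact Subsingleton.elim _ _
      rw [this, map_zero]
    have h2 := classInner_irr ψ ψ
    rw [if_pos rfl] at h2
    unfold classInner at h2
    simp [h0] at h2
  · exact hd

/-- Twisting an irreducible character by a power of its determinant so that central elements
of order dividing `N` (coprime to the degree) act trivially. -/
theorem exists_twist (ψ : IrrCharacter G) (N : ℕ) (hN : 0 < N) (d : ℕ)
    (hd : (ψ : G → ℂ) 1 = d) (hcop : Nat.Coprime d N) :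
    ∃ l : G →* ℂˣ, ∀ z ∈ Subgroup.center G, z ^ N = 1 → ∀ g : G,
      (l (z * g) : ℂ) * (ψ : G → ℂ) (z * g) = (l g : ℂ) * (ψ : G → ℂ) g := by
  classical
  rcases Nat.lt_or_ge 1 N with hN1 | hN1
  swap
  · have : N = 1 := by omega
    subst this
    refine ⟨1, fun z _ hz g => ?_⟩
    rw [pow_one] at hz
    rw [hz, one_mul]
  obtain ⟨d', ρ, hirr, hρ⟩ := ψ.2
  haveI := hirr
  have hdd : d' = d := by
    have h1 : (ψ : G → ℂ) 1 = d' := by
      rw [← hρ]
      show LinearMap.trace ℂ (Fin d' → ℂ) (ρ 1) = d'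
      rw [map_one, LinearMap.trace_one, Module.finrank_fin_fun]
    rw [hd] at h1
    exact_mod_cast h1.symm
  subst hdd
  obtain ⟨E, -, hE⟩ := Nat.exists_mul_mod_eq_one_of_coprime hcop hN1
  have hE' : d' * E = N * (d' * E / N) + 1 := by
    have := Nat.div_add_mod (d' * E) N
    omega
  let δ : G →* ℂˣ := ((LinearMap.det : ((Fin d' → ℂ) →ₗ[ℂ] (Fin d' → ℂ)) →* ℂ).comp ρ).toHomUnits
  have hδ : ∀ g, (δ g : ℂ) = LinearMap.det (ρ g) := fun g => rfl
  refine ⟨(δ⁻¹) ^ E, fun z hz hzN g => ?_⟩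
  obtain ⟨c, hc⟩ := Cfsg.Agent.Lib.Helper80.central_scalar ρ z hz
  have hψz : (ψ : G → ℂ) (z * g) = c * (ψ : G → ℂ) g := by
    rw [← hρ]
    show LinearMap.trace ℂ (Fin d' → ℂ) (ρ (z * g)) = c * LinearMap.trace ℂ (Fin d' → ℂ) (ρ g)
    rw [map_mul, hc]
    rw [show (c • (LinearMap.id : (Fin d' → ℂ) →ₗ[ℂ] (Fin d' → ℂ))) * ρ g = c • ρ g from by
      ext v; simp]
    rw [map_smul, smul_eq_mul]
  rcases Nat.eq_zero_or_pos d' with rfl | hdpos
  · -- degenerate: the character vanishes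
    have h0 : ∀ g : G, (ψ : G → ℂ) g = 0 := by
      intro g
      rw [← hρ]
      show LinearMap.trace ℂ (Fin 0 → ℂ) (ρ g) = 0
      have : ρ g = 0 := by
        apply LinearMap.ext
        intro v
        exact Subsingleton.elim _ _
      rw [this, map_zero]
    rw [h0, h0, mul_zero, mul_zero]
  have hcN : c ^ N = 1 := by
    have h1 : (ρ z) ^ N = 1 := by rw [← map_pow, hzN, map_one]
    rw [hc] at h1
    have h2 : (c • (LinearMap.id : (Fin d' → ℂ) →ₗ[ℂ] (Fin d' → ℂ))) ^ N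
        = c ^ N • (LinearMap.id : (Fin d' → ℂ) →ₗ[ℂ] (Fin d' → ℂ)) := by
      rw [smul_pow]
      congr 1
      exact one_pow N
    rw [h2] at h1
    have h3 := congrArg (fun f : (Fin d' → ℂ) →ₗ[ℂ] (Fin d' → ℂ) => f (fun _ => 1) ⟨0, hdpos⟩) h1
    simpa using h3
  have hdet : (δ z : ℂ) = c ^ d' := by
    rw [hδ, hc, LinearMap.det_smul, Module.finrank_fin_fun, LinearMap.det_id, mul_one]
  have hc0 : c ≠ 0 := by
    intro h0
    rw [h0, zero_pow (by omega : N ≠ 0)] at hcN
    exact zero_ne_one hcN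
  have hlz : (((δ⁻¹) ^ E) z : ℂ) * c = 1 := by
    rw [MonoidHom.pow_apply, MonoidHom.inv_apply, Units.val_pow_eq_pow_val, Units.val_inv_eq_inv_val,
      hdet, inv_pow, ← pow_mul, hE', pow_succ, pow_mul, hcN, one_pow, one_mul]
    exact inv_mul_cancel₀ hc0
  rw [map_mul, hψz, Units.val_mul]
  calc (((δ⁻¹) ^ E) z : ℂ) * (((δ⁻¹) ^ E) g : ℂ) * (c * (ψ : G → ℂ) g)
      = ((((δ⁻¹) ^ E) z : ℂ) * c) * ((((δ⁻¹) ^ E) g : ℂ) * (ψ : G → ℂ) g) := by ring
    _ = (((δ⁻¹) ^ E) g : ℂ) * (ψ : G → ℂ) g := by rw [hlz, one_mul]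

/-- If central elements of order dividing `a` are invisible to `θ`, then raising to a power
`k ≡ 1 (mod b)` does not change `θ` on the elements whose `b`-th power is central. -/
theorem gal_central (θ : G → ℂ) (a b : ℕ) (hab : a * b = Nat.card G)
    (hθ : ∀ z ∈ Subgroup.center G, z ^ a = 1 → ∀ g : G, θ (z * g) = θ g)
    (k t : ℕ) (hk : k = 1 + b * t) (g : G) (hg : g ^ b ∈ Subgroup.center G) :
    θ (g ^ k) = θ g := by
  have h1 : g ^ k = (g ^ b) ^ t * g := by
    rw [hk, ← pow_mul, pow_add, pow_one, mul_comm]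
    exact (Commute.pow_self g _).eq.symm
  rw [h1]
  apply hθ _ (Subgroup.pow_mem _ hg t)
  rw [← pow_mul, ← pow_mul]
  have : b * (t * a) = Nat.card G * t := by rw [← hab]; ring
  rw [this, pow_mul, pow_card_eq_one', one_pow]

/-- The two-prime dichotomy: if every element is "good" for one of two Galois twists, then the
irreducible character is fixed by one of them. -/
theorem gal_dichotomy (ψ : IrrCharacter G) (Cp Cq : G → Prop) (hC : ∀ g, Cp g ∨ Cq g)
    (kp kq : ℕ) (hkp : Nat.Coprime kp (Nat.card G)) (hkq : Nat.Coprime kq (Nat.card G))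
    (hp : ∀ g, Cp g → (ψ : G → ℂ) (g ^ kp) = (ψ : G → ℂ) g)
    (hq : ∀ g, Cq g → (ψ : G → ℂ) (g ^ kq) = (ψ : G → ℂ) g) :
    (∀ g, (ψ : G → ℂ) (g ^ kp) = (ψ : G → ℂ) g) ∨ (∀ g, (ψ : G → ℂ) (g ^ kq) = (ψ : G → ℂ) g) := by
  classical
  set θp := Cfsg.Agent.Lib.Helper80.galConj kp hkp ψ with hθp
  set θq := Cfsg.Agent.Lib.Helper80.galConj kq hkq ψ with hθq
  by_cases h1 : θp = ψ
  · left
    intro g
    have := congrArg (fun χ : IrrCharacter G => (χ : G → ℂ) g) h1
    exact this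
  by_cases h2 : θq = ψ
  · right
    intro g
    have := congrArg (fun χ : IrrCharacter G => (χ : G → ℂ) g) h2
    exact this
  exfalso
  have hzero : ∑ g : G, ((ψ : G → ℂ) g - (θp : G → ℂ) g) *
      conj ((ψ : G → ℂ) g - (θq : G → ℂ) g) = 0 := by
    refine Finset.sum_eq_zero fun g _ => ?_
    rcases hC g with h | h
    · have : (θp : G → ℂ) g = (ψ : G → ℂ) g := hp g h
      rw [this, sub_self, zero_mul]
    · have : (θq : G → ℂ) g = (ψ : G → ℂ) g := hq g h
      rw [this, sub_self, map_zero, mul_zero]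
  have e1 := classInner_irr ψ ψ
  have e2 := classInner_irr ψ θq
  have e3 := classInner_irr θp ψ
  have e4 := classInner_irr θp θq
  rw [if_pos rfl] at e1
  rw [if_neg (Ne.symm h2)] at e2
  rw [if_neg h1] at e3
  have hexp : ∑ g : G, ((ψ : G → ℂ) g - (θp : G → ℂ) g) *
      conj ((ψ : G → ℂ) g - (θq : G → ℂ) g)
      = (Nat.card G : ℂ) * (classInner (ψ : G → ℂ) (ψ : G → ℂ)
        - classInner (ψ : G → ℂ) (θq : G → ℂ) - classInner (θp : G → ℂ) (ψ : G → ℂ)
        + classInner (θp : G → ℂ) (θq : G → ℂ)) := by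
    unfold classInner
    have hc : (Nat.card G : ℂ) ≠ 0 := by
      exact_mod_cast (Nat.card_pos (α := G)).ne'
    simp only [map_sub, sub_mul, mul_sub, Finset.sum_sub_distrib]
    field_simp
    ring
  rw [hexp, e1, e2, e3, e4] at hzero
  have hc : (Nat.card G : ℂ) ≠ 0 := by
    exact_mod_cast (Nat.card_pos (α := G)).ne'
  rcases mul_eq_zero.1 hzero with h | h
  · exact hc h
  · split_ifs at h <;> norm_num at h

end Twist

end Cfsg.Agent.Lib.Helper46
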