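import Cfsg.Agent.Lib.Helper46.BlichB

/-!
# Blichfeldt's theorem, part C: `p`-elements and `q`-elements commute when no non-central
ones do (`p, q > n + 1`, faithful character of degree `n`)
-/

namespace Cfsg.Agent.Lib.Helper46

open Cfsg Cfsg.Agent.Lib.Helper4
open scoped ComplexConjugate

section

variable {G : Type*} [Group G] [Fintype G]

/-- A `p`-rational irreducible character of degree `< p - 1` is trivial on `p`-elements. -/
theorem irr_one_of_prational (ψ : IrrCharacter G) (p : ℕ) (hp : p.Prime) (d : ℕ)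
    (hd : (ψ : G → ℂ) 1 = d) (hdp : d < p - 1) (e b : ℕ) (hcard : Nat.card G = p ^ e * b)
    (hb : ¬ p ∣ b)
    (hrat : ∀ k, k ≡ 1 [MOD b] → Nat.Coprime k (Nat.card G) →
      ∀ g, (ψ : G → ℂ) (g ^ k) = (ψ : G → ℂ) g)
    (u : G) (a : ℕ) (hu : u ^ (p ^ a) = 1) : (ψ : G → ℂ) u = (ψ : G → ℂ) 1 := by
  obtain ⟨d', ρ, hirr, hρ⟩ := ψ.2
  have hdd : d' = d := by
    have h1 : (ψ : G → ℂ) 1 = d' := by
      rw [← hρ]
      show LinearMap.trace ℂ (Fin d' → ℂ) (ρ 1) = d'
      rw [map_one, LinearMap.trace_one, Module.finrank_fin_fun]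
    rw [hd] at h1
    exact_mod_cast h1.symm
  subst hdd
  have hco : Nat.Coprime (p ^ e) b :=
    Nat.Coprime.pow_left e ((Nat.Prime.coprime_iff_not_dvd hp).2 hb)
  have key : ρ u = 1 := by
    apply rho_eq_one_of_prational ρ p hp (by rw [Module.finrank_fin_fun]; exact hdp) a u hu
    intro i k hk
    rw [hρ]
    set w := u ^ i with hw
    have hwa : w ^ (p ^ a) = 1 := by
      rw [hw, ← pow_mul, mul_comm, pow_mul, hu, one_pow]
    have ho1 : orderOf w ∣ p ^ a := orderOf_dvd_of_pow_eq_one hwa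
    have ho2 : orderOf w ∣ p ^ e * b := by
      rw [← hcard]; exact orderOf_dvd_natCard w
    obtain ⟨c, -, hc⟩ := (Nat.dvd_prime_pow hp).1 ho1
    have ho3 : orderOf w ∣ p ^ e := by
      apply Nat.Coprime.dvd_of_dvd_mul_right _ ho2
      rw [hc]
      exact Nat.Coprime.pow_left c ((Nat.Prime.coprime_iff_not_dvd hp).2 hb)
    have hk' := (Nat.chineseRemainder hco k 1).2
    set k' : ℕ := (Nat.chineseRemainder hco k 1 : ℕ) with hk'def
    have hcop : Nat.Coprime k' (Nat.card G) := by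
      rw [hcard]
      apply Nat.Coprime.mul_right
      · have := hk'.1.gcd_eq
        unfold Nat.Coprime
        rw [this]
        exact Nat.Coprime.pow_right e hk
      · have := hk'.2.gcd_eq
        unfold Nat.Coprime
        rw [this]
        exact Nat.gcd_one_left b
    have hpow : w ^ k' = w ^ k := pow_eq_pow_iff_modEq.2 (hk'.1.of_dvd ho3)
    rw [← hpow]
    exact hrat k' hk'.2 hcop w
  rw [← hρ]
  show LinearMap.trace ℂ (Fin d' → ℂ) (ρ u) = LinearMap.trace ℂ (Fin d' → ℂ) (ρ 1)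
  rw [key, (map_one ρ : ρ 1 = 1)]

end

/-- Key step of Blichfeldt's theorem: if no non-central `p`-element commutes with a non-central
`q`-element (`p ≠ q` primes larger than `n + 1`), then all `p`-elements commute with all
`q`-elements. -/
theorem comm_of_star {G : Type*} [Group G] [Finite G] (χ : G → ℂ) (hχ : IsCharacter G χ)
    (hf : ∀ g : G, χ g = χ 1 → g = 1) (n : ℕ) (hn : charDegree χ = n) (p q : ℕ)
    (hp : p.Prime) (hq : q.Prime) (hpq : p ≠ q) (hpn : n + 1 < p) (hqn : n + 1 < q)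
    (hstar : ∀ x y : G, (∃ a, x ^ (p ^ a) = 1) → (∃ b, y ^ (q ^ b) = 1) → x * y = y * x →
      x ∈ Subgroup.center G ∨ y ∈ Subgroup.center G) :
    ∀ x y : G, (∃ a, x ^ (p ^ a) = 1) → (∃ b, y ^ (q ^ b) = 1) → x * y = y * x := by
  classical
  letI := Fintype.ofFinite G
  have hfin := irr_finite (G := G)
  letI : Fintype (IrrCharacter G) := Fintype.ofFinite _
  obtain ⟨m, hm⟩ := exists_decomp_of_isCharacter χ hχ
  choose deg hdeg0 hdeg using fun ψ : IrrCharacter G => irr_one_eq_nat ψ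
  -- degrees of constituents are at most n
  have hχ1 : χ 1 = ((∑ ψ : IrrCharacter G, m ψ * deg ψ : ℕ) : ℂ) := by
    conv_lhs => rw [hm]
    rw [Finset.sum_apply]
    push_cast
    refine Finset.sum_congr rfl fun ψ _ => ?_
    rw [Pi.smul_apply, smul_eq_mul, hdeg]
  have hnsum : ∑ ψ : IrrCharacter G, m ψ * deg ψ = n := by
    rw [← hn]
    unfold charDegree
    rw [hχ1, Complex.natCast_re, Nat.floor_natCast]
  have hdegle : ∀ ψ : IrrCharacter G, m ψ ≠ 0 → deg ψ ≤ n := by
    intro ψ hψ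
    rw [← hnsum]
    calc deg ψ ≤ m ψ * deg ψ := Nat.le_mul_of_pos_left _ (Nat.pos_of_ne_zero hψ)
      _ ≤ ∑ ψ : IrrCharacter G, m ψ * deg ψ :=
          Finset.single_le_sum (f := fun ψ => m ψ * deg ψ) (fun _ _ => Nat.zero_le _)
            (Finset.mem_univ ψ)
  -- factor the group order
  have hcpos : Nat.card G ≠ 0 := (Nat.card_pos (α := G)).ne'
  obtain ⟨ep, bp, hbp, hcp⟩ := Nat.exists_eq_pow_mul_and_not_dvd hcpos p hp.ne_one
  obtain ⟨eq, bq, hbq, hcq⟩ := Nat.exists_eq_pow_mul_and_not_dvd hcpos q hq.ne_one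
  -- the main claim for each constituent
  have main : ∀ ψ : IrrCharacter G, m ψ ≠ 0 → ∀ x y : G, (∃ a, x ^ (p ^ a) = 1) →
      (∃ b, y ^ (q ^ b) = 1) → (ψ : G → ℂ) (x * y * x⁻¹ * y⁻¹) = (ψ : G → ℂ) 1 := by
    intro ψ hψ x y hx hy
    have hd := hdegle ψ hψ
    have hdpos := hdeg0 ψ
    have hcopp : Nat.Coprime (deg ψ) p :=
      ((Nat.Prime.coprime_iff_not_dvd hp).2 (Nat.not_dvd_of_pos_of_lt hdpos (by omega))).symm
    have hcopq : Nat.Coprime (deg ψ) q :=
      ((Nat.Prime.coprime_iff_not_dvd hq).2 (Nat.not_dvd_of_pos_of_lt hdpos (by omega))).symm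
    have hcopN : Nat.Coprime (deg ψ) (p ^ ep * q ^ eq) :=
      Nat.Coprime.mul_right (Nat.Coprime.pow_right ep hcopp) (Nat.Coprime.pow_right eq hcopq)
    have hNpos : 0 < p ^ ep * q ^ eq :=
      Nat.mul_pos (pow_pos hp.pos _) (pow_pos hq.pos _)
    obtain ⟨l, hl⟩ := exists_twist ψ (p ^ ep * q ^ eq) hNpos (deg ψ) (hdeg ψ) hcopN
    set ψ₂ : IrrCharacter G := ⟨fun g => (l g : ℂ) * (ψ : G → ℂ) g, isIrrCharacter_lin_mul l ψ⟩
      with hψ₂
    have hψ₂app : ∀ g, (ψ₂ : G → ℂ) g = (l g : ℂ) * (ψ : G → ℂ) g := fun g => rfl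
    have hψ₂one : (ψ₂ : G → ℂ) 1 = deg ψ := by
      rw [hψ₂app, map_one, Units.val_one, one_mul, hdeg]
    -- central invariance
    have hcentp : ∀ z ∈ Subgroup.center G, z ^ (p ^ ep) = 1 → ∀ g : G,
        (ψ₂ : G → ℂ) (z * g) = (ψ₂ : G → ℂ) g := by
      intro z hz hzp g
      apply hl z hz
      rw [pow_mul, hzp, one_pow]
    have hcentq : ∀ z ∈ Subgroup.center G, z ^ (q ^ eq) = 1 → ∀ g : G,
        (ψ₂ : G → ℂ) (z * g) = (ψ₂ : G → ℂ) g := by
      intro z hz hzq g
      apply hl z hz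
      rw [mul_comm, pow_mul, hzq, one_pow]
    -- every element is good for p or for q
    have hgood : ∀ g : G, g ^ bp ∈ Subgroup.center G ∨ g ^ bq ∈ Subgroup.center G := by
      intro g
      apply hstar (g ^ bp) (g ^ bq)
      · exact ⟨ep, by rw [← pow_mul, mul_comm, ← hcp, pow_card_eq_one']⟩
      · exact ⟨eq, by rw [← pow_mul, mul_comm, ← hcq, pow_card_eq_one']⟩
      · exact ((Commute.refl g).pow_pow bp bq).eq
    -- the dichotomy
    have hdich : (∀ k, k ≡ 1 [MOD bp] → Nat.Coprime k (Nat.card G) →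
          ∀ g, (ψ₂ : G → ℂ) (g ^ k) = (ψ₂ : G → ℂ) g) ∨
        (∀ k, k ≡ 1 [MOD bq] → Nat.Coprime k (Nat.card G) →
          ∀ g, (ψ₂ : G → ℂ) (g ^ k) = (ψ₂ : G → ℂ) g) := by
      by_contra hcon
      rw [not_or] at hcon
      obtain ⟨hc1, hc2⟩ := hcon
      push Not at hc1 hc2
      obtain ⟨kp, hkp1, hkpc, gp, hgp⟩ := hc1
      obtain ⟨kq, hkq1, hkqc, gq, hgq⟩ := hc2
      have hkpform : ∃ t, kp = 1 + bp * t := by
        have h1 : 1 ≤ kp := by
          rcases Nat.eq_zero_or_pos kp with h0 | h0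
          · rw [h0] at hkpc
            have : Nat.card G = 1 := by simpa using hkpc
            rw [h0] at hgp
            have hg1 : gp = 1 := by
              have hsub : Subsingleton G := (Nat.card_eq_one_iff_unique.1 this).1
              exact Subsingleton.elim _ _
            rw [hg1] at hgp
            simp at hgp
          · exact h0
        have := (Nat.modEq_iff_dvd' h1).1 hkp1.symm
        obtain ⟨t, ht⟩ := this
        exact ⟨t, by omega⟩
      have hkqform : ∃ t, kq = 1 + bq * t := by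
        have h1 : 1 ≤ kq := by
          rcases Nat.eq_zero_or_pos kq with h0 | h0
          · rw [h0] at hkqc
            have : Nat.card G = 1 := by simpa using hkqc
            rw [h0] at hgq
            have hg1 : gq = 1 := by
              have hsub : Subsingleton G := (Nat.card_eq_one_iff_unique.1 this).1
              exact Subsingleton.elim _ _
            rw [hg1] at hgq
            simp at hgq
          · exact h0
        have := (Nat.modEq_iff_dvd' h1).1 hkq1.symm
        obtain ⟨t, ht⟩ := this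
        exact ⟨t, by omega⟩
      obtain ⟨tp, htp⟩ := hkpform
      obtain ⟨tq, htq⟩ := hkqform
      have h1 := gal_dichotomy ψ₂ (fun g => g ^ bp ∈ Subgroup.center G)
        (fun g => g ^ bq ∈ Subgroup.center G) hgood kp kq hkpc hkqc
        (fun g hg => gal_central (ψ₂ : G → ℂ) (p ^ ep) bp hcp.symm hcentp kp tp htp g hg)
        (fun g hg => gal_central (ψ₂ : G → ℂ) (q ^ eq) bq hcq.symm hcentq kq tq htq g hg)
      rcases h1 with h | h
      · exact hgp (h gp)
      · exact hgq (h gq)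
    -- l kills commutators
    have hlcomm : (l (x * y * x⁻¹ * y⁻¹) : ℂ) = 1 := by
      have : l (x * y * x⁻¹ * y⁻¹) = 1 := by
        rw [map_mul, map_mul, map_mul, map_inv, map_inv]
        rw [mul_comm (l x) (l y), mul_assoc (l y), mul_inv_cancel, mul_one, mul_inv_cancel]
      rw [this, Units.val_one]
    have hker : (ψ₂ : G → ℂ) (x * y * x⁻¹ * y⁻¹) = (ψ₂ : G → ℂ) 1 := by
      rw [← Cfsg.Agent.Lib.Helper83.mem_irrKer]
      rcases hdich with h | h
      · have hall : ∀ u : G, (∃ a, u ^ (p ^ a) = 1) → u ∈ Cfsg.Agent.Lib.Helper83.irrKer ψ₂ := by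
          intro u ⟨a, hu⟩
          rw [Cfsg.Agent.Lib.Helper83.mem_irrKer]
          exact irr_one_of_prational ψ₂ p hp (deg ψ) hψ₂one (by omega) ep bp hcp hbp h u a hu
        have hxk := hall x hx
        have h2 : x * y * x⁻¹ * y⁻¹ = x * (y * x⁻¹ * y⁻¹) := by group
        rw [h2]
        exact Subgroup.mul_mem _ hxk
          ((Cfsg.Agent.Lib.Helper83.irrKer_normal ψ₂).conj_mem _ (Subgroup.inv_mem _ hxk) y)
      · have hall : ∀ u : G, (∃ a, u ^ (q ^ a) = 1) → u ∈ Cfsg.Agent.Lib.Helper83.irrKer ψ₂ := by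
          intro u ⟨a, hu⟩
          rw [Cfsg.Agent.Lib.Helper83.mem_irrKer]
          exact irr_one_of_prational ψ₂ q hq (deg ψ) hψ₂one (by omega) eq bq hcq hbq h u a hu
        have hyk := hall y hy
        exact Subgroup.mul_mem _
          ((Cfsg.Agent.Lib.Helper83.irrKer_normal ψ₂).conj_mem _ hyk x)
          (Subgroup.inv_mem _ hyk)
    rw [hψ₂app, hψ₂app, hlcomm, map_one, Units.val_one, one_mul, one_mul] at hker
    exact hker
  intro x y hx hy
  have hc : χ (x * y * x⁻¹ * y⁻¹) = χ 1 := by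
    rw [hm]
    simp only [Finset.sum_apply, Pi.smul_apply]
    refine Finset.sum_congr rfl fun ψ _ => ?_
    by_cases hψ : m ψ = 0
    · rw [hψ]; simp
    · rw [main ψ hψ x y hx hy]
  have h1 := hf _ hc
  have h2 : x * y * x⁻¹ = y := mul_inv_eq_one.1 h1
  exact mul_inv_eq_iff_eq_mul.1 h2

end Cfsg.Agent.Lib.Helper46
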