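import Cfsg.Agent.Lib.Helper46.BlichC
import Cfsg.Agent.Lib.Helper83.Codeg

/-!
# Blichfeldt's theorem, part D: group-theoretic tools

* `char_eq_one_of_constituents`: reduction of `χ g = χ 1` to the irreducible constituents.
* `sylow_comm_of_lt`: Sylow `p`-subgroups are abelian when `p` exceeds the degree of a faithful
  character.
* Sylow bookkeeping: `exists_conj_mem_sylow`, `not_dvd_index_of_sylow_le`, `sylow_lift`.
-/

namespace Cfsg.Agent.Lib.Helper46

open Cfsg Cfsg.Agent.Lib.Helper4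

theorem end_fin_one_comm (f g : (Fin 1 → ℂ) →ₗ[ℂ] (Fin 1 → ℂ)) : f * g = g * f := by
  have key : ∀ (h : (Fin 1 → ℂ) →ₗ[ℂ] (Fin 1 → ℂ)) (v : Fin 1 → ℂ),
      h v = v 0 • h (fun _ => 1) := by
    intro h v
    have hv : v = v 0 • (fun _ => (1 : ℂ)) := by
      funext i
      fin_cases i
      simp
    conv_lhs => rw [hv]
    rw [map_smul]
  apply LinearMap.ext
  intro v
  rw [Module.End.mul_apply, Module.End.mul_apply]
  rw [key f (g v), key g (f v), key g v, key f v]
  funext i
  have hi : i = 0 := Subsingleton.elim i 0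
  subst hi
  simp only [Pi.smul_apply, smul_eq_mul]
  ring

theorem isCharacter_restrict {G : Type*} [Group G] (H : Subgroup G) {χ : G → ℂ}
    (hχ : IsCharacter G χ) : IsCharacter H (fun h : H => χ h) := by
  obtain ⟨n, ρ, hρ⟩ := hχ
  refine ⟨n, ρ.comp H.subtype, ?_⟩
  funext h
  rw [← hρ]
  rfl

/-- To show `χ g = χ 1` it suffices to treat the irreducible characters of degree at most the
degree of `χ`. -/
theorem char_eq_one_of_constituents {G : Type*} [Group G] [Finite G] (χ : G → ℂ)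
    (hχ : IsCharacter G χ) (n : ℕ) (hn : charDegree χ = n) (g : G)
    (h : ∀ ψ : IrrCharacter G, ∀ d : ℕ, 0 < d → (ψ : G → ℂ) 1 = d → d ≤ n →
      (ψ : G → ℂ) g = (ψ : G → ℂ) 1) : χ g = χ 1 := by
  classical
  letI := Fintype.ofFinite G
  have hfin := irr_finite (G := G)
  letI : Fintype (IrrCharacter G) := Fintype.ofFinite _
  obtain ⟨m, hm⟩ := exists_decomp_of_isCharacter χ hχ
  choose deg hdeg0 hdeg using fun ψ : IrrCharacter G => irr_one_eq_nat ψ
  have hχ1 : χ 1 = ((∑ ψ : IrrCharacter G, m ψ * deg ψ : ℕ) : ℂ) := by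
    conv_lhs => rw [hm]
    rw [Finset.sum_apply]
    push_cast
    refine Finset.sum_congr rfl fun ψ _ => ?_
    rw [Pi.smul_apply, smul_eq_mul, hdeg]
  have hnsum : ∑ ψ : IrrCharacter G, m ψ * deg ψ = n := by
    rw [← hn]
    unfold charDegree
    rw [hχ1, Complex.natCast_re, Nat.floor_natCast]
  have hdegle : ∀ ψ : IrrCharacter G, m ψ ≠ 0 → deg ψ ≤ n := by
    intro ψ hψ
    rw [← hnsum]
    calc deg ψ ≤ m ψ * deg ψ := Nat.le_mul_of_pos_left _ (Nat.pos_of_ne_zero hψ)
      _ ≤ ∑ ψ : IrrCharacter G, m ψ * deg ψ :=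
          Finset.single_le_sum (f := fun ψ => m ψ * deg ψ) (fun _ _ => Nat.zero_le _)
            (Finset.mem_univ ψ)
  rw [hm]
  simp only [Finset.sum_apply, Pi.smul_apply]
  refine Finset.sum_congr rfl fun ψ _ => ?_
  by_cases hψ : m ψ = 0
  · rw [hψ]; simp
  · rw [h ψ (deg ψ) (hdeg0 ψ) (hdeg ψ) (hdegle ψ hψ)]

/-- Sylow `p`-subgroups are abelian when `p` exceeds the degree of a faithful character. -/
theorem sylow_comm_of_lt {G : Type*} [Group G] [Finite G] (χ : G → ℂ) (hχ : IsCharacter G χ)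
    (hf : ∀ g : G, χ g = χ 1 → g = 1) (n : ℕ) (hn : charDegree χ = n) (p : ℕ)
    [Fact p.Prime] (hpn : n < p) (P : Sylow p G) :
    ∀ x ∈ P, ∀ y ∈ P, x * y = y * x := by
  classical
  have hp : p.Prime := Fact.out
  intro x hx y hy
  set H : Subgroup G := (P : Subgroup G) with hH
  have hχH : IsCharacter H (fun h : H => χ h) := isCharacter_restrict H hχ
  have hnH : charDegree (fun h : H => χ h) = n := by
    rw [← hn]; rfl
  have key : (fun h : H => χ h) ((⟨x, hx⟩ : H) * ⟨y, hy⟩ * (⟨x, hx⟩ : H)⁻¹ * (⟨y, hy⟩ : H)⁻¹)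
      = (fun h : H => χ h) 1 := by
    apply char_eq_one_of_constituents _ hχH n hnH
    intro ψ d hd0 hd hdn
    -- the degree divides the order of the p-group
    have hdvd := Cfsg.Agent.Lib.Helper83.irr_degree_dvd_card ψ
    have hcd : charDegree (ψ : H → ℂ) = d := by
      unfold charDegree
      rw [hd, Complex.natCast_re, Nat.floor_natCast]
    rw [hcd] at hdvd
    have hcard : Nat.card H = p ^ (Nat.card G).factorization p := P.card_eq_multiplicity
    rw [hcard] at hdvd
    obtain ⟨j, -, hj⟩ := (Nat.dvd_prime_pow hp).1 hdvd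
    have hd1 : d = 1 := by
      rcases Nat.eq_zero_or_pos j with rfl | hjpos
      · simpa using hj
      · exfalso
        have : p ≤ d := by
          rw [hj]
          exact Nat.le_self_pow (by omega) p
        omega
    subst hd1
    obtain ⟨d', ρ, hirr, hρ⟩ := ψ.2
    have hdd : d' = 1 := by
      have h1 : (ψ : H → ℂ) 1 = d' := by
        rw [← hρ]
        show LinearMap.trace ℂ (Fin d' → ℂ) (ρ 1) = d'
        rw [map_one, LinearMap.trace_one, Module.finrank_fin_fun]
      rw [hd] at h1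
      exact_mod_cast h1.symm
    subst hdd
    rw [← hρ]
    show LinearMap.trace ℂ (Fin 1 → ℂ) (ρ _) = LinearMap.trace ℂ (Fin 1 → ℂ) (ρ 1)
    congr 1
    rw [map_mul, map_mul, map_mul, end_fin_one_comm (ρ ⟨x, hx⟩) (ρ ⟨y, hy⟩), mul_assoc (ρ ⟨y, hy⟩),
      ← map_mul, mul_inv_cancel, (map_one ρ : ρ 1 = 1), mul_one, ← map_mul, mul_inv_cancel,
      (map_one ρ : ρ 1 = 1)]
  have h1 : χ (x * y * x⁻¹ * y⁻¹) = χ 1 := key
  have h2 := hf _ h1
  have h3 : x * y * x⁻¹ = y := mul_inv_eq_one.1 h2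
  exact mul_inv_eq_iff_eq_mul.1 h3

section SylowTools

open scoped Pointwise

variable {G : Type*} [Group G] [Finite G] {p : ℕ} [Fact p.Prime]

/-- Every `p`-element is conjugate into a given Sylow `p`-subgroup. -/
theorem exists_conj_mem_sylow (P : Sylow p G) (x : G) (hx : ∃ a, x ^ (p ^ a) = 1) :
    ∃ g : G, g * x * g⁻¹ ∈ P := by
  obtain ⟨a, ha⟩ := hx
  have hpg : IsPGroup p (Subgroup.zpowers x) := by
    intro ⟨y, hy⟩
    obtain ⟨k, rfl⟩ := Subgroup.mem_zpowers_iff.1 hy
    refine ⟨a, ?_⟩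
    apply Subtype.ext
    simp only [Subgroup.coe_pow, Subgroup.coe_one]
    rw [← zpow_natCast, ← zpow_mul, mul_comm, zpow_mul, zpow_natCast, ha, one_zpow]
  obtain ⟨P', hP'⟩ := hpg.exists_le_sylow
  obtain ⟨g, hg⟩ := MulAction.exists_smul_eq G P' P
  refine ⟨g, ?_⟩
  have hxP' : x ∈ (P' : Subgroup G) := hP' (Subgroup.mem_zpowers x)
  have h1 : MulAut.conj g • x ∈ MulAut.conj g • (P' : Subgroup G) :=
    Subgroup.smul_mem_pointwise_smul _ _ _ hxP'
  have h2 : MulAut.conj g • (P' : Subgroup G) = (P : Subgroup G) := by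
    rw [← Sylow.coe_subgroup_smul, hg]
  rw [h2] at h1
  have h3 : MulAut.conj g • x = g * x * g⁻¹ := by simp [MulAut.smul_def]
  rw [h3] at h1
  exact h1

/-- A subgroup containing a subgroup of full `p`-power order has index prime to `p`. -/
theorem not_dvd_index_of_card_le (L Q : Subgroup G) (hQL : Q ≤ L)
    (hQ : Nat.card Q = p ^ (Nat.card G).factorization p) : ¬ p ∣ L.index := by
  have hp : p.Prime := Fact.out
  intro hdvd
  have h1 : Nat.card Q ∣ Nat.card L := Subgroup.card_dvd_of_le hQL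
  have h2 : Nat.card Q * p ∣ Nat.card L * L.index := Nat.mul_dvd_mul h1 hdvd
  rw [Subgroup.card_mul_index, hQ, ← pow_succ] at h2
  exact Nat.pow_succ_factorization_not_dvd (Nat.card_pos (α := G)).ne' hp h2

/-- A Sylow subgroup of a subgroup `L` containing a subgroup of full `p`-power order is a Sylow
subgroup of the whole group. -/
theorem sylow_lift (L Q₀ : Subgroup G) (hQL : Q₀ ≤ L)
    (hQ : Nat.card Q₀ = p ^ (Nat.card G).factorization p) (Q' : Sylow p L) :
    ∃ Q : Sylow p G, (Q : Subgroup G) = (Q' : Subgroup L).map L.subtype := by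
  have hp : p.Prime := Fact.out
  have h1 : Nat.card ((Q' : Subgroup L).map L.subtype) = Nat.card (Q' : Subgroup L) :=
    Nat.card_congr ((Q' : Subgroup L).equivMapOfInjective L.subtype L.subtype_injective).symm.toEquiv
  have h2 : Nat.card (Q' : Subgroup L) = p ^ (Nat.card L).factorization p :=
    Q'.card_eq_multiplicity
  have h3 : (Nat.card L).factorization p = (Nat.card G).factorization p := by
    apply le_antisymm
    · have hd : Nat.card L ∣ Nat.card G := Subgroup.card_subgroup_dvd_card L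
      exact (Nat.factorization_le_iff_dvd (Nat.card_pos (α := L)).ne'
        (Nat.card_pos (α := G)).ne').2 hd p
    · have hd : p ^ (Nat.card G).factorization p ∣ Nat.card L := by
        rw [← hQ]; exact Subgroup.card_dvd_of_le hQL
      exact (hp.pow_dvd_iff_le_factorization (Nat.card_pos (α := L)).ne').1 hd
  exact ⟨Sylow.ofCard ((Q' : Subgroup L).map L.subtype) (by rw [h1, h2, h3]), rfl⟩

end SylowTools

end Cfsg.Agent.Lib.Helper46
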