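import Mathlib
import Cfsg.Agent.Lib.Helper79.DGMK
import Cfsg.Agent.Lib.Helper79.Blk2
import Cfsg.Agent.Lib.Helper82.CharCore
import Cfsg.Agent.S4710

/-!
# DG piece DEGQ (helper46, for helper79, S4502): `p ∤ χ(1)` iff the block of `χ` has positive
defect, when `p ∥ |H|`
-/

set_option autoImplicit false

namespace Cfsg.Agent.Lib.Helper46.DG

open Cfsg Cfsg.Agent.Lib.Helper79.DG
open scoped ComplexConjugate

variable {H : Type*} [Group H] [Fintype H]

/-- PIECE DEGQ -/
theorem pprime_iff_defect (p : ℕ) [Fact p.Prime] (M : Ideal AlgInt) (hM : IsPModular p M)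
    (hdiv : p ∣ Nat.card H) (hsq : ¬ p ^ 2 ∣ Nat.card H) (χ : IrrCharacter H) :
    ¬ p ∣ charDegree χ.1 ↔ 0 < blockDefect p (blockOf M χ.1) := by
  have hp : p.Prime := Fact.out
  have hcard : Nat.card H ≠ 0 := Nat.card_pos.ne'
  have ha : (Nat.card H).factorization p = 1 := by
    have h1 : 1 ≤ (Nat.card H).factorization p :=
      (hp.dvd_iff_one_le_factorization hcard).mp hdiv
    have h2 : ¬ 2 ≤ (Nat.card H).factorization p := fun h =>
      hsq ((hp.pow_dvd_iff_le_factorization hcard).mpr h)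
    omega
  have hχ : χ ∈ blockOf M χ.1 := Cfsg.Agent.Lib.Helper79.mem_blockOf_self hM χ
  have hB : IsPBlock M (blockOf M χ.1) := ⟨χ, rfl⟩
  have hdeg : charDegree χ.1 ≠ 0 := (Cfsg.Agent.Lib.Helper82.irr_charDegree χ).2
  obtain ⟨χ₀, hχ₀B, hmin, hdef, hht⟩ := Cfsg.Agent.S4710.exists_min p M hM _ hB
  constructor
  · intro hnd
    have h0 : (charDegree χ.1).factorization p = 0 := Nat.factorization_eq_zero_of_not_dvd hnd
    have h1 := hmin χ hχ
    rw [hdef, ha]
    omega
  · intro hpos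
    have hd1 : blockDefect p (blockOf M χ.1) ≤ 1 := by
      rw [hdef, ha]
      omega
    have h0 := ((Cfsg.Agent.S4710.result p M hM _ hB _ rfl).2 χ hχ).1 hd1
    rw [hht χ] at h0
    have h00 : (charDegree χ₀.1).factorization p = 0 := by
      rw [hdef, ha] at hpos
      omega
    intro hdvd
    have h2 := (hp.dvd_iff_one_le_factorization hdeg).mp hdvd
    omega

end Cfsg.Agent.Lib.Helper46.DG
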