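import Mathlib
import Cfsg.Agent.Lib.Helper79.DGMK
import Cfsg.Agent.Lib.Helper46.DGDEGQ
import Cfsg.Agent.Lib.Helper82.PQ
import Cfsg.Agent.Lib.Helper82.Major
import Cfsg.Agent.Lib.Helper81.BrSubgrp
import Cfsg.Agent.Lib.Helper81.BrMax
import Cfsg.Agent.Lib.Helper81.BrNorm

/-!
# DG piece KN (helper46, for helper79, S4502): with a normal Sylow `p`-subgroup and `p ∥ |H|`
every irreducible character has `p'`-degree
-/

set_option autoImplicit false

namespace Cfsg.Agent.Lib.Helper46.DG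

open Cfsg Cfsg.Agent.Lib.Helper79.DG
open scoped ComplexConjugate

variable {H : Type*} [Group H] [Fintype H]

/-- PIECE KN -/
theorem all_pprime_of_normal (p : ℕ) [Fact p.Prime] (hdiv : p ∣ Nat.card H)
    (hsq : ¬ p ^ 2 ∣ Nat.card H) (Q : Sylow p H) (hQn : (Q : Subgroup H).Normal)
    (χ : IrrCharacter H) : ¬ p ∣ charDegree χ.1 := by
  have hp : p.Prime := Fact.out
  obtain ⟨M, hM⟩ := Cfsg.Agent.Lib.Helper82.exists_isPModular p
  rw [pprime_iff_defect p M hM hdiv hsq χ]
  have hB : IsPBlock M (blockOf M χ.1) := ⟨χ, rfl⟩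
  obtain ⟨D, u, hmax⟩ := Cfsg.Agent.Lib.Helper81.exists_maximalBrauerPair hM _ hB
  have hD := Cfsg.Agent.Lib.Helper81.isDefectGroup_of_maximal hM _ D u hmax
  haveI := hQn
  have hle : (Q : Subgroup H) ≤ D :=
    Cfsg.Agent.Lib.Helper81.normal_le_defectGroup hM (Q : Subgroup H) Q.isPGroup' _ hB D hD
  have hcardD := Cfsg.Agent.Lib.Helper82.card_defectGroup hM _ hB D hD
  by_contra h0
  have h0' : blockDefect p (blockOf M χ.1) = 0 := by omega
  rw [h0', pow_zero] at hcardD
  have h1 : Nat.card (Q : Subgroup H) ∣ Nat.card D := Subgroup.card_dvd_of_le hle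
  rw [hcardD] at h1
  have h2 : Nat.card (Q : Subgroup H) = p ^ (Nat.card H).factorization p := Q.card_eq_multiplicity
  have hcard : Nat.card H ≠ 0 := Nat.card_pos.ne'
  have h3 : 1 ≤ (Nat.card H).factorization p := (hp.dvd_iff_one_le_factorization hcard).mp hdiv
  have h4 : p ∣ Nat.card (Q : Subgroup H) := by
    rw [h2]
    exact dvd_pow_self p (by omega)
  exact hp.one_lt.ne' (Nat.dvd_one.mp (h4.trans h1))

end Cfsg.Agent.Lib.Helper46.DG
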