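import Mathlib
import Cfsg.Agent.Lib.Helper44.ESDefs
import Cfsg.Prelude.Def_GeometricClasses

/-!
# S5877 piece ES-DUAL (for helper44)
-/

set_option autoImplicit false

namespace Cfsg.Agent.Lib.Helper44.ES

open Module Module.End

/-- a scalar matrix of `r`-th power one is `ζ ^ t • 1` -/
theorem esdual_scalar {n : ℕ} {F : Type*} [Field F] (r : ℕ) (hr : r.Prime) (hn : 0 < n)
    (ζ : F) (hζ : ζ ^ r = 1) (hζ1 : ζ ≠ 1) (s : Matrix.GeneralLinearGroup (Fin n) F)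
    (hs : s ∈ Cfsg.Geo.scalars (Fin n) F) (hsr : s ^ r = 1) :
    ∃ t : ℕ, (s : Matrix (Fin n) (Fin n) F) = ζ ^ t • (1 : Matrix (Fin n) (Fin n) F) := by
  obtain ⟨σ, hσ⟩ := (Cfsg.Geo.mem_scalars_iff s).mp hs
  have hσr : (σ : F) ^ r = 1 := by
    have h1 : ((s ^ r : Matrix.GeneralLinearGroup (Fin n) F) : Matrix (Fin n) (Fin n) F) = 1 := by
      rw [hsr]
      rfl
    rw [Units.val_pow_eq_pow_val, hσ, smul_pow, one_pow] at h1
    have h2 := congrFun (congrFun h1 ⟨0, hn⟩) ⟨0, hn⟩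
    rw [Matrix.smul_apply, Matrix.one_apply_eq, smul_eq_mul, mul_one] at h2
    exact h2
  haveI : Fact r.Prime := ⟨hr⟩
  have hord : orderOf ζ = r := orderOf_eq_prime hζ hζ1
  have hprim : IsPrimitiveRoot ζ r := by
    rw [← hord]
    exact IsPrimitiveRoot.orderOf ζ
  haveI : NeZero r := ⟨hr.ne_zero⟩
  obtain ⟨k, _, hk'⟩ := hprim.eq_pow_of_pow_eq_one hσr
  exact ⟨k, by rw [hσ, hk']⟩

/-! ## ES-DUAL (ESDefs + Prelude) -/
theorem es_dual {n : ℕ} {F : Type*} [Field F] (H : Subgroup (Matrix.GeneralLinearGroup (Fin n) F)) (r : ℕ)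
    (hr : r.Prime) (hn : 0 < n) (ζ : F) (hζ : ζ ^ r = 1) (hζ1 : ζ ≠ 1)
    (hB : Base H (Cfsg.Geo.scalars (Fin n) F) r)
    (a : Matrix.GeneralLinearGroup (Fin n) F) (ha : a ∈ H) (haZ : a ∉ Cfsg.Geo.scalars (Fin n) F) :
    ∃ (y : Matrix.GeneralLinearGroup (Fin n) F) (k : ℕ), ¬ r ∣ k ∧
      (y : Matrix (Fin n) (Fin n) F) * (a : Matrix (Fin n) (Fin n) F)
        = ζ ^ k • ((a : Matrix (Fin n) (Fin n) F) * (y : Matrix (Fin n) (Fin n) F)) := by
  have hex : ∃ y ∈ H, a * y ≠ y * a := by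
    by_contra hcon
    push Not at hcon
    exact haZ (hB.cent a hcon)
  obtain ⟨y, hyH, hay⟩ := hex
  have hsZ := hB.comm_mem y hyH a ha
  have hsr := hB.comm_pow y hyH a ha
  obtain ⟨k, hk⟩ := esdual_scalar r hr hn ζ hζ hζ1 _ hsZ hsr
  have h1 : y * a = (y * a * y⁻¹ * a⁻¹) * (a * y) := by group
  refine ⟨y, k, ?_, ?_⟩
  · intro hdvd
    obtain ⟨c, rfl⟩ := hdvd
    rw [pow_mul, hζ, one_pow, one_smul] at hk
    apply hay
    have h2 : y * a * y⁻¹ * a⁻¹ = 1 := Units.ext hk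
    rw [h2, one_mul] at h1
    exact h1.symm
  · have h2 : ((y * a : Matrix.GeneralLinearGroup (Fin n) F) : Matrix (Fin n) (Fin n) F) =
        (((y * a * y⁻¹ * a⁻¹) * (a * y) : Matrix.GeneralLinearGroup (Fin n) F) :
          Matrix (Fin n) (Fin n) F) := congrArg Units.val h1
    rw [Units.val_mul, Units.val_mul (y * a * y⁻¹ * a⁻¹), hk, Units.val_mul, Matrix.smul_mul,
      Matrix.one_mul] at h2
    exact h2

end Cfsg.Agent.Lib.Helper44.ES
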