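import Mathlib
import Cfsg.Agent.Lib.Helper44.ESDefs
import Cfsg.Prelude.Def_GeometricClasses

/-!
# S5877 piece ES-TRANS (for helper44)
-/

set_option autoImplicit false

namespace Cfsg.Agent.Lib.Helper44.ES

open Module Module.End

/-- a scalar matrix of `r`-th power one is `ζ ^ t • 1` -/
theorem estrans_scalar {n : ℕ} {F : Type*} [Field F] (r : ℕ) (hr : r.Prime) (hn : 0 < n)
    (ζ : F) (hζ : ζ ^ r = 1) (hζ1 : ζ ≠ 1) (s : Matrix.GeneralLinearGroup (Fin n) F)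
    (hs : s ∈ Cfsg.Geo.scalars (Fin n) F) (hsr : s ^ r = 1) :
    ∃ t : ℕ, (s : Matrix (Fin n) (Fin n) F) = ζ ^ t • (1 : Matrix (Fin n) (Fin n) F) := by
  obtain ⟨σ, hσ⟩ := (Cfsg.Geo.mem_scalars_iff s).mp hs
  have hσr : (σ : F) ^ r = 1 := by
    have h1 : ((s ^ r : Matrix.GeneralLinearGroup (Fin n) F) : Matrix (Fin n) (Fin n) F) = 1 := by
      rw [hsr]
      rfl
    rw [Units.val_pow_eq_pow_val, hσ, smul_pow, one_pow] at h1
    have h2 := congrFun (congrFun h1 ⟨0, hn⟩) ⟨0, hn⟩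
    rw [Matrix.smul_apply, Matrix.one_apply_eq, smul_eq_mul, mul_one] at h2
    exact h2
  have : Fact r.Prime := ⟨hr⟩
  have hord : orderOf ζ = r := orderOf_eq_prime hζ hζ1
  have hprim : IsPrimitiveRoot ζ r := by
    rw [← hord]
    exact IsPrimitiveRoot.orderOf ζ
  have : NeZero r := ⟨hr.ne_zero⟩
  obtain ⟨k, _, hk'⟩ := hprim.eq_pow_of_pow_eq_one hσr
  exact ⟨k, by rw [hσ, hk']⟩

/-- iterated conjugation -/
theorem estrans_iter {G : Type*} [Group G] (g x a0 s0 : G) (hgx : g * x * g⁻¹ = x * (a0 * s0))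
    (hc1 : g * a0 = a0 * g) (hc2 : ∀ z : G, s0 * z = z * s0) (j : ℕ) :
    g ^ j * x * (g ^ j)⁻¹ = x * a0 ^ j * s0 ^ j := by
  induction j with
  | zero => simp
  | succ j ih =>
    have e1 : g ^ (j + 1) * x * (g ^ (j + 1))⁻¹ = g * (g ^ j * x * (g ^ j)⁻¹) * g⁻¹ := by
      rw [pow_succ', mul_inv_rev]
      simp only [mul_assoc]
    rw [e1, ih]
    have e2 : g * (x * a0 ^ j * s0 ^ j) * g⁻¹ =
        (g * x * g⁻¹) * (g * a0 ^ j * g⁻¹) * (g * s0 ^ j * g⁻¹) := by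
      simp only [mul_assoc, inv_mul_cancel_left]
    have hc1' : Commute g a0 := hc1
    have hc2' : Commute s0 g := hc2 g
    have e3 : g * a0 ^ j * g⁻¹ = a0 ^ j := by
      rw [(hc1'.pow_right j).eq, mul_inv_cancel_right]
    have e4 : g * s0 ^ j * g⁻¹ = s0 ^ j := by
      rw [((hc2'.pow_left j).symm).eq, mul_inv_cancel_right]
    have e5 : s0 * a0 ^ j = a0 ^ j * s0 := hc2 (a0 ^ j)
    rw [e2, hgx, e3, e4, pow_succ' a0, pow_succ' s0]
    calc x * (a0 * s0) * a0 ^ j * s0 ^ j = x * a0 * (s0 * a0 ^ j) * s0 ^ j := by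
          simp only [mul_assoc]
      _ = x * a0 * (a0 ^ j * s0) * s0 ^ j := by rw [e5]
      _ = x * (a0 * a0 ^ j) * (s0 * s0 ^ j) := by simp only [mul_assoc]

/-! ## ES-TRANS (ESDefs + Prelude) -/
theorem es_trans {n : ℕ} {F : Type*} [Field F] (R : Subgroup (Matrix.GeneralLinearGroup (Fin n) F))
    (g : Matrix.GeneralLinearGroup (Fin n) F) (r : ℕ) (hr : r.Prime) (hn : 0 < n)
    (ζ : F) (hζ : ζ ^ r = 1) (hζ1 : ζ ≠ 1)
    (hB : Base (R ⊔ Cfsg.Geo.scalars (Fin n) F) (Cfsg.Geo.scalars (Fin n) F) r)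
    (hexp : ∀ a ∈ R, a ^ r = 1) (hg : g ^ r = 1)
    (x a : Matrix.GeneralLinearGroup (Fin n) F) (hx : x ∈ R ⊔ Cfsg.Geo.scalars (Fin n) F)
    (ha : a ∈ R ⊔ Cfsg.Geo.scalars (Fin n) F)
    (hgx : g * x * g⁻¹ = x * a) (haZ : a ∉ Cfsg.Geo.scalars (Fin n) F) (hga : g * a = a * g) :
    ∃ (a' : Matrix.GeneralLinearGroup (Fin n) F) (t e : ℕ), a' ∈ R ∧ a' ∉ Cfsg.Geo.scalars (Fin n) F ∧
      a' ^ r = 1 ∧ g * a' = a' * g ∧
      (g : Matrix (Fin n) (Fin n) F) * (x : Matrix (Fin n) (Fin n) F)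
        = ζ ^ t • ((x : Matrix (Fin n) (Fin n) F) * (a' : Matrix (Fin n) (Fin n) F)
            * (g : Matrix (Fin n) (Fin n) F)) ∧
      (a' : Matrix (Fin n) (Fin n) F) * (x : Matrix (Fin n) (Fin n) F)
        = ζ ^ e • ((x : Matrix (Fin n) (Fin n) F) * (a' : Matrix (Fin n) (Fin n) F)) := by
  obtain ⟨a0, ha0, s0, hs0, rfl⟩ := Subgroup.mem_sup_of_normal_right.mp ha
  have hc2 : ∀ z : Matrix.GeneralLinearGroup (Fin n) F, s0 * z = z * s0 := hB.central s0 hs0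
  have ha0Z : a0 ∉ Cfsg.Geo.scalars (Fin n) F := fun h =>
    haZ ((Cfsg.Geo.scalars (Fin n) F).mul_mem h hs0)
  have hc1 : g * a0 = a0 * g := by
    have h1 : g * a0 * s0 = a0 * g * s0 := by
      calc g * a0 * s0 = g * (a0 * s0) := by rw [mul_assoc]
        _ = a0 * s0 * g := hga
        _ = a0 * (s0 * g) := by rw [mul_assoc]
        _ = a0 * (g * s0) := by rw [hc2 g]
        _ = a0 * g * s0 := by rw [mul_assoc]
    exact mul_right_cancel h1
  have hiter := estrans_iter g x a0 s0 hgx hc1 hc2 r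
  rw [hg, hexp a0 ha0, one_mul, inv_one, mul_one] at hiter
  have hs0r : s0 ^ r = 1 := by
    have h1 : x * 1 = x * s0 ^ r := (mul_one x).trans hiter
    exact (mul_left_cancel h1).symm
  obtain ⟨t, ht⟩ := estrans_scalar r hr hn ζ hζ hζ1 s0 hs0 hs0r
  have ha0H : a0 ∈ R ⊔ Cfsg.Geo.scalars (Fin n) F := Subgroup.mem_sup_left ha0
  have hcZ := hB.comm_mem a0 ha0H x hx
  have hcr := hB.comm_pow a0 ha0H x hx
  obtain ⟨e, he⟩ := estrans_scalar r hr hn ζ hζ hζ1 _ hcZ hcr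
  refine ⟨a0, t, e, ha0, ha0Z, hexp a0 ha0, hc1, ?_, ?_⟩
  · have h1 : g * x = s0 * (x * a0 * g) := by
      calc g * x = (g * x * g⁻¹) * g := by rw [inv_mul_cancel_right]
        _ = x * (a0 * s0) * g := by rw [hgx]
        _ = x * a0 * (s0 * g) := by simp only [mul_assoc]
        _ = x * a0 * (g * s0) := by rw [hc2 g]
        _ = (x * a0 * g) * s0 := by simp only [mul_assoc]
        _ = s0 * (x * a0 * g) := (hc2 _).symm
    have h2 : ((g * x : Matrix.GeneralLinearGroup (Fin n) F) : Matrix (Fin n) (Fin n) F) =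
        ((s0 * (x * a0 * g) : Matrix.GeneralLinearGroup (Fin n) F) : Matrix (Fin n) (Fin n) F) :=
      congrArg Units.val h1
    rw [Units.val_mul, Units.val_mul s0, ht, Units.val_mul, Units.val_mul, Matrix.smul_mul,
      Matrix.one_mul] at h2
    exact h2
  · have h1 : a0 * x = (a0 * x * a0⁻¹ * x⁻¹) * (x * a0) := by group
    have h2 : ((a0 * x : Matrix.GeneralLinearGroup (Fin n) F) : Matrix (Fin n) (Fin n) F) =
        (((a0 * x * a0⁻¹ * x⁻¹) * (x * a0) : Matrix.GeneralLinearGroup (Fin n) F) :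
          Matrix (Fin n) (Fin n) F) := congrArg Units.val h1
    rw [Units.val_mul, Units.val_mul (a0 * x * a0⁻¹ * x⁻¹), he, Units.val_mul, Matrix.smul_mul,
      Matrix.one_mul] at h2
    exact h2

end Cfsg.Agent.Lib.Helper44.ES
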