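import Mathlib
import Cfsg.Agent.Lib.Helper97.FCDefs
import Cfsg.Agent.Lib.Helper12.Ward2

/-!
# S5115 piece FC-MAP `fc_map` (helper46, for helper97)
-/

set_option autoImplicit false

namespace Cfsg.Agent.Lib.Helper46.FC

open Cfsg.Agent.Lib.Helper97.FC
open Cfsg.Agent.Lib.Helper12.Ward (conj_mem_of_nz conj_mem_of_nz' nz_of_conj_mem)

universe u

theorem fc_map : MapStmt.{u} := by
  intro G G' _ _ _ p _ e S Q hS hQ
  obtain ⟨hQS, hExt, hCen⟩ := hQ
  have hinj : Function.Injective e := e.injective
  -- membership in an image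
  have hmem : ∀ (H : Subgroup G) (x : G), e x ∈ H.map e.toMonoidHom → x ∈ H := by
    intro H x hx
    obtain ⟨y, hy, hyx⟩ := Subgroup.mem_map.mp hx
    have : y = x := hinj hyx
    rw [← this]
    exact hy
  have hmem' : ∀ (H : Subgroup G) (x : G), x ∈ H → e x ∈ H.map e.toMonoidHom :=
    fun H x hx => Subgroup.mem_map_of_mem e.toMonoidHom hx
  refine ⟨?_, Subgroup.map_mono hQS, ?_, ?_⟩
  · obtain ⟨R, rfl⟩ := hS
    have hsurj : Function.Surjective e.toMonoidHom := e.surjective
    exact ⟨R.mapSurjective hsurj, rfl⟩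
  · intro P' hP' g' hg'
    have hP : P'.comap e.toMonoidHom ≤ S := by
      intro x hx
      exact hmem S x (hP' (Subgroup.mem_comap.mp hx))
    have hg : ∀ x ∈ P'.comap e.toMonoidHom, e.symm g' * x * (e.symm g')⁻¹ ∈ S := by
      intro x hx
      apply hmem S
      have h1 : e (e.symm g' * x * (e.symm g')⁻¹) = g' * e x * g'⁻¹ := by
        rw [map_mul, map_mul, map_inv, MulEquiv.apply_symm_apply]
      rw [h1]
      exact hg' (e x) (Subgroup.mem_comap.mp hx)
    obtain ⟨n, hn, hnx⟩ := hExt (P'.comap e.toMonoidHom) hP (e.symm g') hg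
    refine ⟨e n, ?_, ?_⟩
    · apply nz_of_conj_mem
      · intro x' hx'
        obtain ⟨x, hx, rfl⟩ := Subgroup.mem_map.mp hx'
        have h1 : e n * e.toMonoidHom x * (e n)⁻¹ = e (n * x * n⁻¹) := by
          rw [map_mul, map_mul, map_inv]
          rfl
        rw [h1]
        exact hmem' Q _ (conj_mem_of_nz hn hx)
      · intro x' hx'
        obtain ⟨x, hx, rfl⟩ := Subgroup.mem_map.mp hx'
        have h1 : (e n)⁻¹ * e.toMonoidHom x * e n = e (n⁻¹ * x * n) := by
          rw [map_mul, map_mul, map_inv]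
          rfl
        rw [h1]
        exact hmem' Q _ (conj_mem_of_nz' hn hx)
    · intro x' hx'
      have hx : e.symm x' ∈ P'.comap e.toMonoidHom := by
        rw [Subgroup.mem_comap]
        show e (e.symm x') ∈ P'
        rw [MulEquiv.apply_symm_apply]
        exact hx'
      have h1 := hnx (e.symm x') hx
      have h2 := congrArg e h1
      rw [map_mul, map_mul, map_inv, map_mul, map_mul, map_inv, MulEquiv.apply_symm_apply,
        MulEquiv.apply_symm_apply] at h2
      exact h2
  · intro z' hz' hcomm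
    obtain ⟨z, hz, rfl⟩ := Subgroup.mem_map.mp hz'
    apply hmem' Q
    apply hCen z hz
    intro x hx
    apply hinj
    have h1 := hcomm (e x) (hmem' Q x hx)
    rw [map_mul, map_mul]
    exact h1

end Cfsg.Agent.Lib.Helper46.FC
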