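import Mathlib
import Cfsg.Agent.Lib.Helper97.FCDefs
import Cfsg.Agent.Lib.Helper12.Ward2
import Cfsg.Agent.Lib.Helper88.GrpSat

/-!
# S5115 piece FC-OUT `fc_out` (helper46, for helper97)
-/

set_option autoImplicit false

namespace Cfsg.Agent.Lib.Helper46.FC

open Cfsg.Agent.Lib.Helper97.FC
open Cfsg.Agent.Lib.Helper12.Ward (conj_mem_of_nz conj_mem_of_nz' nz_of_conj_mem)

universe u

theorem fc_out : OutStmt.{u} := by
  intro G _ _ p _ S Q hS hQ
  obtain ⟨R, rfl⟩ := hS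
  obtain ⟨hQS, hExt, hCen⟩ := hQ
  refine ⟨Cfsg.Agent.Lib.Helper88.groupFusionSystem_isSaturated R, Q, ?_, ?_⟩
  · -- `Q` is normal in the fusion system
    refine ⟨hQS, ?_⟩
    intro P φ hφ
    have hφ' : P ≤ (R : Subgroup G) ∧ (∀ x : P, φ x ∈ (R : Subgroup G)) ∧
        ∃ g : G, ∀ x : P, φ x = g * (x : G) * g⁻¹ := hφ
    obtain ⟨hPS, hφS, g, hg⟩ := hφ'
    have hgS : ∀ x ∈ P, g * x * g⁻¹ ∈ (R : Subgroup G) := by
      intro x hx
      have h1 := hφS ⟨x, hx⟩
      rw [hg] at h1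
      exact h1
    obtain ⟨n, hn, hnx⟩ := hExt P hPS g hgS
    have hle : P ⊔ Q ≤ (R : Subgroup G).comap (MulAut.conj n).toMonoidHom := by
      apply sup_le
      · intro x hx
        rw [Subgroup.mem_comap]
        show n * x * n⁻¹ ∈ (R : Subgroup G)
        rw [hnx x hx]
        exact hgS x hx
      · intro x hx
        rw [Subgroup.mem_comap]
        show n * x * n⁻¹ ∈ (R : Subgroup G)
        exact hQS (conj_mem_of_nz hn hx)
    have hmemHom : Cfsg.conjHom (P ⊔ Q) n ∈ (Cfsg.groupFusionSystem (R : Subgroup G)).Hom (P ⊔ Q) := by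
      refine ⟨sup_le hPS hQS, fun x => ?_, n, fun x => rfl⟩
      have h1 := hle x.2
      rw [Subgroup.mem_comap] at h1
      exact h1
    refine ⟨Cfsg.conjHom (P ⊔ Q) n, hmemHom, ?_, ?_⟩
    · intro x
      show n * (x : G) * n⁻¹ = φ x
      rw [hg x]
      exact hnx x x.2
    · ext y
      constructor
      · rintro ⟨x, hx, rfl⟩
        show n * (x : G) * n⁻¹ ∈ Q
        exact conj_mem_of_nz hn (Subgroup.mem_subgroupOf.mp hx)
      · intro hy
        have hy' : n⁻¹ * y * n ∈ Q := conj_mem_of_nz' hn hy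
        refine ⟨⟨n⁻¹ * y * n, (le_sup_right : Q ≤ P ⊔ Q) hy'⟩, ?_, ?_⟩
        · exact Subgroup.mem_subgroupOf.mpr hy'
        · show n * (n⁻¹ * y * n) * n⁻¹ = y
          group
  · -- `Q` is centric
    refine ⟨hQS, ?_⟩
    intro Q' hconj
    obtain ⟨φ, hφ, hrange⟩ := hconj
    have hφ' : Q ≤ (R : Subgroup G) ∧ (∀ x : Q, φ x ∈ (R : Subgroup G)) ∧
        ∃ g : G, ∀ x : Q, φ x = g * (x : G) * g⁻¹ := hφ
    obtain ⟨-, hφS, g, hg⟩ := hφ'
    have hgS : ∀ x ∈ Q, g * x * g⁻¹ ∈ (R : Subgroup G) := by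
      intro x hx
      have h1 := hφS ⟨x, hx⟩
      rw [hg] at h1
      exact h1
    obtain ⟨n, hn, hnx⟩ := hExt Q hQS g hgS
    have hQ' : Q' = Q := by
      rw [← hrange]
      ext y
      constructor
      · rintro ⟨x, rfl⟩
        rw [hg x, ← hnx x x.2]
        exact conj_mem_of_nz hn x.2
      · intro hy
        have hy' : n⁻¹ * y * n ∈ Q := conj_mem_of_nz' hn hy
        refine ⟨⟨n⁻¹ * y * n, hy'⟩, ?_⟩
        rw [hg, ← hnx _ hy']
        show n * (n⁻¹ * y * n) * n⁻¹ = y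
        group
    rw [hQ']
    intro z hz
    have hz' : z ∈ (R : Subgroup G) ⊓ Subgroup.centralizer (Q : Set G) := hz
    obtain ⟨hzS, hzC⟩ := Subgroup.mem_inf.mp hz'
    apply hCen z hzS
    intro x hx
    exact (Subgroup.mem_centralizer_iff.mp hzC x hx).symm

end Cfsg.Agent.Lib.Helper46.FC
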