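import Mathlib
import Cfsg.Agent.Lib.Helper92.FT12Defs

/-!
# S1421 (B&G Theorem 12.12), piece FT-INTER (helper46 for helper92)

Intersecting subgroups of prime power index for distinct primes.
-/

set_option autoImplicit false

namespace Cfsg.Agent.Lib.Helper46.FT12

open Cfsg Cfsg.Agent.Lib.Helper92.FT
open scoped Pointwise

universe u

/-- an `r`-element of `K` is conjugate into a subgroup `H ≤ K` of index prime to `r` -/
theorem inter_conj_into {G : Type u} [Group G] [Finite G] (H K : Subgroup G) (r : ℕ)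
    (hr : r.Prime) (hidx : ¬ r ∣ H.relIndex K) (x : G) (hx : x ∈ K) (hxr : PElt r x) :
    ∃ y ∈ H, orderOf y = orderOf x := by
  haveI : Fact r.Prime := ⟨hr⟩
  obtain ⟨k, hk⟩ := hxr
  have hH'idx : ¬ r ∣ (H.subgroupOf K).index := hidx
  obtain ⟨S⟩ : Nonempty (Sylow r ↥(H.subgroupOf K)) := inferInstance
  have hS'p : IsPGroup r ((S : Subgroup ↥(H.subgroupOf K)).map (H.subgroupOf K).subtype) :=
    S.2.map _
  have hS'idx : ¬ r ∣ ((S : Subgroup ↥(H.subgroupOf K)).map (H.subgroupOf K).subtype).index := by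
    rw [Subgroup.index_map_subtype]
    intro h
    rcases (Nat.Prime.dvd_mul hr).mp h with h | h
    · exact S.not_dvd_index h
    · exact hH'idx h
  have hxp : IsPGroup r (Subgroup.zpowers (⟨x, hx⟩ : ↥K)) := by
    apply IsPGroup.of_card (n := k)
    rw [Nat.card_zpowers, Subgroup.orderOf_mk, hk]
  obtain ⟨P, hP⟩ := hxp.exists_le_sylow
  obtain ⟨g, hg⟩ := MulAction.exists_smul_eq ↥K P (hS'p.toSylow hS'idx)
  have hmem : g * ⟨x, hx⟩ * g⁻¹ ∈ ((hS'p.toSylow hS'idx : Sylow r ↥K) : Subgroup ↥K) := by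
    rw [← hg]
    show g * ⟨x, hx⟩ * g⁻¹ ∈ MulAut.conj g • (P : Subgroup ↥K)
    exact (Subgroup.mem_smul_pointwise_iff_exists _ _ _).mpr
      ⟨⟨x, hx⟩, hP (Subgroup.mem_zpowers _), rfl⟩
  have hmem' : g * ⟨x, hx⟩ * g⁻¹ ∈
      (S : Subgroup ↥(H.subgroupOf K)).map (H.subgroupOf K).subtype := hmem
  obtain ⟨s, -, hs⟩ := hmem'
  refine ⟨((g * ⟨x, hx⟩ * g⁻¹ : ↥K) : G), ?_, ?_⟩
  · have h1 : (g * ⟨x, hx⟩ * g⁻¹ : ↥K) ∈ H.subgroupOf K := by
      rw [← hs]
      exact s.2
    exact Subgroup.mem_subgroupOf.mp h1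
  · rw [Subgroup.orderOf_coe]
    have h2 : orderOf (g * ⟨x, hx⟩ * g⁻¹) = orderOf (⟨x, hx⟩ : ↥K) :=
      (MulAut.conj g).orderOf_eq (⟨x, hx⟩ : ↥K)
    rw [h2]
    exact Subgroup.orderOf_mk x hx

/-- the index of the intersection of two subgroups of coprime indices -/
theorem inter_relIndex_inf {G : Type u} [Group G] [Finite G] (H K E : Subgroup G)
    (h : (H.relIndex E).Coprime (K.relIndex E)) :
    (H ⊓ K).relIndex E = H.relIndex E * K.relIndex E := by
  have h1 : H.relIndex E ∣ (H ⊓ K).relIndex E := Subgroup.relIndex_dvd_of_le_left E inf_le_left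
  have h2 : K.relIndex E ∣ (H ⊓ K).relIndex E := Subgroup.relIndex_dvd_of_le_left E inf_le_right
  have h3 : H.relIndex E * K.relIndex E ∣ (H ⊓ K).relIndex E := h.mul_dvd_of_dvd_of_dvd h1 h2
  have h4 : (H ⊓ K).relIndex E ≤ H.relIndex E * K.relIndex E := Subgroup.relIndex_inf_le
  have h5 : (H ⊓ K).relIndex E ≠ 0 := by
    intro h0
    have h6 : (H ⊓ K).relIndex E ∣ Nat.card E := Subgroup.relIndex_dvd_card _ _
    rw [h0, zero_dvd_iff] at h6
    exact Nat.card_pos.ne' h6
  exact le_antisymm h4 (Nat.le_of_dvd (Nat.pos_of_ne_zero h5) h3)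

/-- the primes dividing the index of a finite intersection of subgroups of prime power index -/
theorem inter_primes {G : Type u} [Group G] [Finite G] (E : Subgroup G) (Ep : ℕ → Subgroup G)
    (s : Finset ℕ) (hs : ∀ p ∈ s, ∀ r : ℕ, r.Prime → r ≠ p → ¬ r ∣ (Ep p).relIndex E) :
    ∀ r : ℕ, r.Prime → r ∣ (s.inf Ep).relIndex E → r ∈ s := by
  classical
  induction s using Finset.induction_on with
  | empty =>
    intro r hr hdvd
    rw [Finset.inf_empty, Subgroup.relIndex_top_left] at hdvd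
    exact absurd (Nat.dvd_one.mp hdvd) hr.one_lt.ne'
  | insert a s ha ih =>
    intro r hr hdvd
    have ih' := ih (fun p hp => hs p (Finset.mem_insert_of_mem hp))
    have ha' := hs a (Finset.mem_insert_self a s)
    have hcop : ((Ep a).relIndex E).Coprime ((s.inf Ep).relIndex E) := by
      apply Nat.Coprime.symm
      apply Nat.coprime_of_dvd
      intro k hk hk1 hk2
      have hks : k ∈ s := ih' k hk hk1
      have hka : k ≠ a := fun h => ha (h ▸ hks)
      exact ha' k hk hka hk2
    rw [Finset.inf_insert, inter_relIndex_inf _ _ _ hcop] at hdvd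
    rcases (Nat.Prime.dvd_mul hr).mp hdvd with h | h
    · by_cases hra : r = a
      · rw [hra]
        exact Finset.mem_insert_self a s
      · exact absurd h (ha' r hr hra)
    · exact Finset.mem_insert_of_mem (ih' r hr h)

theorem inter : InterStmt.{u} := by
  intro G _ _ E T Ep hT hEp
  classical
  obtain ⟨s, hs⟩ : ∃ s : Finset ℕ, ∀ p, p ∈ s ↔ p ∈ T ∧ p ∣ Nat.card E :=
    ⟨(Nat.card E).primeFactors.filter (· ∈ T), by
      intro p
      rw [Finset.mem_filter, Nat.mem_primeFactors]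
      constructor
      · rintro ⟨⟨-, h2, -⟩, h1⟩
        exact ⟨h1, h2⟩
      · rintro ⟨h1, h2⟩
        exact ⟨⟨hT p h1, h2, Nat.card_pos.ne'⟩, h1⟩⟩
  have hsT : ∀ p ∈ s, p ∈ T := fun p hp => ((hs p).mp hp).1
  have hK1 := inter_primes E Ep s (fun p hp => (hEp p (hsT p hp)).2)
  have hout : ∀ p ∈ T, p ∉ s → E ≤ Ep p := by
    intro p hpT hps
    rw [← Subgroup.relIndex_eq_one]
    by_contra hne
    obtain ⟨r, hr, hrd⟩ := Nat.exists_prime_and_dvd hne
    have hrp : r = p := by
      by_contra hrp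
      exact (hEp p hpT).2 r hr hrp hrd
    apply hps
    rw [hs]
    refine ⟨hpT, ?_⟩
    rw [← hrp]
    exact hrd.trans (Subgroup.relIndex_dvd_card _ _)
  have hle : ∀ p ∈ T, E ⊓ s.inf Ep ≤ Ep p := by
    intro p hpT
    by_cases hps : p ∈ s
    · exact inf_le_right.trans (Finset.inf_le hps)
    · exact inf_le_left.trans (hout p hpT hps)
  refine ⟨E ⊓ s.inf Ep, inf_le_left, hle, ?_, ?_⟩
  · intro x hx r hr hrT hxr
    apply inter_conj_into (E ⊓ s.inf Ep) E r hr _ x hx hxr
    rw [Subgroup.inf_relIndex_left]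
    intro hdvd
    exact hrT (hsT r (hK1 r hr hdvd))
  · intro p hpT x hx hxp
    have hp := hT p hpT
    apply inter_conj_into (E ⊓ s.inf Ep) (Ep p) p hp _ x hx hxp
    have hEpE := (hEp p hpT).1
    have h1 : (E ⊓ s.inf Ep).relIndex (Ep p) = ((s.erase p).inf Ep).relIndex (Ep p) := by
      rw [← Subgroup.inf_relIndex_right (E ⊓ s.inf Ep) (Ep p),
        ← Subgroup.inf_relIndex_right ((s.erase p).inf Ep) (Ep p)]
      congr 1
      apply le_antisymm
      · apply le_inf _ inf_le_right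
        exact (inf_le_left.trans inf_le_right).trans (Finset.inf_mono (Finset.erase_subset p s))
      · apply le_inf _ inf_le_right
        apply le_inf (inf_le_right.trans hEpE)
        apply Finset.le_inf
        intro q hq
        by_cases hqp : q = p
        · rw [hqp]
          exact inf_le_right
        · exact inf_le_left.trans (Finset.inf_le (Finset.mem_erase.mpr ⟨hqp, hq⟩))
    have hK1' := inter_primes E Ep (s.erase p)
      (fun q hq => (hEp q (hsT q (Finset.mem_of_mem_erase hq))).2)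
    have hcop : (((s.erase p).inf Ep).relIndex E).Coprime ((Ep p).relIndex E) := by
      apply Nat.coprime_of_dvd
      intro k hk hk1 hk2
      have hks : k ∈ s.erase p := hK1' k hk hk1
      have hkp : k ≠ p := (Finset.mem_erase.mp hks).1
      exact (hEp p hpT).2 k hk hkp hk2
    have h2 : ((s.erase p).inf Ep).relIndex (Ep p) * (Ep p).relIndex E =
        ((s.erase p).inf Ep ⊓ Ep p).relIndex E := by
      have h := Subgroup.relIndex_inf_mul_relIndex ((s.erase p).inf Ep) (Ep p) E
      rwa [inf_eq_left.mpr hEpE] at h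
    rw [inter_relIndex_inf _ _ _ hcop] at h2
    have hpos : 0 < (Ep p).relIndex E := by
      apply Nat.pos_of_ne_zero
      intro h0
      have h6 : (Ep p).relIndex E ∣ Nat.card E := Subgroup.relIndex_dvd_card _ _
      rw [h0, zero_dvd_iff] at h6
      exact Nat.card_pos.ne' h6
    have h3 : ((s.erase p).inf Ep).relIndex (Ep p) = ((s.erase p).inf Ep).relIndex E :=
      Nat.eq_of_mul_eq_mul_right hpos h2
    rw [h1, h3]
    intro hdvd
    exact (Finset.mem_erase.mp (hK1' p hp hdvd)).1 rfl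

end Cfsg.Agent.Lib.Helper46.FT12
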