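import Cfsg.Agent.Lib.Helper98.H74Defs
import Cfsg.Agent.Lib.Helper40.H74COMPL

/-!
# Project H74 (S5974), piece TRANS

Witt for typed nondegenerate subspaces: the isometry group is transitive on the nondegenerate
subspaces of a given dimension and type.  `typed_trans_of` takes the sibling piece COMPL
(`subtyp_compl`) as a hypothesis; `typed_trans` uses `Helper40/H74COMPL.lean`.
-/

set_option autoImplicit false

namespace Cfsg.Agent.Lib.Helper98.H74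

open Cfsg.Agent.Lib.Helper47 Cfsg.Agent.Lib.Helper98.T73 Module Polynomial

universe u

variable {F : Type u} [Field F] [Fintype F] {V : Type u} [AddCommGroup V] [Module F V]
  [FiniteDimensional F V] {Q : V → F} {B : V → V → F}

/-- gluing two isometries along orthogonal decompositions -/
theorem TRANS_glue (hQ : IsQuad Q B) (W Y W' Y' : Submodule F V)
    (hWY : ∀ x ∈ W, ∀ y ∈ Y, B x y = 0) (hc : IsCompl W Y)
    (hWY' : ∀ x ∈ W', ∀ y ∈ Y', B x y = 0) (hc' : IsCompl W' Y')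
    (φ₁ : W ≃ₗ[F] W') (h₁ : ∀ w : W, Q (φ₁ w : V) = Q (w : V))
    (φ₂ : Y ≃ₗ[F] Y') (h₂ : ∀ y : Y, Q (φ₂ y : V) = Q (y : V)) :
    ∃ φ : V ≃ₗ[F] V, (∀ v, Q (φ v) = Q v) ∧ W.map (φ : V →ₗ[F] V) = W' := by
  have hφ : ∀ (w : W) (y : Y),
      (((Submodule.prodEquivOfIsCompl W Y hc).symm.trans (φ₁.prodCongr φ₂)).trans
        (Submodule.prodEquivOfIsCompl W' Y' hc')) ((w : V) + (y : V)) =
        (φ₁ w : V) + (φ₂ y : V) := by
    intro w y
    have e : (w : V) + (y : V) = Submodule.prodEquivOfIsCompl W Y hc (w, y) := by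
      rw [Submodule.coe_prodEquivOfIsCompl']
    rw [LinearEquiv.trans_apply, LinearEquiv.trans_apply, e, LinearEquiv.symm_apply_apply,
      Submodule.coe_prodEquivOfIsCompl']
    rfl
  refine ⟨((Submodule.prodEquivOfIsCompl W Y hc).symm.trans (φ₁.prodCongr φ₂)).trans
        (Submodule.prodEquivOfIsCompl W' Y' hc'), ?_, ?_⟩
  · intro v
    obtain ⟨⟨w, y⟩, rfl⟩ := (Submodule.prodEquivOfIsCompl W Y hc).surjective v
    rw [Submodule.coe_prodEquivOfIsCompl', hφ, hQ.polar, hQ.polar, h₁, h₂,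
      hWY' _ (φ₁ w).2 _ (φ₂ y).2, hWY _ w.2 _ y.2]
  · apply le_antisymm
    · rintro _ ⟨w, hw, rfl⟩
      have h3 := hφ ⟨w, hw⟩ 0
      simp only [Submodule.coe_zero, add_zero, map_zero] at h3
      rw [LinearEquiv.coe_coe, h3]
      exact (φ₁ ⟨w, hw⟩).2
    · intro w' hw'
      refine ⟨(φ₁.symm ⟨w', hw'⟩ : V), (φ₁.symm ⟨w', hw'⟩).2, ?_⟩
      have h3 := hφ (φ₁.symm ⟨w', hw'⟩) 0
      simp only [Submodule.coe_zero, add_zero, map_zero, LinearEquiv.apply_symm_apply] at h3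
      rw [LinearEquiv.coe_coe, h3]

/-- TRANS, with the sibling piece COMPL (`subtyp_compl`) as a hypothesis -/
theorem typed_trans_of (hf : QFacts F) (hQ : IsQuad Q B) (hnd : Nondeg B) (d : ℕ)
    (hdim : finrank F V = 2 * d) (ε : ℤ) (htyp : IsTyp Q (d - 1) ε) (k : ℕ) (τ : ℤ)
    (hcompl : k + 2 ≤ d → ∀ X : Submodule F V, SubTyp Q B X k τ → ∃ Y : Submodule F V,
      (∀ x ∈ X, ∀ y ∈ Y, B x y = 0) ∧ X ⊔ Y = ⊤ ∧ X ⊓ Y = ⊥ ∧
        SubTyp Q B Y (d - k - 2) (ε * τ))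
    (W W' : Submodule F V) (hW : SubTyp Q B W k τ) (hW' : SubTyp Q B W' k τ) :
    ∃ φ : V ≃ₗ[F] V, (∀ v, Q (φ v) = Q v) ∧ W.map (φ : V →ₗ[F] V) = W' := by
  have hle : 2 * k + 2 ≤ 2 * d := by
    rw [← hW.2.1, ← hdim]
    exact Submodule.finrank_le W
  by_cases hk : k + 2 ≤ d
  · obtain ⟨Y, hWY, hsup, hinf, hY⟩ := hcompl hk W hW
    obtain ⟨Y', hWY', hsup', hinf', hY'⟩ := hcompl hk W' hW'
    have hc : IsCompl W Y := ⟨disjoint_iff.2 hinf, codisjoint_iff.2 hsup⟩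
    have hc' : IsCompl W' Y' := ⟨disjoint_iff.2 hinf', codisjoint_iff.2 hsup'⟩
    obtain ⟨φ₁, h₁⟩ := hf.isometric k τ (↥W) (↥W') (fun w : W => Q (w : V)) (resForm B W)
      (fun w : W' => Q (w : V)) (resForm B W') (hQ.res W) hW.1 hW.2.1 (hQ.res W') hW'.1
      hW'.2.1 hW.2.2 hW'.2.2
    obtain ⟨φ₂, h₂⟩ := hf.isometric (d - k - 2) (ε * τ) (↥Y) (↥Y') (fun w : Y => Q (w : V))
      (resForm B Y) (fun w : Y' => Q (w : V)) (resForm B Y') (hQ.res Y) hY.1 hY.2.1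
      (hQ.res Y') hY'.1 hY'.2.1 hY.2.2 hY'.2.2
    exact TRANS_glue hQ W Y W' Y' hWY hc hWY' hc' φ₁ h₁ φ₂ h₂
  · have hkd : 2 * k + 2 = 2 * d := by omega
    have e1 : W = ⊤ := Submodule.eq_top_of_finrank_eq (by rw [hW.2.1, hdim, hkd])
    have e2 : W' = ⊤ := Submodule.eq_top_of_finrank_eq (by rw [hW'.2.1, hdim, hkd])
    refine ⟨LinearEquiv.refl F V, fun v => rfl, ?_⟩
    rw [e1, e2]
    simp

/-- TRANS -/
theorem typed_trans (hf : QFacts F) (hQ : IsQuad Q B) (hnd : Nondeg B) (d : ℕ)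
    (hdim : finrank F V = 2 * d) (ε : ℤ) (htyp : IsTyp Q (d - 1) ε) (k : ℕ) (τ : ℤ)
    (W W' : Submodule F V) (hW : SubTyp Q B W k τ) (hW' : SubTyp Q B W' k τ) :
    ∃ φ : V ≃ₗ[F] V, (∀ v, Q (φ v) = Q v) ∧ W.map (φ : V →ₗ[F] V) = W' :=
  typed_trans_of hf hQ hnd d hdim ε htyp k τ
    (fun hk X hX => by
      obtain ⟨Y, h1, h2, h3, h4, _⟩ := subtyp_compl hf hQ hnd d hdim ε htyp X k τ hX hk
      exact ⟨Y, h1, h2, h3, h4⟩) W W' hW hW'

end Cfsg.Agent.Lib.Helper98.H74
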