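import Mathlib
import Cfsg.Agent.Lib.Helper22.HPDefs
import Cfsg.Agent.Lib.Helper83.IrrBasic
import Cfsg.Agent.Lib.Helper83.Ortho
import Cfsg.Agent.Lib.Helper83.Central
import Cfsg.Agent.Lib.Helper80.Twisted
import Cfsg.Agent.Lib.Helper82.PQ
import Cfsg.Agent.Lib.Helper68.BFPDEC
import Cfsg.Agent.Lib.Helper63.BFS1E

/-!
# S4504, piece HP-SS-QUAD (helper46 for helper84)

The quadratic form computation (G3 of note 1792) from the ETA facts.
-/

set_option autoImplicit false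

namespace Cfsg.Agent.Lib.Helper46.HPT

open Cfsg Cfsg.Agent.Lib.Helper22.BFD Cfsg.Agent.Lib.Helper22.HPD
open scoped ComplexConjugate

universe u

/-- SUB-PIECE SS-QUAD (G3 of note 1792): pure computation from the ETA facts. -/
theorem hp_quad (p : ℕ) [Fact p.Prime] (ζ : ℂ)
    (hη : (Sq p).card = (p - 1) / 2 ∧ eta p ζ 0 = (((p - 1) / 2 : ℕ) : ℂ) ∧
      (∑ t : ZMod p, eta p ζ t = 0) ∧
      (∀ k ∈ Sq p, ∀ t : ZMod p, eta p ζ (k * t) = eta p ζ t) ∧
      (∑ t : ZMod p, eta p ζ t * conj (eta p ζ t) = ((p * ((p - 1) / 2) : ℕ) : ℂ)) ∧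
      (∀ s : ZMod p, s ≠ 0 → s ∉ Sq p →
        (∑ t : ZMod p, eta p ζ t * conj (eta p ζ (s * t)) = 0) ∧
        ∀ t : ZMod p, t ≠ 0 → eta p ζ t + eta p ζ (s * t) = -1 ∧
          ‖eta p ζ t - eta p ζ (s * t)‖ ^ 2 = (p : ℝ)))
    (e : ℕ) (he : 2 * e + 1 = p) (s : ZMod p) (hs0 : s ≠ 0) (hs : s ∉ Sq p) (γ α β : ℕ) :
    ∑ t ∈ Finset.univ.filter (fun t : ZMod p => t ≠ 0),
        ‖(γ : ℂ) + (α : ℂ) * eta p ζ t + (β : ℂ) * eta p ζ (s * t)‖ ^ 2 =
      (e : ℝ) * (((γ : ℝ) - α) ^ 2 + ((γ : ℝ) - β) ^ 2 + e * ((α : ℝ) - β) ^ 2) := by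
  obtain ⟨-, h2, h3, -, h5, h6⟩ := hη
  obtain ⟨-, h7⟩ := h6 s hs0 hs
  have hpe : (p - 1) / 2 = e := by omega
  rw [hpe] at h2 h5
  have hterm : ∀ t ∈ Finset.univ.filter (fun t : ZMod p => t ≠ 0),
      ‖(γ : ℂ) + (α : ℂ) * eta p ζ t + (β : ℂ) * eta p ζ (s * t)‖ ^ 2 =
        ((γ : ℝ) - β) ^ 2 + 2 * ((γ : ℝ) - β) * ((α : ℝ) - β) * (eta p ζ t).re +
          ((α : ℝ) - β) ^ 2 * Complex.normSq (eta p ζ t) := by
    intro t ht
    have ht0 : t ≠ 0 := (Finset.mem_filter.mp ht).2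
    have h := (h7 t ht0).1
    have h' : eta p ζ (s * t) = -1 - eta p ζ t := by linear_combination h
    rw [h', ← Complex.normSq_eq_norm_sq]
    rw [Complex.normSq_apply, Complex.normSq_apply]
    simp
    ring
  rw [Finset.sum_congr rfl hterm]
  rw [Finset.sum_add_distrib, Finset.sum_add_distrib, ← Finset.mul_sum, ← Finset.mul_sum]
  -- the three sums
  have hfil : Finset.univ.filter (fun t : ZMod p => t ≠ 0) = Finset.univ.erase (0 : ZMod p) := by
    ext t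
    simp
  have hcard : (Finset.univ.filter (fun t : ZMod p => t ≠ 0)).card = 2 * e := by
    rw [hfil, Finset.card_erase_of_mem (Finset.mem_univ _), Finset.card_univ, ZMod.card]
    omega
  have hsum1 : ∑ t ∈ Finset.univ.filter (fun t : ZMod p => t ≠ 0), (eta p ζ t).re = -(e : ℝ) := by
    rw [hfil, Finset.sum_erase_eq_sub (Finset.mem_univ _)]
    have : ∑ t : ZMod p, (eta p ζ t).re = 0 := by
      rw [← Complex.re_sum, h3]
      simp
    rw [this, h2]
    simp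
  have hsum2 : ∑ t ∈ Finset.univ.filter (fun t : ZMod p => t ≠ 0),
      Complex.normSq (eta p ζ t) = (p : ℝ) * e - (e : ℝ) ^ 2 := by
    rw [hfil, Finset.sum_erase_eq_sub (Finset.mem_univ _)]
    have : ∑ t : ZMod p, Complex.normSq (eta p ζ t) = (p : ℝ) * e := by
      have h5' : ((∑ t : ZMod p, Complex.normSq (eta p ζ t) : ℝ) : ℂ) = (((p : ℝ) * e : ℝ) : ℂ) := by
        rw [Complex.ofReal_sum]
        rw [← Finset.sum_congr rfl (fun t _ => Complex.mul_conj (eta p ζ t))]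
        rw [h5]
        push_cast
        ring
      exact_mod_cast h5'
    rw [this, h2]
    simp [Complex.normSq_apply]
    ring
  rw [hsum1, hsum2]
  simp only [Finset.sum_const, hcard, nsmul_eq_mul]
  have hp' : (p : ℝ) = 2 * e + 1 := by
    rw [← he]; push_cast; ring
  rw [hp']
  push_cast
  ring

end Cfsg.Agent.Lib.Helper46.HPT
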