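import Cfsg.Agent.Lib.Helper96.HyDefs

/-!
Project HY (S5992, helper96), piece INVHP (helper46): a nondegenerate subspace `E` of dimension
at least 2 of an odd-dimensional nondegenerate symmetric space contains a vector `u` whose
orthogonal complement is hyperbolic.
-/

set_option autoImplicit false
set_option linter.unusedSectionVars false
set_option linter.unusedVariables false

namespace Cfsg.Agent.Lib.Helper46.Hy

open Module Polynomial Cfsg.Agent.Lib.Helper96.Sp Cfsg.Agent.Lib.Helper96.Hy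
  Cfsg.Agent.Lib.Helper47

universe u

variable {F : Type u} [Field F] [Fintype F] {V : Type u} [AddCommGroup V] [Module F V]
  [FiniteDimensional F V] {B : LinearMap.BilinForm F V}

theorem invhp_perp (hS : B.IsSymm) (h2 : (2 : F) ≠ 0) (hN : ND B ⊤) {W : Submodule F V}
    (hW : ND B W) :
    ND B (B.orthogonal W) ∧ finrank F W + finrank F ↥(B.orthogonal W) = finrank F V := by
  obtain ⟨-, -, h3⟩ := Helper98.O72.nd_rel hS h2 hW hN le_top
  rw [top_inf_eq, finrank_top] at h3
  exact ⟨Helper98.O72.nd_perp hS h2 hN hW, h3⟩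

theorem invhp_line {u : V} (hu : B u u ≠ 0) :
    ND B (Submodule.span F {u}) ∧ finrank F ↥(Submodule.span F {u}) = 1 := by
  have hu0 : u ≠ 0 := by
    rintro rfl
    exact hu (map_zero (B 0))
  refine ⟨?_, finrank_span_singleton hu0⟩
  intro x hx h
  obtain ⟨c, rfl⟩ := Submodule.mem_span_singleton.mp hx
  have h1 := h u (Submodule.mem_span_singleton_self u)
  rw [map_smul, LinearMap.smul_apply, smul_eq_mul] at h1
  rw [(mul_eq_zero.mp h1).resolve_right hu, zero_smul]

-- PIECE INVHP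
theorem invol_hp (hS : B.IsSymm) (h2 : (2 : F) ≠ 0) (hN : ND B ⊤) (hF : Facts B)
    (hodd : Odd (finrank F V)) (E : Submodule F V) (hE : ND B E) (h2E : 2 ≤ finrank F E) :
    ∃ u ∈ E, B u u ≠ 0 ∧ Hyp B (B.orthogonal (Submodule.span F {u})) ∧
      finrank F ↥(B.orthogonal (Submodule.span F {u})) + 1 = finrank F V := by
  obtain ⟨w, hw⟩ := hodd
  obtain ⟨H₀, -, hH₀, hH₀f⟩ := hF.hyp_sub ⊤ hN w (by rw [finrank_top]; omega)
  obtain ⟨hLnd, hLfin⟩ := invhp_perp hS h2 hN hH₀.1
  have hL1 : finrank F ↥(B.orthogonal H₀) = 1 := by omega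
  obtain ⟨u₀, hu₀, hspan⟩ := finrank_eq_one_iff'.mp hL1
  have hu₀V : (u₀ : V) ≠ 0 := fun h => hu₀ (Subtype.ext h)
  have ha₀ : B (u₀ : V) (u₀ : V) ≠ 0 := by
    intro h0
    apply hu₀V
    apply hLnd (u₀ : V) u₀.2
    intro y hy
    obtain ⟨c, hc⟩ := hspan ⟨y, hy⟩
    have hy' : y = c • (u₀ : V) := by
      have h1 := congrArg Subtype.val hc
      exact h1.symm
    rw [hy', map_smul, smul_eq_mul, h0, mul_zero]
  obtain ⟨u, huE, huu⟩ := hF.rep E hE h2E _ ha₀
  have hu : B u u ≠ 0 := by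
    rw [huu]
    exact ha₀
  have hu0 : u ≠ 0 := by
    rintro rfl
    exact hu (map_zero (B 0))
  obtain ⟨hund, hufin⟩ := invhp_line hu
  obtain ⟨hPnd, hPfin⟩ := invhp_perp hS h2 hN hund
  -- the linear equivalence between the two lines
  let φ : (Submodule.span F {(u₀ : V)}) ≃ₗ[F] (Submodule.span F {u}) :=
    (LinearEquiv.toSpanNonzeroSingleton F V (u₀ : V) hu₀V).symm.trans
      (LinearEquiv.toSpanNonzeroSingleton F V u hu0)
  have hφval : ∀ x : Submodule.span F {(u₀ : V)}, ((φ x : Submodule.span F {u}) : V) =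
      (LinearEquiv.toSpanNonzeroSingleton F V (u₀ : V) hu₀V).symm x • u := fun x => rfl
  have hφ : ∀ x : Submodule.span F {(u₀ : V)}, B (φ x : V) (φ x : V) = B (x : V) (x : V) := by
    intro x
    rw [hφval]
    have hx : (x : V) =
        (LinearEquiv.toSpanNonzeroSingleton F V (u₀ : V) hu₀V).symm x • (u₀ : V) :=
      (LinearEquiv.toSpanNonzeroSingleton_symm_apply_smul F V (u₀ : V) hu₀V x).symm
    conv_rhs => rw [hx]
    simp only [map_smul, LinearMap.smul_apply, smul_eq_mul]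
    rw [huu]
  obtain ⟨g, hg, hgx⟩ := hF.witt_ext _ _ φ hφ
  have hgu : g (u₀ : V) = u := by
    have h1 := hgx ⟨(u₀ : V), Submodule.mem_span_singleton_self _⟩
    rw [hφval] at h1
    have h2' : (LinearEquiv.toSpanNonzeroSingleton F V (u₀ : V) hu₀V).symm
        ⟨(u₀ : V), Submodule.mem_span_singleton_self _⟩ = 1 :=
      LinearEquiv.coord_self F V (u₀ : V) hu₀V
    rw [h2', one_smul] at h1
    exact h1
  obtain ⟨hmapH, hmapf⟩ := hF.hyp_map H₀ g hg hH₀
  have hle : H₀.map (g : V →ₗ[F] V) ≤ B.orthogonal (Submodule.span F {u}) := by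
    rintro _ ⟨h, hh, rfl⟩
    rw [mem_perp_iff]
    intro y hy
    obtain ⟨c, rfl⟩ := Submodule.mem_span_singleton.mp hy
    have h3 : B ((g : V →ₗ[F] V) (u₀ : V)) ((g : V →ₗ[F] V) h) = B (u₀ : V) h := hg _ _
    have h4 : B (u₀ : V) h = 0 := by
      rw [Helper98.O72.sym_swap hS h2 (u₀ : V) h]
      exact (mem_perp_iff.mp u₀.2) h hh
    have h5 : (g : V →ₗ[F] V) (u₀ : V) = u := hgu
    rw [h5, h4] at h3
    rw [map_smul, LinearMap.smul_apply, smul_eq_mul, h3, mul_zero]
  have heq : H₀.map (g : V →ₗ[F] V) = B.orthogonal (Submodule.span F {u}) :=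
    Submodule.eq_of_le_of_finrank_eq hle (by omega)
  refine ⟨u, huE, hu, ?_, by omega⟩
  rw [← heq]
  exact hmapH

end Cfsg.Agent.Lib.Helper46.Hy
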