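import Mathlib

/-!
# Tools for Jordan-type theorems on finite complex linear groups

* `exists_joint_eigenbasis`: a commuting family of unitary operators on a finite-dimensional
  complex inner product space has an orthonormal basis of joint eigenvectors.
* `exists_box`: a partition of the unit circle into twelve arcs of angle `π / 6`.
* `exists_lt_le_of_finite`: a uniform strict lower bound for finitely many reals.
-/

namespace Cfsg.Agent.Lib.Helper46

open scoped InnerProductSpace

section JointEigen

variable {E : Type*} [NormedAddCommGroup E] [InnerProductSpace ℂ E] [FiniteDimensional ℂ E]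

/-- A pairwise commuting family of symmetric operators has an orthonormal basis of joint
eigenvectors (any index type). -/
theorem exists_joint_eigenbasis_symm {ι : Type*} (T : ι → Module.End ℂ E)
    (hT : ∀ i, (T i).IsSymmetric) (hC : Pairwise (Function.onFun Commute T)) :
    ∃ (b : OrthonormalBasis (Fin (Module.finrank ℂ E)) ℂ E)
      (idx : Fin (Module.finrank ℂ E) → ι → ℂ), ∀ a i, T i (b a) = idx a i • b a := by
  classical
  have hI := LinearMap.IsSymmetric.directSum_isInternal_of_pairwise_commute hT hC
  have hO := LinearMap.IsSymmetric.orthogonalFamily_iInf_eigenspaces hT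
  set W : (ι → ℂ) → Submodule ℂ E := fun α => ⨅ j, Module.End.eigenspace (T j) (α j) with hW
  have hind : iSupIndep W :=
    ((DirectSum.isInternal_submodule_iff_iSupIndep_and_iSup_eq_top W).1 hI).1
  have htop : iSup W = ⊤ :=
    ((DirectSum.isInternal_submodule_iff_iSupIndep_and_iSup_eq_top W).1 hI).2
  letI : Fintype {α // W α ≠ ⊥} := hind.fintypeNeBotOfFiniteDimensional
  let W' : {α // W α ≠ ⊥} → Submodule ℂ E := fun α => W α.1
  have hind' : iSupIndep W' := hind.comp Subtype.val_injective
  have htop' : iSup W' = ⊤ := by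
    rw [← htop]
    exact iSup_ne_bot_subtype W
  have hI' : DirectSum.IsInternal W' :=
    (DirectSum.isInternal_submodule_iff_iSupIndep_and_iSup_eq_top W').2 ⟨hind', htop'⟩
  have hO' : OrthogonalFamily ℂ (fun α => W' α) fun α => (W' α).subtypeₗᵢ :=
    hO.comp Subtype.val_injective
  refine ⟨hI'.subordinateOrthonormalBasis rfl hO',
    fun a => (hI'.subordinateOrthonormalBasisIndex rfl a hO').1, ?_⟩
  intro a i
  have hb := hI'.subordinateOrthonormalBasis_subordinate rfl a hO'
  have hb2 : hI'.subordinateOrthonormalBasis rfl hO' a ∈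
      ⨅ j, Module.End.eigenspace (T j) ((hI'.subordinateOrthonormalBasisIndex rfl a hO').1 j) :=
    hb
  rw [Submodule.mem_iInf] at hb2
  exact Module.End.mem_eigenspace_iff.1 (hb2 i)

/-- A commuting family of invertible isometries has an orthonormal basis of joint eigenvectors. -/
theorem exists_joint_eigenbasis {J : Type*} (u w : J → E →ₗ[ℂ] E)
    (huw : ∀ j v, u j (w j v) = v) (hwu : ∀ j v, w j (u j v) = v)
    (hiso : ∀ j v v', ⟪u j v, u j v'⟫_ℂ = ⟪v, v'⟫_ℂ)
    (hcomm : ∀ i j v, u i (u j v) = u j (u i v)) :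
    ∃ (b : OrthonormalBasis (Fin (Module.finrank ℂ E)) ℂ E)
      (lam : Fin (Module.finrank ℂ E) → J → ℂ), ∀ a j, u j (b a) = lam a j • b a := by
  -- inverses commute with everything
  have hcw : ∀ i j v, u i (w j v) = w j (u i v) := by
    intro i j v
    have h1 : u j (u i (w j v)) = u j (w j (u i v)) := by
      rw [← hcomm i j, huw, huw]
    have := congrArg (w j) h1
    rwa [hwu, hwu] at this
  have hww : ∀ i j v, w i (w j v) = w j (w i v) := by
    intro i j v
    have h1 : u i (w i (w j v)) = u i (w j (w i v)) := by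
      rw [huw, hcw, huw]
    have := congrArg (w i) h1
    rwa [hwu, hwu] at this
  have hadj : ∀ j v v', ⟪u j v, v'⟫_ℂ = ⟪v, w j v'⟫_ℂ := by
    intro j v v'
    rw [← hiso j v (w j v'), huw]
  have hadj' : ∀ j v v', ⟪w j v, v'⟫_ℂ = ⟪v, u j v'⟫_ℂ := by
    intro j v v'
    rw [← hiso j (w j v) v', huw]
  let T : J × Bool → Module.End ℂ E := fun jb =>
    if jb.2 then Complex.I • (u jb.1 - w jb.1) else u jb.1 + w jb.1
  have hTf : ∀ j, T (j, false) = u j + w j := fun j => rfl
  have hTt : ∀ j, T (j, true) = Complex.I • (u j - w j) := fun j => rfl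
  have hT : ∀ i, (T i).IsSymmetric := by
    rintro ⟨j, b⟩ x y
    cases b
    · rw [hTf]
      simp only [LinearMap.add_apply, inner_add_left, inner_add_right, hadj, hadj']
      ring
    · rw [hTt]
      simp only [LinearMap.smul_apply, LinearMap.sub_apply, inner_smul_left,
        inner_smul_right, inner_sub_left, inner_sub_right, hadj, hadj', Complex.conj_I]
      ring
  have hC : Pairwise (Function.onFun Commute T) := by
    rintro ⟨i, b⟩ ⟨j, c⟩ _
    show T (i, b) * T (j, c) = T (j, c) * T (i, b)
    apply LinearMap.ext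
    intro v
    cases b <;> cases c
    · rw [hTf, hTf]
      simp only [Module.End.mul_apply, LinearMap.add_apply, map_add]
      rw [hcomm i j, hcw i j, ← hcw j i, hww i j]
      abel
    · rw [hTf, hTt]
      simp only [Module.End.mul_apply, LinearMap.add_apply, LinearMap.smul_apply,
        LinearMap.sub_apply, map_add, map_sub, map_smul, smul_add, smul_sub]
      rw [hcomm i j, hcw i j, ← hcw j i, hww i j]
      abel
    · rw [hTt, hTf]
      simp only [Module.End.mul_apply, LinearMap.add_apply, LinearMap.smul_apply,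
        LinearMap.sub_apply, map_add, map_sub, map_smul, smul_add, smul_sub]
      rw [hcomm i j, hcw i j, ← hcw j i, hww i j]
      abel
    · rw [hTt, hTt]
      simp only [Module.End.mul_apply, LinearMap.smul_apply,
        LinearMap.sub_apply, map_sub, map_smul, smul_sub]
      rw [hcomm i j, hcw i j, ← hcw j i, hww i j]
      abel
  obtain ⟨b, idx, hb⟩ := exists_joint_eigenbasis_symm T hT hC
  refine ⟨b, fun a j => (idx a (j, false) - Complex.I * idx a (j, true)) / 2, ?_⟩
  intro a j
  have h1 := hb a (j, false)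
  have h2 := hb a (j, true)
  rw [hTf] at h1
  rw [hTt] at h2
  simp only [LinearMap.add_apply, LinearMap.smul_apply, LinearMap.sub_apply] at h1 h2
  have h3 : u j (b a) - w j (b a) = (-Complex.I * idx a (j, true)) • b a := by
    have := congrArg (fun z => (-Complex.I) • z) h2
    simp only [smul_smul] at this
    rw [show -Complex.I * Complex.I = 1 by rw [neg_mul, Complex.I_mul_I, neg_neg], one_smul] at this
    exact this
  have h4 : (2 : ℂ) • u j (b a) = (idx a (j, false) - Complex.I * idx a (j, true)) • b a := by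
    have : (2 : ℂ) • u j (b a) = (u j (b a) + w j (b a)) + (u j (b a) - w j (b a)) := by
      rw [two_smul]; abel
    rw [this, h1, h3, ← add_smul]
    congr 1; ring
  have h5 := congrArg (fun z => (2 : ℂ)⁻¹ • z) h4
  simp only [smul_smul] at h5
  rw [inv_mul_cancel₀ (two_ne_zero), one_smul] at h5
  rw [h5]
  congr 1; ring

end JointEigen

/-- Twelve boxes on the unit circle: two unit complex numbers in the same box have
`Re (z * conj w) > √3 / 2`. -/
theorem exists_box : ∃ box : ℂ → ZMod 12, ∀ z w : ℂ, ‖z‖ = 1 → ‖w‖ = 1 → box z = box w →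
    Real.sqrt 3 / 2 < (z * (starRingEnd ℂ) w).re := by
  refine ⟨fun z => ((⌊Complex.arg z * 6 / Real.pi⌋ : ℤ) : ZMod 12), ?_⟩
  intro z w hz hw hbox
  have hpi := Real.pi_pos
  set θ := Complex.arg z with hθ
  set φ := Complex.arg w with hφ
  have hz' : z = Complex.exp (θ * Complex.I) := by
    have := Complex.norm_mul_exp_arg_mul_I z
    rw [hz] at this
    simpa using this.symm
  have hw' : w = Complex.exp (φ * Complex.I) := by
    have := Complex.norm_mul_exp_arg_mul_I w
    rw [hw] at this
    simpa using this.symm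
  have hre : (z * (starRingEnd ℂ) w).re = Real.cos (θ - φ) := by
    rw [hz', hw', ← Complex.exp_conj, ← Complex.exp_add]
    have : (θ : ℂ) * Complex.I + (starRingEnd ℂ) ((φ : ℂ) * Complex.I)
        = ((θ - φ : ℝ) : ℂ) * Complex.I := by
      simp only [map_mul, Complex.conj_ofReal, Complex.conj_I, Complex.ofReal_sub]
      ring
    rw [this, Complex.exp_ofReal_mul_I_re]
  rw [hre]
  have hθ1 : -Real.pi < θ := Complex.neg_pi_lt_arg z
  have hθ2 : θ ≤ Real.pi := Complex.arg_le_pi z
  have hφ1 : -Real.pi < φ := Complex.neg_pi_lt_arg w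
  have hφ2 : φ ≤ Real.pi := Complex.arg_le_pi w
  set a := ⌊θ * 6 / Real.pi⌋ with ha
  set b := ⌊φ * 6 / Real.pi⌋ with hb
  have ha1 : (a : ℝ) ≤ θ * 6 / Real.pi := Int.floor_le _
  have ha2 : θ * 6 / Real.pi < a + 1 := Int.lt_floor_add_one _
  have hb1 : (b : ℝ) ≤ φ * 6 / Real.pi := Int.floor_le _
  have hb2 : φ * 6 / Real.pi < b + 1 := Int.lt_floor_add_one _
  have hθ3 : θ * 6 / Real.pi ≤ 6 := by
    rw [div_le_iff₀ hpi]; nlinarith
  have hθ4 : -6 < θ * 6 / Real.pi := by
    rw [lt_div_iff₀ hpi]; nlinarith
  have hφ3 : φ * 6 / Real.pi ≤ 6 := by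
    rw [div_le_iff₀ hpi]; nlinarith
  have hφ4 : -6 < φ * 6 / Real.pi := by
    rw [lt_div_iff₀ hpi]; nlinarith
  have ha3 : a ≤ 6 := by
    have : (a : ℝ) ≤ 6 := le_trans ha1 hθ3
    exact_mod_cast this
  have ha4 : -6 ≤ a := by
    have : (-7 : ℝ) < a := by linarith
    have : (-7 : ℤ) < a := by exact_mod_cast this
    omega
  have hb3 : b ≤ 6 := by
    have : (b : ℝ) ≤ 6 := le_trans hb1 hφ3
    exact_mod_cast this
  have hb4 : -6 ≤ b := by
    have : (-7 : ℝ) < b := by linarith
    have : (-7 : ℤ) < b := by exact_mod_cast this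
    omega
  have hdvd : (12 : ℤ) ∣ a - b := by
    have := (ZMod.intCast_eq_intCast_iff_dvd_sub a b 12).1 hbox
    have h2 : ((12 : ℕ) : ℤ) ∣ a - b := by
      have := dvd_neg.2 this
      rwa [neg_sub] at this
    exact_mod_cast h2
  -- the key: some integer shift brings the difference within π/6
  have key : ∃ m : ℤ, |θ - φ - m * (2 * Real.pi)| < Real.pi / 6 := by
    obtain ⟨k, hk⟩ := hdvd
    have hk' : k = 0 ∨ k = 1 ∨ k = -1 := by omega
    have e1 : θ = (θ * 6 / Real.pi) * (Real.pi / 6) := by field_simp
    have e2 : φ = (φ * 6 / Real.pi) * (Real.pi / 6) := by field_simp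
    have hp6 : 0 < Real.pi / 6 := by positivity
    rcases hk' with rfl | rfl | rfl
    · refine ⟨0, ?_⟩
      have hab : a = b := by omega
      have hab' : (a : ℝ) = b := by exact_mod_cast hab
      rw [abs_lt]
      constructor
      · have : -1 < θ * 6 / Real.pi - φ * 6 / Real.pi := by linarith
        have h3 := mul_lt_mul_of_pos_right this hp6
        simp only [Int.cast_zero, zero_mul, sub_zero]
        nlinarith
      · have : θ * 6 / Real.pi - φ * 6 / Real.pi < 1 := by linarith
        have h3 := mul_lt_mul_of_pos_right this hp6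
        simp only [Int.cast_zero, zero_mul, sub_zero]
        nlinarith
    · refine ⟨1, ?_⟩
      have ha6 : a = 6 := by omega
      have hb6 : b = -6 := by omega
      have ha6' : (a : ℝ) = 6 := by exact_mod_cast ha6
      have hb6' : (b : ℝ) = -6 := by exact_mod_cast hb6
      have hθpi : θ = Real.pi := by
        have : (6 : ℝ) ≤ θ * 6 / Real.pi := by linarith
        rw [le_div_iff₀ hpi] at this
        linarith
      have hφlt : φ * 6 / Real.pi < -5 := by linarith
      rw [div_lt_iff₀ hpi] at hφlt
      rw [abs_lt]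
      simp only [Int.cast_one, one_mul]
      constructor <;> linarith
    · refine ⟨-1, ?_⟩
      have ha6 : a = -6 := by omega
      have hb6 : b = 6 := by omega
      have ha6' : (a : ℝ) = -6 := by exact_mod_cast ha6
      have hb6' : (b : ℝ) = 6 := by exact_mod_cast hb6
      have hφpi : φ = Real.pi := by
        have : (6 : ℝ) ≤ φ * 6 / Real.pi := by linarith
        rw [le_div_iff₀ hpi] at this
        linarith
      have hθlt : θ * 6 / Real.pi < -5 := by linarith
      rw [div_lt_iff₀ hpi] at hθlt
      rw [abs_lt]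
      simp only [Int.cast_neg, Int.cast_one, neg_mul, one_mul]
      constructor <;> linarith
  obtain ⟨m, hm⟩ := key
  rw [← Real.cos_sub_int_mul_two_pi (θ - φ) m, ← Real.cos_abs, ← Real.cos_pi_div_six]
  exact Real.cos_lt_cos_of_nonneg_of_le_pi_div_two (abs_nonneg _) (by linarith) hm

/-- A uniform strict lower bound for finitely many reals above `t`. -/
theorem exists_lt_le_of_finite {ι : Type*} [Finite ι] (f : ι → ℝ) (t : ℝ) (h : ∀ i, t < f i) :
    ∃ c, t < c ∧ ∀ i, c ≤ f i := by
  rcases isEmpty_or_nonempty ι with he | hne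
  · exact ⟨t + 1, by linarith, fun i => (he.false i).elim⟩
  · obtain ⟨i₀, hi₀⟩ := Finite.exists_min f
    exact ⟨f i₀, h i₀, hi₀⟩

end Cfsg.Agent.Lib.Helper46
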