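import Cfsg.Agent.Lib.Helper46.JordanA

/-!
# Unitary representations: small elements commute

For a faithful unitary representation of a finite group on a finite-dimensional complex inner
product space, the elements whose numerical range lies in `Re > √3 / 2` commute pairwise
(contraction of commutators plus Frobenius' lemma).
-/

namespace Cfsg.Agent.Lib.Helper46

open scoped InnerProductSpace

section UnitaryRep

variable {G : Type*} [Group G] {E : Type*} [NormedAddCommGroup E] [InnerProductSpace ℂ E]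

/-- A representation by isometries. -/
def IsUnitaryRep (ρ : G →* (E →ₗ[ℂ] E)) : Prop :=
  ∀ g v w, ⟪ρ g v, ρ g w⟫_ℂ = ⟪v, w⟫_ℂ

/-- `g` is small: its numerical range lies in the half plane `Re > c` for some `c > √3 / 2`. -/
def JSmall (ρ : G →* (E →ₗ[ℂ] E)) (g : G) : Prop :=
  ∃ c : ℝ, Real.sqrt 3 / 2 < c ∧ ∀ v : E, c * ‖v‖ ^ 2 ≤ (⟪v, ρ g v⟫_ℂ).re

variable (ρ : G →* (E →ₗ[ℂ] E))

theorem rho_inv_apply (g : G) (v : E) : ρ g⁻¹ (ρ g v) = v := by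
  rw [← Module.End.mul_apply, ← map_mul, inv_mul_cancel, map_one, Module.End.one_apply]

theorem rho_apply_inv (g : G) (v : E) : ρ g (ρ g⁻¹ v) = v := by
  rw [← Module.End.mul_apply, ← map_mul, mul_inv_cancel, map_one, Module.End.one_apply]

theorem rho_mul_apply (g h : G) (v : E) : ρ (g * h) v = ρ g (ρ h v) := by
  rw [map_mul, Module.End.mul_apply]

variable {ρ}

theorem IsUnitaryRep.norm_apply (hρ : IsUnitaryRep ρ) (g : G) (v : E) : ‖ρ g v‖ = ‖v‖ := by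
  have h := hρ g v v
  rw [inner_self_eq_norm_sq_to_K, inner_self_eq_norm_sq_to_K] at h
  have h2 : ‖ρ g v‖ ^ 2 = ‖v‖ ^ 2 := by exact_mod_cast h
  exact (sq_eq_sq₀ (norm_nonneg _) (norm_nonneg _)).1 h2

theorem IsUnitaryRep.inner_right (hρ : IsUnitaryRep ρ) (g : G) (v w : E) :
    ⟪v, ρ g w⟫_ℂ = ⟪ρ g⁻¹ v, w⟫_ℂ := by
  rw [← hρ g (ρ g⁻¹ v) w, rho_apply_inv]

theorem JSmall.conj (hρ : IsUnitaryRep ρ) {g : G} (hg : JSmall ρ g) (h : G) :
    JSmall ρ (h * g * h⁻¹) := by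
  obtain ⟨c, hc, hcv⟩ := hg
  refine ⟨c, hc, fun v => ?_⟩
  have h1 : ρ (h * g * h⁻¹) v = ρ h (ρ g (ρ h⁻¹ v)) := by
    rw [rho_mul_apply, rho_mul_apply]
  rw [h1, hρ.inner_right h, ← hρ.norm_apply h⁻¹ v]
  exact hcv _

theorem IsUnitaryRep.norm_sub_sq (hρ : IsUnitaryRep ρ) (g : G) (v : E) :
    ‖v - ρ g v‖ ^ 2 = 2 * ‖v‖ ^ 2 - 2 * (⟪v, ρ g v⟫_ℂ).re := by
  rw [@_root_.norm_sub_sq ℂ, hρ.norm_apply]
  simp only [RCLike.re_to_complex]
  ring

theorem JSmall.bd_one (hρ : IsUnitaryRep ρ) {g : G} (hg : JSmall ρ g) :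
    ∃ t : ℝ, 0 ≤ t ∧ t < 1 ∧ ∀ v : E, ‖v - ρ g v‖ ^ 2 ≤ t * ‖v‖ ^ 2 := by
  obtain ⟨c, hc, hcv⟩ := hg
  have h3 : (0 : ℝ) ≤ Real.sqrt 3 := Real.sqrt_nonneg 3
  have h3' : Real.sqrt 3 ^ 2 = 3 := Real.sq_sqrt (by norm_num)
  have hc1 : (1 : ℝ) / 2 < c := by nlinarith
  refine ⟨max (2 - 2 * c) 0, le_max_right _ _, ?_, fun v => ?_⟩
  · rw [max_lt_iff]; constructor <;> linarith
  · rw [hρ.norm_sub_sq]
    have := hcv v
    have hv : 0 ≤ ‖v‖ ^ 2 := sq_nonneg _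
    rcases le_total (2 - 2 * c) 0 with h | h
    · rw [max_eq_right h]; nlinarith
    · rw [max_eq_left h]; nlinarith

theorem JSmall.bd_c (hρ : IsUnitaryRep ρ) {g : G} (hg : JSmall ρ g) :
    ∃ (c κ : ℝ), 0 ≤ κ ∧ 4 * κ < 1 ∧ ∀ v : E, ‖ρ g v - (c : ℂ) • v‖ ^ 2 ≤ κ * ‖v‖ ^ 2 := by
  obtain ⟨c, hc, hcv⟩ := hg
  have h3 : (0 : ℝ) ≤ Real.sqrt 3 := Real.sqrt_nonneg 3
  have h3' : Real.sqrt 3 ^ 2 = 3 := Real.sq_sqrt (by norm_num)
  have hc0 : 0 < c := by linarith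
  have hc2 : 3 / 4 < c ^ 2 := by nlinarith
  refine ⟨c, max (1 - c ^ 2) 0, le_max_right _ _, ?_, fun v => ?_⟩
  · rcases le_total (1 - c ^ 2) 0 with h | h
    · rw [max_eq_right h]; norm_num
    · rw [max_eq_left h]; linarith
  · have e1 : ‖ρ g v - (c : ℂ) • v‖ ^ 2
        = ‖v‖ ^ 2 - 2 * c * (⟪v, ρ g v⟫_ℂ).re + c ^ 2 * ‖v‖ ^ 2 := by
      rw [@_root_.norm_sub_sq ℂ, hρ.norm_apply, inner_smul_right, norm_smul, mul_pow]
      have e2 : RCLike.re ((c : ℂ) * ⟪ρ g v, v⟫_ℂ) = c * (⟪v, ρ g v⟫_ℂ).re := by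
        have h := inner_re_symm (𝕜 := ℂ) (ρ g v) v
        simp only [RCLike.re_to_complex] at h
        simp [h]
      rw [e2]
      have e3 : ‖(c : ℂ)‖ ^ 2 = c ^ 2 := by
        rw [Complex.norm_real, Real.norm_eq_abs, sq_abs]
      rw [e3]
      ring
    rw [e1]
    have := hcv v
    have hv : 0 ≤ ‖v‖ ^ 2 := sq_nonneg _
    have h5 : c * (c * ‖v‖ ^ 2) ≤ c * (⟪v, ρ g v⟫_ℂ).re := mul_le_mul_of_nonneg_left this hc0.le
    rcases le_total (1 - c ^ 2) 0 with h | h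
    · rw [max_eq_right h]; nlinarith
    · rw [max_eq_left h]; nlinarith

/-- Contraction of commutators. -/
theorem commutator_contract (hρ : IsUnitaryRep ρ) {x y : G} {c κ t : ℝ} (hκ0 : 0 ≤ κ)
    (ht0 : 0 ≤ t)
    (hx : ∀ v : E, ‖ρ x v - (c : ℂ) • v‖ ^ 2 ≤ κ * ‖v‖ ^ 2)
    (hy : ∀ v : E, ‖v - ρ y v‖ ^ 2 ≤ t * ‖v‖ ^ 2) (v : E) :
    ‖v - ρ (x * y * x⁻¹ * y⁻¹) v‖ ^ 2 ≤ 4 * κ * t * ‖v‖ ^ 2 := by
  set w := ρ (y * x)⁻¹ v with hw
  have hwn : ‖w‖ = ‖v‖ := hρ.norm_apply _ _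
  have hv : v = ρ y (ρ x w) := by
    rw [hw, ← rho_mul_apply, rho_apply_inv]
  have h2 : ρ (x * y * x⁻¹ * y⁻¹) v = ρ x (ρ y w) := by
    rw [hw, ← rho_mul_apply, ← rho_mul_apply]
    congr 2
    group
  have h3 : v - ρ (x * y * x⁻¹ * y⁻¹) v
      = (ρ x (w - ρ y w) - (c : ℂ) • (w - ρ y w))
        - ((ρ x w - (c : ℂ) • w) - ρ y (ρ x w - (c : ℂ) • w)) := by
    rw [h2]
    nth_rewrite 1 [hv]
    simp only [map_sub, map_smul, smul_sub]
    abel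
  rw [h3]
  set a := ρ x (w - ρ y w) - (c : ℂ) • (w - ρ y w) with ha
  set b := (ρ x w - (c : ℂ) • w) - ρ y (ρ x w - (c : ℂ) • w) with hb
  have ha' : ‖a‖ ^ 2 ≤ κ * t * ‖v‖ ^ 2 := by
    have h1 := hx (w - ρ y w)
    have h2 := hy w
    rw [hwn] at h2
    calc ‖a‖ ^ 2 ≤ κ * ‖w - ρ y w‖ ^ 2 := h1
      _ ≤ κ * (t * ‖v‖ ^ 2) := mul_le_mul_of_nonneg_left h2 hκ0
      _ = κ * t * ‖v‖ ^ 2 := by ring
  have hb' : ‖b‖ ^ 2 ≤ κ * t * ‖v‖ ^ 2 := by
    have h1 := hy (ρ x w - (c : ℂ) • w)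
    have h2 := hx w
    rw [hwn] at h2
    calc ‖b‖ ^ 2 ≤ t * ‖ρ x w - (c : ℂ) • w‖ ^ 2 := h1
      _ ≤ t * (κ * ‖v‖ ^ 2) := mul_le_mul_of_nonneg_left h2 ht0
      _ = κ * t * ‖v‖ ^ 2 := by ring
  have hab : ‖a - b‖ ^ 2 ≤ 2 * ‖a‖ ^ 2 + 2 * ‖b‖ ^ 2 := by
    have h1 : ‖a - b‖ ≤ ‖a‖ + ‖b‖ := norm_sub_le a b
    have h2 : ‖a - b‖ ^ 2 ≤ (‖a‖ + ‖b‖) ^ 2 :=
      pow_le_pow_left₀ (norm_nonneg _) h1 2
    nlinarith [sq_nonneg (‖a‖ - ‖b‖)]
  linarith

/-- A faithful representation of a finite group has a gap at the identity. -/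
theorem faithful_gap [Finite G] (hf : ∀ g : G, ρ g = 1 → g = 1) :
    ∃ δ : ℝ, 0 < δ ∧ ∀ g : G, (∀ v : E, ‖v - ρ g v‖ ^ 2 ≤ δ * ‖v‖ ^ 2) → g = 1 := by
  classical
  have hex : ∀ g : G, ∃ d : ℝ, 0 < d ∧ ((∀ v : E, ‖v - ρ g v‖ ^ 2 ≤ d * ‖v‖ ^ 2) → g = 1) := by
    intro g
    by_cases hg : g = 1
    · exact ⟨1, one_pos, fun _ => hg⟩
    · have hne : ρ g ≠ 1 := fun h => hg (hf g h)
      obtain ⟨v, hv⟩ : ∃ v : E, ρ g v ≠ v := by
        by_contra hcon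
        push Not at hcon
        exact hne (LinearMap.ext fun v => by simpa using hcon v)
      have hv0 : v ≠ 0 := by
        rintro rfl
        exact hv (map_zero _)
      have hvn : 0 < ‖v‖ ^ 2 := by positivity
      have hdn : 0 < ‖v - ρ g v‖ ^ 2 := by
        have : v - ρ g v ≠ 0 := sub_ne_zero.2 (Ne.symm hv)
        positivity
      refine ⟨‖v - ρ g v‖ ^ 2 / (2 * ‖v‖ ^ 2), by positivity, fun h => ?_⟩
      exfalso
      have h1 := h v
      have h2 : ‖v - ρ g v‖ ^ 2 / (2 * ‖v‖ ^ 2) * ‖v‖ ^ 2 = ‖v - ρ g v‖ ^ 2 / 2 := by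
        field_simp
      rw [h2] at h1
      linarith
  choose d hd0 hd using hex
  obtain ⟨g₀, hg₀⟩ := Finite.exists_min d
  refine ⟨d g₀, hd0 g₀, fun g hg => hd g fun v => ?_⟩
  have := hg v
  have hv : 0 ≤ ‖v‖ ^ 2 := sq_nonneg _
  nlinarith [hg₀ g]

variable [FiniteDimensional ℂ E]

/-- Frobenius' lemma: if `x` commutes with its conjugate `y x y⁻¹` and the numerical range of
`y` avoids `0`, then `x` and `y` commute. -/
theorem frobenius_commute (hρ : IsUnitaryRep ρ) (hf : ∀ g : G, ρ g = 1 → g = 1) (x y : G)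
    (hx : x * (y * x * y⁻¹) = (y * x * y⁻¹) * x)
    (hy : ∀ v : E, v ≠ 0 → 0 < (⟪v, ρ y v⟫_ℂ).re) : x * y = y * x := by
  set x' := y * x * y⁻¹ with hx'
  let u : Bool → E →ₗ[ℂ] E := fun b => if b then ρ x' else ρ x
  let w : Bool → E →ₗ[ℂ] E := fun b => if b then ρ x'⁻¹ else ρ x⁻¹
  have hxx : ∀ v, ρ x (ρ x' v) = ρ x' (ρ x v) := by
    intro v
    rw [← rho_mul_apply, ← rho_mul_apply, hx]
  obtain ⟨b, lam, hb⟩ := exists_joint_eigenbasis u w
    (by intro j v; cases j <;> simp only [u, w, Bool.false_eq_true, if_false, if_true] <;>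
          exact rho_apply_inv ρ _ _)
    (by intro j v; cases j <;> simp only [u, w, Bool.false_eq_true, if_false, if_true] <;>
          exact rho_inv_apply ρ _ _)
    (by intro j v v'; cases j <;> simp only [u, Bool.false_eq_true, if_false, if_true] <;>
          exact hρ _ _ _)
    (by
      intro i j v
      cases i <;> cases j <;> simp only [u, Bool.false_eq_true, if_false, if_true]
      · exact hxx v
      · exact (hxx v).symm)
  have h1 : ∀ a, ρ x (b a) = lam a false • b a := fun a => hb a false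
  have h2 : ∀ a, ρ x' (b a) = lam a true • b a := fun a => hb a true
  have hba : ∀ a, ‖b a‖ = 1 := fun a => b.orthonormal.1 a
  have heq : ∀ a, lam a false = lam a true := by
    intro a
    have hn : ‖lam a true‖ = 1 := by
      have := hρ.norm_apply x' (b a)
      rw [h2, norm_smul, hba, mul_one] at this
      exact this
    set v := ρ y⁻¹ (b a) with hv
    have hv0 : v ≠ 0 := by
      intro h0
      have : ‖v‖ = 1 := by rw [hv, hρ.norm_apply, hba]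
      rw [h0, norm_zero] at this
      exact zero_ne_one this
    have hyv : ρ y v = b a := rho_apply_inv ρ y (b a)
    have hxv : ρ x v = lam a true • v := by
      have e : ρ x v = ρ y⁻¹ (ρ x' (b a)) := by
        rw [hv, ← rho_mul_apply, ← rho_mul_apply, hx']
        congr 2
        group
      rw [e, h2, map_smul]
    have hin : ⟪v, b a⟫_ℂ = (starRingEnd ℂ) (lam a true) * lam a false * ⟪v, b a⟫_ℂ := by
      conv_lhs => rw [← hρ x v (b a), hxv, h1, inner_smul_left, inner_smul_right]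
      ring
    have hne : ⟪v, b a⟫_ℂ ≠ 0 := by
      intro h0
      have := hy v hv0
      rw [hyv, h0] at this
      simp at this
    have hone : (starRingEnd ℂ) (lam a true) * lam a false = 1 := by
      have h3 : ((starRingEnd ℂ) (lam a true) * lam a false - 1) * ⟪v, b a⟫_ℂ = 0 := by
        rw [sub_mul, one_mul, ← hin, sub_self]
      rcases mul_eq_zero.1 h3 with h4 | h4
      · exact sub_eq_zero.1 h4
      · exact absurd h4 hne
    have hcm : (starRingEnd ℂ) (lam a true) * lam a true = 1 := by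
      rw [Complex.conj_mul', hn]
      norm_num
    calc lam a false = ((starRingEnd ℂ) (lam a true) * lam a true) * lam a false := by
          rw [hcm, one_mul]
      _ = ((starRingEnd ℂ) (lam a true) * lam a false) * lam a true := by ring
      _ = lam a true := by rw [hone, one_mul]
  have hρeq : ρ x = ρ x' := by
    apply b.toBasis.ext
    intro a
    rw [OrthonormalBasis.coe_toBasis, h1, h2, heq]
  have h3 : x * x'⁻¹ = 1 := by
    apply hf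
    rw [map_mul, hρeq, ← map_mul, mul_inv_cancel, map_one]
  have h4 : x = x' := mul_inv_eq_one.1 h3
  rw [hx'] at h4
  calc x * y = y * x * y⁻¹ * y := by rw [← h4]
    _ = y * x := by group

/-- Small elements commute. -/
theorem jsmall_commute [Finite G] (hρ : IsUnitaryRep ρ) (hf : ∀ g : G, ρ g = 1 → g = 1)
    {x y : G} (hx : JSmall ρ x) (hy : JSmall ρ y) : x * y = y * x := by
  obtain ⟨c, κ, hκ0, hκ1, hκ⟩ := hx.bd_c hρ
  obtain ⟨t, ht0, ht1, ht⟩ := hy.bd_one hρ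
  obtain ⟨δ, hδ, hgap⟩ := faithful_gap (ρ := ρ) hf
  let s : ℕ → G := fun k => Nat.rec y (fun _ z => x * z * x⁻¹ * z⁻¹) k
  have hs0 : s 0 = y := rfl
  have hs1 : ∀ k, s (k + 1) = x * s k * x⁻¹ * (s k)⁻¹ := fun k => rfl
  have hq0 : 0 ≤ 4 * κ := by linarith
  have hbd : ∀ k (v : E), ‖v - ρ (s k) v‖ ^ 2 ≤ (4 * κ) ^ k * t * ‖v‖ ^ 2 := by
    intro k
    induction k with
    | zero => intro v; rw [hs0]; simpa using ht v
    | succ k ih =>
      intro v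
      rw [hs1]
      have := commutator_contract hρ (x := x) (y := s k) (c := c) (κ := κ)
        (t := (4 * κ) ^ k * t) hκ0 (mul_nonneg (pow_nonneg hq0 k) ht0) hκ ih v
      calc ‖v - ρ (x * s k * x⁻¹ * (s k)⁻¹) v‖ ^ 2
          ≤ 4 * κ * ((4 * κ) ^ k * t) * ‖v‖ ^ 2 := this
        _ = (4 * κ) ^ (k + 1) * t * ‖v‖ ^ 2 := by ring
  have hbd1 : ∀ k (v : E), ‖v - ρ (s k) v‖ ^ 2 ≤ t * ‖v‖ ^ 2 := by
    intro k v
    have h1 : (4 * κ) ^ k ≤ 1 := pow_le_one₀ hq0 hκ1.le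
    have h2 : (4 * κ) ^ k * t ≤ 1 * t := mul_le_mul_of_nonneg_right h1 ht0
    have hv : 0 ≤ ‖v‖ ^ 2 := sq_nonneg _
    calc ‖v - ρ (s k) v‖ ^ 2 ≤ (4 * κ) ^ k * t * ‖v‖ ^ 2 := hbd k v
      _ ≤ 1 * t * ‖v‖ ^ 2 := mul_le_mul_of_nonneg_right h2 hv
      _ = t * ‖v‖ ^ 2 := by ring
  obtain ⟨k, hk⟩ := exists_pow_lt_of_lt_one hδ hκ1
  have hsk : s k = 1 := by
    apply hgap
    intro v
    have hv : 0 ≤ ‖v‖ ^ 2 := sq_nonneg _
    have h1 : (4 * κ) ^ k * t ≤ δ := by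
      have : (4 * κ) ^ k * t ≤ (4 * κ) ^ k * 1 :=
        mul_le_mul_of_nonneg_left ht1.le (pow_nonneg hq0 k)
      linarith
    calc ‖v - ρ (s k) v‖ ^ 2 ≤ (4 * κ) ^ k * t * ‖v‖ ^ 2 := hbd k v
      _ ≤ δ * ‖v‖ ^ 2 := mul_le_mul_of_nonneg_right h1 hv
  classical
  have hex : ∃ k, s k = 1 := ⟨k, hsk⟩
  obtain ⟨k₀, hk₀, hmin⟩ : ∃ k₀, s k₀ = 1 ∧ ∀ m < k₀, s m ≠ 1 := by
    haveI : DecidablePred fun n => s n = 1 := fun _ => Classical.propDecidable _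
    exact ⟨Nat.find hex, Nat.find_spec hex, fun m hm => Nat.find_min hex hm⟩
  have hle : k₀ ≤ 1 := by
    by_contra hgt
    obtain ⟨j, hj⟩ : ∃ j, k₀ = j + 2 := ⟨k₀ - 2, by omega⟩
    subst hj
    have h1 : s (j + 1 + 1) = 1 := hk₀
    rw [hs1 (j + 1)] at h1
    have hcomm1 : Commute x (s (j + 1)) := by
      have h2 : x * s (j + 1) * x⁻¹ = s (j + 1) := mul_inv_eq_one.1 h1
      exact mul_inv_eq_iff_eq_mul.1 h2
    have hcomm2 : x * (s j * x * (s j)⁻¹) = (s j * x * (s j)⁻¹) * x := by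
      have e : s j * x * (s j)⁻¹ = (s (j + 1))⁻¹ * x := by
        rw [hs1]; group
      rw [e]
      exact (hcomm1.inv_right.mul_right (Commute.refl x)).eq
    have hpos : ∀ v : E, v ≠ 0 → 0 < (⟪v, ρ (s j) v⟫_ℂ).re := by
      intro v hv0
      have h2 := hbd1 j v
      rw [hρ.norm_sub_sq] at h2
      have hvn : 0 < ‖v‖ ^ 2 := by positivity
      nlinarith
    have h3 := frobenius_commute hρ hf x (s j) hcomm2 hpos
    have h4 : s (j + 1) = 1 := by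
      rw [hs1, h3]; group
    exact hmin (j + 1) (by omega) h4
  rcases Nat.le_one_iff_eq_zero_or_eq_one.1 hle with h0 | h1
  · rw [h0, hs0] at hk₀
    rw [hk₀, mul_one, one_mul]
  · rw [h1] at hk₀
    have hk₁ : s (0 + 1) = 1 := hk₀
    rw [hs1 0, hs0] at hk₁
    have h2 : x * y * x⁻¹ = y := mul_inv_eq_one.1 hk₁
    exact mul_inv_eq_iff_eq_mul.1 h2

end UnitaryRep

end Cfsg.Agent.Lib.Helper46
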