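import Cfsg.Agent.Lib.Helper46.JordanB

/-!
# The abelian normal subgroup generated by small elements (abstract unitary version)
-/

namespace Cfsg.Agent.Lib.Helper46

open scoped InnerProductSpace

section

variable {G : Type*} [Group G] {E : Type*} [NormedAddCommGroup E] [InnerProductSpace ℂ E]
  [FiniteDimensional ℂ E] {ρ : G →* (E →ₗ[ℂ] E)}

/-- The subgroup generated by the small elements. -/
def jordanSub (ρ : G →* (E →ₗ[ℂ] E)) : Subgroup G := Subgroup.normalClosure {g | JSmall ρ g}

instance jordanSub_normal : (jordanSub ρ).Normal := Subgroup.normalClosure_normal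

theorem jordanSub_comm [Finite G] (hρ : IsUnitaryRep ρ) (hf : ∀ g : G, ρ g = 1 → g = 1) :
    ∀ x ∈ jordanSub ρ, ∀ y ∈ jordanSub ρ, x * y = y * x := by
  have hS : ∀ g ∈ Group.conjugatesOfSet {g | JSmall ρ g}, JSmall ρ g := by
    intro g hg
    obtain ⟨a, ha, hconj⟩ := Group.mem_conjugatesOfSet_iff.1 hg
    obtain ⟨c, hc⟩ := isConj_iff.1 hconj
    rw [← hc]
    exact JSmall.conj hρ ha c
  intro x hx y hy
  have key : Commute x y := by
    refine Subgroup.closure_induction₂ (k := Group.conjugatesOfSet {g | JSmall ρ g})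
      (p := fun a b _ _ => Commute a b) ?_ ?_ ?_ ?_ ?_ ?_ ?_ hx hy
    · intro a b ha hb
      exact jsmall_commute hρ hf (hS a ha) (hS b hb)
    · intro a _; exact Commute.one_left a
    · intro a _; exact Commute.one_right a
    · intro a b c _ _ _ h1 h2; exact h1.mul_left h2
    · intro a b c _ _ _ h1 h2; exact h1.mul_right h2
    · intro a b _ _ h; exact h.inv_left
    · intro a b _ _ h; exact h.inv_right
  exact key.eq

theorem jordanSub_index [Finite G] (hρ : IsUnitaryRep ρ) (H : Subgroup G)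
    (hH : ∀ x ∈ H, ∀ y ∈ H, x * y = y * x) :
    ((jordanSub ρ).subgroupOf H).index ≤ 12 ^ Module.finrank ℂ E := by
  classical
  obtain ⟨box, hbox⟩ := exists_box
  obtain ⟨b, lam, hb⟩ := exists_joint_eigenbasis (fun h : H => ρ (h : G))
    (fun h : H => ρ (h : G)⁻¹)
    (fun h v => rho_apply_inv ρ _ _) (fun h v => rho_inv_apply ρ _ _)
    (fun h v v' => hρ _ _ _)
    (by
      intro h k v
      rw [← rho_mul_apply, ← rho_mul_apply, hH h h.2 k k.2])
  have hba : ∀ a, ‖b a‖ = 1 := fun a => b.orthonormal.1 a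
  have hlam1 : ∀ a (h : H), ‖lam a h‖ = 1 := by
    intro a h
    have := hρ.norm_apply (h : G) (b a)
    rw [hb a h, norm_smul, hba, mul_one] at this
    exact this
  have hcm : ∀ a (h : H), (starRingEnd ℂ) (lam a h) * lam a h = 1 := by
    intro a h
    rw [Complex.conj_mul', hlam1]
    norm_num
  have hinv : ∀ a (h : H), ρ (h : G)⁻¹ (b a) = (starRingEnd ℂ) (lam a h) • b a := by
    intro a h
    have h1 : b a = lam a h • ρ (h : G)⁻¹ (b a) := by
      have := congrArg (ρ (h : G)⁻¹) (hb a h)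
      rwa [rho_inv_apply, map_smul] at this
    calc ρ (h : G)⁻¹ (b a) = ((starRingEnd ℂ) (lam a h) * lam a h) • ρ (h : G)⁻¹ (b a) := by
          rw [hcm, one_smul]
      _ = (starRingEnd ℂ) (lam a h) • b a := by
          rw [mul_smul, ← h1]
  let f : (H ⧸ (jordanSub ρ).subgroupOf H) → (Fin (Module.finrank ℂ E) → ZMod 12) :=
    fun q a => box (lam a (Quotient.out q))
  have hinj : Function.Injective f := by
    intro q q' hqq
    set h : H := Quotient.out q with hh
    set k : H := Quotient.out q' with hk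
    have hbx : ∀ a, box (lam a h) = box (lam a k) := fun a => congrFun hqq a
    have hre : ∀ a, Real.sqrt 3 / 2 < (lam a k * (starRingEnd ℂ) (lam a h)).re :=
      fun a => hbox _ _ (hlam1 a k) (hlam1 a h) (hbx a).symm
    have hg : ∀ a, ρ ((h : G)⁻¹ * (k : G)) (b a)
        = (lam a k * (starRingEnd ℂ) (lam a h)) • b a := by
      intro a
      rw [rho_mul_apply, hb a k, map_smul, hinv, smul_smul]
    have hsmall : JSmall ρ ((h : G)⁻¹ * (k : G)) := by
      obtain ⟨c, hc, hcle⟩ := exists_lt_le_of_finite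
        (fun a => (lam a k * (starRingEnd ℂ) (lam a h)).re) (Real.sqrt 3 / 2) hre
      refine ⟨c, hc, fun v => ?_⟩
      have hv := b.sum_repr' v
      have h1 : ρ ((h : G)⁻¹ * (k : G)) v
          = ∑ a, (⟪b a, v⟫_ℂ * (lam a k * (starRingEnd ℂ) (lam a h))) • b a := by
        conv_lhs => rw [← hv]
        rw [map_sum]
        refine Finset.sum_congr rfl fun a _ => ?_
        rw [map_smul, hg, smul_smul]
      have h2 : ⟪v, ρ ((h : G)⁻¹ * (k : G)) v⟫_ℂ
          = ∑ a, (lam a k * (starRingEnd ℂ) (lam a h)) * ((‖⟪b a, v⟫_ℂ‖ ^ 2 : ℝ) : ℂ) := by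
        rw [h1, inner_sum]
        refine Finset.sum_congr rfl fun a _ => ?_
        rw [inner_smul_right, ← inner_conj_symm v (b a)]
        have := Complex.mul_conj' (⟪b a, v⟫_ℂ)
        push_cast
        rw [← this]
        ring
      have h3 : (⟪v, ρ ((h : G)⁻¹ * (k : G)) v⟫_ℂ).re
          = ∑ a, (lam a k * (starRingEnd ℂ) (lam a h)).re * ‖⟪b a, v⟫_ℂ‖ ^ 2 := by
        rw [h2, Complex.re_sum]
        refine Finset.sum_congr rfl fun a _ => ?_
        rw [Complex.re_mul_ofReal]
      rw [h3, ← b.sum_sq_norm_inner_right v, Finset.mul_sum]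
      exact Finset.sum_le_sum fun a _ => mul_le_mul_of_nonneg_right (hcle a) (sq_nonneg _)
    have key : (h : G)⁻¹ * (k : G) ∈ jordanSub ρ :=
      Subgroup.subset_normalClosure hsmall
    have hmem : h⁻¹ * k ∈ (jordanSub ρ).subgroupOf H := by
      rw [Subgroup.mem_subgroupOf]
      simpa using key
    have h5 := (QuotientGroup.eq (s := (jordanSub ρ).subgroupOf H)).2 hmem
    rw [hh, hk] at h5
    simpa using h5
  calc ((jordanSub ρ).subgroupOf H).index
      = Nat.card (H ⧸ (jordanSub ρ).subgroupOf H) := rfl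
    _ ≤ Nat.card (Fin (Module.finrank ℂ E) → ZMod 12) := Nat.card_le_card_of_injective f hinj
    _ = 12 ^ Module.finrank ℂ E := by
        rw [Nat.card_eq_fintype_card, Fintype.card_fun, ZMod.card, Fintype.card_fin]

/-- Abstract form of Isaacs 14.16 for unitary representations. -/
theorem jordan_unitary [Finite G] (hρ : IsUnitaryRep ρ) (hf : ∀ g : G, ρ g = 1 → g = 1) :
    ∃ A : Subgroup G, A.Normal ∧ (∀ x ∈ A, ∀ y ∈ A, x * y = y * x) ∧
      ∀ H : Subgroup G, (∀ x ∈ H, ∀ y ∈ H, x * y = y * x) →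
        (A.subgroupOf H).index ≤ 12 ^ Module.finrank ℂ E :=
  ⟨jordanSub ρ, jordanSub_normal, jordanSub_comm hρ hf, fun H hH => jordanSub_index hρ H hH⟩

end

end Cfsg.Agent.Lib.Helper46
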