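import Cfsg.Agent.Lib.Helper46.JordanC

/-!
# Isaacs 14.16 for matrix representations: invariant inner product
-/

namespace Cfsg.Agent.Lib.Helper46

open scoped InnerProductSpace

/-- The `G`-invariant inner product on `Fin n → ℂ` attached to a representation of a finite
group. -/
noncomputable def invCore {G : Type*} [Group G] [Fintype G] {n : ℕ}
    (ρ : Representation ℂ G (Fin n → ℂ)) : InnerProductSpace.Core ℂ (Fin n → ℂ) where
  inner v w := ∑ g : G, ∑ i, (starRingEnd ℂ) (ρ g v i) * ρ g w i
  conj_inner_symm x y := by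
    simp only [map_sum, map_mul, Complex.conj_conj]
    refine Finset.sum_congr rfl fun g _ => Finset.sum_congr rfl fun i _ => ?_
    ring
  re_inner_nonneg x := by
    simp only [map_sum]
    refine Finset.sum_nonneg fun g _ => Finset.sum_nonneg fun i _ => ?_
    rw [Complex.conj_mul']
    have : ((‖ρ g x i‖ : ℂ) ^ 2) = ((‖ρ g x i‖ ^ 2 : ℝ) : ℂ) := by push_cast; rfl
    rw [this]
    simp only [RCLike.re_to_complex, Complex.ofReal_re]
    positivity
  add_left x y z := by
    simp only [map_add, Pi.add_apply, add_mul, Finset.sum_add_distrib]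
  smul_left x y r := by
    simp only [map_smul, Pi.smul_apply, smul_eq_mul, map_mul, Finset.mul_sum, mul_assoc]
  definite x h := by
    have h1 : ∑ g : G, ∑ i, ‖ρ g x i‖ ^ 2 = 0 := by
      have h2 := congrArg Complex.re h
      simp only [Complex.re_sum, Complex.zero_re] at h2
      rw [← h2]
      refine Finset.sum_congr rfl fun g _ => Finset.sum_congr rfl fun i _ => ?_
      rw [Complex.conj_mul']
      have : ((‖ρ g x i‖ : ℂ) ^ 2) = ((‖ρ g x i‖ ^ 2 : ℝ) : ℂ) := by push_cast; rfl
      rw [this, Complex.ofReal_re]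
    have h3 := (Finset.sum_eq_zero_iff_of_nonneg
      (fun g _ => Finset.sum_nonneg fun i _ => sq_nonneg _)).1 h1 1 (Finset.mem_univ _)
    have h4 := (Finset.sum_eq_zero_iff_of_nonneg (fun i _ => sq_nonneg _)).1 h3
    funext i
    have h5 := h4 i (Finset.mem_univ _)
    rw [map_one, Module.End.one_apply] at h5
    simpa using h5

theorem invCore_inner {G : Type*} [Group G] [Fintype G] {n : ℕ}
    (ρ : Representation ℂ G (Fin n → ℂ)) (v w : Fin n → ℂ) :
    (invCore ρ).inner v w = ∑ g : G, ∑ i, (starRingEnd ℂ) (ρ g v i) * ρ g w i := rfl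

theorem invCore_invariant {G : Type*} [Group G] [Fintype G] {n : ℕ}
    (ρ : Representation ℂ G (Fin n → ℂ)) (h : G) (v w : Fin n → ℂ) :
    (invCore ρ).inner (ρ h v) (ρ h w) = (invCore ρ).inner v w := by
  rw [invCore_inner, invCore_inner]
  refine Fintype.sum_equiv (Equiv.mulRight h) _ _ fun g => ?_
  refine Finset.sum_congr rfl fun i _ => ?_
  simp only [Equiv.coe_mulRight, map_mul, Module.End.mul_apply]

/-- Isaacs 14.16 for a faithful representation on `Fin n → ℂ`. -/
theorem jordan_rep {G : Type*} [Group G] [Finite G] {n : ℕ}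
    (ρ : Representation ℂ G (Fin n → ℂ)) (hf : ∀ g : G, ρ g = 1 → g = 1) :
    ∃ A : Subgroup G, A.Normal ∧ (∀ x ∈ A, ∀ y ∈ A, x * y = y * x) ∧
      ∀ H : Subgroup G, (∀ x ∈ H, ∀ y ∈ H, x * y = y * x) →
        (A.subgroupOf H).index ≤ 12 ^ n := by
  classical
  letI := Fintype.ofFinite G
  let instN : NormedAddCommGroup (Fin n → ℂ) :=
    @InnerProductSpace.Core.toNormedAddCommGroup ℂ (Fin n → ℂ) _ _ _ (invCore ρ)
  let instIP : @InnerProductSpace ℂ (Fin n → ℂ) _ instN.toSeminormedAddCommGroup :=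
    InnerProductSpace.ofCore (invCore ρ).toCore
  have instFD : @FiniteDimensional ℂ (Fin n → ℂ) _ _ instIP.toNormedSpace.toModule :=
    inferInstanceAs (FiniteDimensional ℂ (Fin n → ℂ))
  have hρ : @IsUnitaryRep G _ (Fin n → ℂ) instN instIP ρ :=
    fun g v w => invCore_invariant ρ g v w
  have hfin : @Module.finrank ℂ (Fin n → ℂ) _ _ instIP.toNormedSpace.toModule = n :=
    Module.finrank_fin_fun ℂ
  have := @jordan_unitary G _ (Fin n → ℂ) instN instIP instFD ρ _ hρ hf
  rw [hfin] at this
  exact this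

end Cfsg.Agent.Lib.Helper46
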