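import Cfsg.Agent.Lib.Helper46.BlichE
import Cfsg.Agent.Lib.Helper46.JordanD
import Cfsg.Agent.Lib.Helper4.MonoNilp
import Cfsg.Agent.Lib.Helper83.Induce

/-!
# The explicit Jordan bound (Isaacs 14.12)

* `nilpotent_abelian_index`: a finite nilpotent group with a faithful character of degree `n` has
  an abelian (normal) subgroup of index dividing `n!`.
* `jordan_arith`: the arithmetic assembling the bound from its `p`-parts.
* `jordan_bound`: a finite group with a faithful character of degree `n` has an abelian normal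
  subgroup of index at most `n! * 12 ^ (n * (π (n + 1) + 1))`.
-/

universe u

namespace Cfsg.Agent.Lib.Helper46

open Cfsg Cfsg.Agent.Lib.Helper4

/-- A character induced from a linear character is trivial on commutators of elements of the
normal core of the inducing subgroup. -/
theorem indFun_core_comm {E : Type*} [Group E] [Fintype E] (K : Subgroup E) (l : K →* ℂˣ)
    (a b : E) (ha : a ∈ K.normalCore) (hb : b ∈ K.normalCore) :
    indFun K (fun k => (l k : ℂ)) (a * b * a⁻¹ * b⁻¹) = indFun K (fun k => (l k : ℂ)) 1 := by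
  rw [indFun_apply, indFun_apply]
  congr 1
  refine Finset.sum_congr rfl fun x _ => ?_
  have hax : x⁻¹ * a * x ∈ K := by simpa using ha x⁻¹
  have hbx : x⁻¹ * b * x ∈ K := by simpa using hb x⁻¹
  have h1 : x⁻¹ * (a * b * a⁻¹ * b⁻¹) * x =
      (x⁻¹ * a * x) * (x⁻¹ * b * x) * (x⁻¹ * a * x)⁻¹ * (x⁻¹ * b * x)⁻¹ := by group
  have h2 : x⁻¹ * 1 * x = 1 := by group
  rw [h1, h2]
  have hmem : (x⁻¹ * a * x) * (x⁻¹ * b * x) * (x⁻¹ * a * x)⁻¹ * (x⁻¹ * b * x)⁻¹ ∈ K :=
    K.mul_mem (K.mul_mem (K.mul_mem hax hbx) (K.inv_mem hax)) (K.inv_mem hbx)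
  rw [extendByZero_apply_mem' K _ hmem, extendByZero_apply_mem' K _ K.one_mem]
  have h3 : (⟨_, hmem⟩ : K) = ⟨_, hax⟩ * ⟨_, hbx⟩ * (⟨_, hax⟩ : K)⁻¹ * (⟨_, hbx⟩ : K)⁻¹ := rfl
  have h4 : (⟨1, K.one_mem⟩ : K) = 1 := rfl
  show ((l ⟨_, hmem⟩ : ℂˣ) : ℂ) = ((l ⟨1, K.one_mem⟩ : ℂˣ) : ℂ)
  rw [h3, h4, map_mul, map_mul, map_mul, map_inv, map_inv, map_one]
  have h5 : l ⟨_, hax⟩ * l ⟨_, hbx⟩ * (l ⟨_, hax⟩)⁻¹ * (l ⟨_, hbx⟩)⁻¹ = 1 := by
    rw [mul_comm (l ⟨_, hax⟩) (l ⟨_, hbx⟩)]; group
  rw [h5]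

/-- A finite nilpotent group with a faithful character of degree `n` has an abelian subgroup of
index dividing `n!`. -/
theorem nilpotent_abelian_index {E : Type u} [Group E] [Finite E] [Group.IsNilpotent E]
    (χ : E → ℂ) (hχ : IsCharacter E χ) (hf : ∀ g : E, χ g = χ 1 → g = 1) (n : ℕ)
    (hn : charDegree χ = n) :
    ∃ B : Subgroup E, (∀ x ∈ B, ∀ y ∈ B, x * y = y * x) ∧ B.index ∣ n.factorial := by
  classical
  letI := Fintype.ofFinite E
  have hfin := irr_finite (G := E)
  letI : Fintype (IrrCharacter E) := Fintype.ofFinite _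
  obtain ⟨m, hm⟩ := exists_decomp_of_isCharacter χ hχ
  choose deg hdeg0 hdeg using fun ψ : IrrCharacter E => irr_one_eq_nat ψ
  choose K l hKl using fun ψ : IrrCharacter E => irr_monomial_nilpotent ψ
  have hχ1 : χ 1 = ((∑ ψ : IrrCharacter E, m ψ * deg ψ : ℕ) : ℂ) := by
    conv_lhs => rw [hm]
    rw [Finset.sum_apply]
    push_cast
    refine Finset.sum_congr rfl fun ψ _ => ?_
    rw [Pi.smul_apply, smul_eq_mul, hdeg]
  have hnsum : ∑ ψ : IrrCharacter E, m ψ * deg ψ = n := by
    rw [← hn]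
    unfold charDegree
    rw [hχ1, Complex.natCast_re, Nat.floor_natCast]
  have hidx : ∀ ψ, (K ψ).index = deg ψ := by
    intro ψ
    have h1 := Cfsg.Agent.Lib.Helper83.indFun_one (K ψ) (fun k => (l ψ k : ℂ))
    rw [← hKl ψ, hdeg ψ, map_one, Units.val_one, mul_one] at h1
    exact_mod_cast h1.symm
  set s : Finset (IrrCharacter E) := Finset.univ.filter (fun ψ => m ψ ≠ 0) with hs
  let φ : E →* (∀ ψ : s, Equiv.Perm (E ⧸ K ψ.1)) :=
    MonoidHom.pi (fun ψ => MulAction.toPermHom E (E ⧸ K ψ.1))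
  refine ⟨φ.ker, ?_, ?_⟩
  · intro a ha b hb
    have hmem : ∀ c ∈ φ.ker, ∀ ψ, m ψ ≠ 0 → c ∈ (K ψ).normalCore := by
      intro c hc ψ hψ
      rw [Subgroup.normalCore_eq_ker, MonoidHom.mem_ker]
      have h1 : φ c = 1 := hc
      have h2 := congrFun h1 ⟨ψ, by simp [hs, hψ]⟩
      exact h2
    have key : χ (a * b * a⁻¹ * b⁻¹) = χ 1 := by
      rw [hm]
      simp only [Finset.sum_apply, Pi.smul_apply]
      refine Finset.sum_congr rfl fun ψ _ => ?_
      by_cases hψ : m ψ = 0
      · rw [hψ]; simp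
      · congr 1
        rw [hKl ψ]
        exact indFun_core_comm (K ψ) (l ψ) a b (hmem a ha ψ hψ) (hmem b hb ψ hψ)
    have h2 := hf _ key
    have h3 : a * b * a⁻¹ = b := mul_inv_eq_one.1 h2
    exact mul_inv_eq_iff_eq_mul.1 h3
  · rw [Subgroup.index_ker]
    have h1 : Nat.card φ.range ∣ Nat.card (∀ ψ : s, Equiv.Perm (E ⧸ K ψ.1)) :=
      Subgroup.card_subgroup_dvd_card _
    have h2 : Nat.card (∀ ψ : s, Equiv.Perm (E ⧸ K ψ.1)) = ∏ ψ : s, (deg ψ.1).factorial := by
      rw [Nat.card_pi]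
      refine Finset.prod_congr rfl fun ψ _ => ?_
      rw [Nat.card_perm]
      congr 1
      exact hidx ψ.1
    have h3 : ∏ ψ : s, (deg ψ.1).factorial = ∏ ψ ∈ s, (deg ψ).factorial :=
      Finset.prod_coe_sort s (fun ψ => (deg ψ).factorial)
    have h4 : ∏ ψ ∈ s, (deg ψ).factorial ∣ (∑ ψ ∈ s, deg ψ).factorial :=
      Nat.prod_factorial_dvd_factorial_sum _ _
    have h5 : ∑ ψ ∈ s, deg ψ ≤ n := by
      rw [← hnsum]
      calc ∑ ψ ∈ s, deg ψ ≤ ∑ ψ ∈ s, m ψ * deg ψ :=
            Finset.sum_le_sum (fun ψ hψ => Nat.le_mul_of_pos_left _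
              (Nat.pos_of_ne_zero (by simpa [hs] using hψ)))
        _ ≤ ∑ ψ, m ψ * deg ψ := Finset.sum_le_sum_of_subset (Finset.subset_univ s)
    rw [h2, h3] at h1
    exact dvd_trans h1 (dvd_trans h4 (Nat.factorial_dvd_factorial h5))

theorem index_dvd_relIndex_mul {G : Type*} [Group G] (A H : Subgroup G) :
    A.index ∣ (A.subgroupOf H).index * H.index := by
  have h1 : (A ⊓ H).relIndex H * H.index = (A ⊓ H).index :=
    Subgroup.relIndex_mul_index inf_le_right
  rw [Subgroup.inf_relIndex_right] at h1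
  have h2 : A.index ∣ (A ⊓ H).index := Subgroup.index_dvd_of_le inf_le_left
  rw [← h1] at h2
  exact h2

/-- The arithmetic of the Jordan bound. -/
theorem jordan_arith (m n c : ℕ) (hm : m ≠ 0) (hc : 1 ≤ c)
    (h1 : ∃ h i : ℕ, m ∣ h * i ∧ h ≤ c ∧ h ≠ 0 ∧ ∀ q : ℕ, q.Prime → q ∣ i → q ≤ n + 1)
    (h2 : ∀ p : ℕ, p.Prime → p ≤ n + 1 → ∃ h i : ℕ, m ∣ h * i ∧ h ≤ c ∧ h ≠ 0 ∧ i ≠ 0 ∧
      i.factorization p ≤ (n.factorial).factorization p) :
    m ≤ n.factorial * c ^ (Nat.primeCounting (n + 1) + 1) := by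
  classical
  set S := m.primeFactors with hS
  set S₁ := S.filter (fun p => p ≤ n + 1) with hS₁
  set S₂ := S.filter (fun p => ¬ p ≤ n + 1) with hS₂
  have hprod : m = (∏ p ∈ S₁, p ^ m.factorization p) * ∏ p ∈ S₂, p ^ m.factorization p := by
    rw [Finset.prod_filter_mul_prod_filter_not]
    exact (Nat.factorization_prod_pow_eq_self hm).symm
  -- the part for the large primes
  have hB2 : ∏ p ∈ S₂, p ^ m.factorization p ≤ c := by
    obtain ⟨h, i, hdvd, hhc, hh0, hi⟩ := h1
    have hd1 : ∏ p ∈ S₂, p ^ m.factorization p ∣ m := by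
      conv_rhs => rw [hprod]
      exact Dvd.intro_left _ rfl
    have hcop : Nat.Coprime (∏ p ∈ S₂, p ^ m.factorization p) i := by
      apply Nat.coprime_of_dvd
      intro k hk hk1 hk2
      obtain ⟨p, hp, hkp⟩ := (Prime.dvd_finset_prod_iff (Nat.Prime.prime hk) _).1 hk1
      have hkp' : k ∣ p := hk.dvd_of_dvd_pow hkp
      have hpS : p ∈ S := (Finset.mem_filter.1 hp).1
      have hpp : p.Prime := Nat.prime_of_mem_primeFactors hpS
      have hkeq : k = p := (Nat.prime_dvd_prime_iff_eq hk hpp).1 hkp'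
      have h3 := (Finset.mem_filter.1 hp).2
      have h4 := hi k hk hk2
      omega
    have hd2 : ∏ p ∈ S₂, p ^ m.factorization p ∣ h :=
      hcop.dvd_of_dvd_mul_right (dvd_trans hd1 hdvd)
    exact le_trans (Nat.le_of_dvd (Nat.pos_of_ne_zero hh0) hd2) hhc
  -- the part for each small prime
  have hB1 : ∀ p ∈ S₁, p ^ m.factorization p ≤ c * p ^ (n.factorial).factorization p := by
    intro p hp
    have hpS : p ∈ S := (Finset.mem_filter.1 hp).1
    have hpp : p.Prime := Nat.prime_of_mem_primeFactors hpS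
    have hple := (Finset.mem_filter.1 hp).2
    obtain ⟨h, i, hdvd, hhc, hh0, hi0, hi⟩ := h2 p hpp hple
    have hle : m.factorization p ≤ (h * i).factorization p :=
      (Nat.factorization_le_iff_dvd hm (Nat.mul_ne_zero hh0 hi0)).2 hdvd p
    rw [Nat.factorization_mul hh0 hi0, Finsupp.add_apply] at hle
    calc p ^ m.factorization p ≤ p ^ (h.factorization p + (n.factorial).factorization p) :=
          Nat.pow_le_pow_right hpp.pos (by omega)
      _ = p ^ h.factorization p * p ^ (n.factorial).factorization p := pow_add _ _ _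
      _ ≤ h * p ^ (n.factorial).factorization p :=
          Nat.mul_le_mul_right _ (Nat.le_of_dvd (Nat.pos_of_ne_zero hh0) (Nat.ordProj_dvd h p))
      _ ≤ c * p ^ (n.factorial).factorization p := Nat.mul_le_mul_right _ hhc
  have hsub : S₁ ⊆ Nat.primesBelow (n + 2) := by
    intro p hp
    have hpS : p ∈ S := (Finset.mem_filter.1 hp).1
    have hpp : p.Prime := Nat.prime_of_mem_primeFactors hpS
    have hple := (Finset.mem_filter.1 hp).2
    rw [Nat.primesBelow, Finset.mem_filter, Finset.mem_range]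
    exact ⟨by omega, hpp⟩
  have hB1' : ∏ p ∈ S₁, p ^ m.factorization p ≤
      ∏ p ∈ Nat.primesBelow (n + 2), (c * p ^ (n.factorial).factorization p) := by
    calc ∏ p ∈ S₁, p ^ m.factorization p
        ≤ ∏ p ∈ S₁, (c * p ^ (n.factorial).factorization p) :=
          Finset.prod_le_prod (fun _ _ => Nat.zero_le _) hB1
      _ = 1 * ∏ p ∈ S₁, (c * p ^ (n.factorial).factorization p) := (one_mul _).symm
      _ ≤ (∏ p ∈ Nat.primesBelow (n + 2) \ S₁, (c * p ^ (n.factorial).factorization p)) *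
            ∏ p ∈ S₁, (c * p ^ (n.factorial).factorization p) := by
          apply Nat.mul_le_mul_right
          apply Nat.one_le_iff_ne_zero.2
          apply Finset.prod_ne_zero_iff.2
          intro p hp
          have hp' := (Finset.mem_sdiff.1 hp).1
          rw [Nat.primesBelow, Finset.mem_filter] at hp'
          exact Nat.mul_ne_zero (by omega) (pow_pos hp'.2.pos _).ne'
      _ = ∏ p ∈ Nat.primesBelow (n + 2), (c * p ^ (n.factorial).factorization p) :=
          Finset.prod_sdiff hsub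
  have hfact : ∏ p ∈ Nat.primesBelow (n + 2), p ^ (n.factorial).factorization p
      = n.factorial := by
    have h0 : n.factorial ≠ 0 := n.factorial_ne_zero
    conv_rhs => rw [← Nat.factorization_prod_pow_eq_self h0]
    symm
    apply Finset.prod_subset
    · intro p hp
      rw [Nat.support_factorization] at hp
      have hpp := Nat.prime_of_mem_primeFactors hp
      have hd := Nat.dvd_of_mem_primeFactors hp
      have h3 := (Nat.Prime.dvd_factorial hpp).1 hd
      rw [Nat.primesBelow, Finset.mem_filter, Finset.mem_range]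
      exact ⟨by omega, hpp⟩
    · intro p _ hp
      rw [Finsupp.notMem_support_iff] at hp
      rw [hp]
      exact pow_zero p
  have hcard : (Nat.primesBelow (n + 2)).card = Nat.primeCounting (n + 1) := by
    rw [Nat.primesBelow_card_eq_primeCounting']; rfl
  calc m = (∏ p ∈ S₁, p ^ m.factorization p) * ∏ p ∈ S₂, p ^ m.factorization p := hprod
    _ ≤ (∏ p ∈ Nat.primesBelow (n + 2), (c * p ^ (n.factorial).factorization p)) * c :=
        Nat.mul_le_mul hB1' hB2
    _ = n.factorial * c ^ (Nat.primeCounting (n + 1) + 1) := by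
        rw [Finset.prod_mul_distrib, Finset.prod_const, hfact, hcard, pow_succ]
        ring

/-- **Jordan's theorem, explicit form** (Isaacs 14.12). -/
theorem jordan_bound {G : Type u} [Group G] [Finite G] (χ : G → ℂ) (hχ : IsCharacter G χ)
    (hf : ∀ g : G, χ g = χ 1 → g = 1) (n : ℕ) (hn : charDegree χ = n) :
    ∃ A : Subgroup G, A.Normal ∧ (∀ x ∈ A, ∀ y ∈ A, x * y = y * x) ∧
      A.index ≤ n.factorial * 12 ^ (n * (Nat.primeCounting (n + 1) + 1)) := by
  have hχ' := hχ
  obtain ⟨m, ρ, hρ⟩ := hχ'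
  have hχ1 : χ 1 = (m : ℂ) := by
    rw [← hρ]
    show LinearMap.trace ℂ (Fin m → ℂ) (ρ 1) = m
    rw [map_one, LinearMap.trace_one, Module.finrank_fin_fun]
  have hmn : m = n := by
    rw [← hn]
    unfold Cfsg.charDegree
    rw [hχ1]
    simp
  have hfρ : ∀ g : G, ρ g = 1 → g = 1 := by
    intro g hg
    apply hf
    rw [← hρ]
    show LinearMap.trace ℂ (Fin m → ℂ) (ρ g) = LinearMap.trace ℂ (Fin m → ℂ) (ρ 1)
    rw [hg, (map_one ρ : ρ 1 = 1)]
  obtain ⟨A, hAn, hAab, hA⟩ := jordan_rep ρ hfρ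
  rw [hmn] at hA
  refine ⟨A, hAn, hAab, ?_⟩
  rw [pow_mul]
  apply jordan_arith A.index n (12 ^ n) Subgroup.index_ne_zero_of_finite
    (Nat.one_le_pow _ _ (by norm_num))
  · obtain ⟨H, hHab, -, hHidx⟩ := blichfeldt_hall n (Nat.card G) G rfl χ hχ hf hn
    exact ⟨(A.subgroupOf H).index, H.index, index_dvd_relIndex_mul A H, hA H hHab,
      Subgroup.index_ne_zero_of_finite, hHidx⟩
  · intro p hp hple
    haveI : Fact p.Prime := ⟨hp⟩
    obtain ⟨P⟩ := (inferInstance : Nonempty (Sylow p G))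
    haveI : Group.IsNilpotent (P : Subgroup G) := P.isPGroup'.isNilpotent
    have hfP : ∀ g : (P : Subgroup G), (fun h : (P : Subgroup G) => χ h) g =
        (fun h : (P : Subgroup G) => χ h) 1 → g = 1 := fun g hg => Subtype.ext (hf g hg)
    obtain ⟨B₀, hB₀ab, hB₀idx⟩ := nilpotent_abelian_index (fun h : (P : Subgroup G) => χ h)
      (isCharacter_restrict _ hχ) hfP n hn
    set B : Subgroup G := B₀.map (P : Subgroup G).subtype with hB
    have hBab : ∀ x ∈ B, ∀ y ∈ B, x * y = y * x := by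
      intro a ha b hb
      obtain ⟨a', ha', rfl⟩ := Subgroup.mem_map.1 ha
      obtain ⟨b', hb', rfl⟩ := Subgroup.mem_map.1 hb
      exact congrArg Subtype.val (hB₀ab a' ha' b' hb')
    have hBidx : B.index = B₀.index * (P : Subgroup G).index := Subgroup.index_map_subtype B₀
    have hPidx : ¬ p ∣ (P : Subgroup G).index :=
      not_dvd_index_of_card_le (P : Subgroup G) (P : Subgroup G) le_rfl P.card_eq_multiplicity
    refine ⟨(A.subgroupOf B).index, B.index, index_dvd_relIndex_mul A B, hA B hBab,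
      Subgroup.index_ne_zero_of_finite, Subgroup.index_ne_zero_of_finite, ?_⟩
    rw [hBidx, Nat.factorization_mul Subgroup.index_ne_zero_of_finite
      Subgroup.index_ne_zero_of_finite, Finsupp.add_apply,
      Nat.factorization_eq_zero_of_not_dvd hPidx, add_zero]
    exact (Nat.factorization_le_iff_dvd Subgroup.index_ne_zero_of_finite
      n.factorial_ne_zero).2 hB₀idx p

end Cfsg.Agent.Lib.Helper46
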