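import Mathlib
import Cfsg.Agent.Lib.Helper48.MulA
import Cfsg.Agent.Lib.Helper70.SchurCE2

/-!
# S2086 piece COVER (helper46, for helper48): `hasSchurMultiplier_of_trivial_cover`
-/

set_option autoImplicit false
open scoped commutatorElement

namespace Cfsg.Agent.Lib.Helper48.Mul

open Cfsg.Agent.Lib.Helper48 Cfsg.Agent.Lib.Helper48.St Cfsg.Agent.Lib.Helper70

universe u v

/-- piece COVER -/
theorem hasSchurMultiplier_of_trivial_cover {Q : Type u} {X : Type u} [Group Q] [Group X] [Finite X]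
    (σ₀ : X →* Q) (h₀ : Cfsg.IsStemExtension σ₀) (hX : Cfsg.HasCyclicSchurMultiplier X 1)
    {A : Type v} [CommGroup A] (e : Nonempty (σ₀.ker ≃* A)) : Cfsg.HasSchurMultiplier Q A := by
  obtain ⟨e⟩ := e
  refine ⟨⟨X, inferInstance, inferInstance, σ₀, h₀, ⟨e⟩⟩, ?_⟩
  intro Δ _ _ τ hτ
  have h1 : Function.Surjective (pb.fst σ₀ τ) := pb.fst_surjective σ₀ τ hτ.1
  have h2 : Function.Surjective (pb.snd σ₀ τ) := pb.snd_surjective σ₀ τ h₀.1
  have hker : (pb.fst σ₀ τ).ker ≤ Subgroup.center (pb σ₀ τ) := pb.ker_fst_le_center σ₀ τ hτ.2.1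
  have hdisj := commutator_inf_ker_eq_bot_of_trivial hX (pb.fst σ₀ τ) h1 hker
  obtain ⟨π, hπ⟩ := exists_surj_ker_of_disjoint σ₀ τ (pb.fst σ₀ τ) (pb.snd σ₀ τ) h1 h2
    (pb.comm σ₀ τ) h₀.2.2 hτ.2.2 hdisj
  exact ⟨π.comp e.symm.toMonoidHom, hπ.comp e.symm.surjective⟩

end Cfsg.Agent.Lib.Helper48.Mul
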