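import Mathlib
import Cfsg.Agent.Lib.Helper4.Burnside

/-!
Project OTIF (S5673, helper86), piece OT5b: a subgroup of `(GL_3(F_3))^k` without elements of
order 13 is solvable (its order is `2^a * 3^b`; Burnside).
-/

set_option autoImplicit false

namespace Cfsg.Agent.Lib.Helper46.OT5b

open Matrix

variable {F : Type*} [Field F] [Fintype F]

theorem OT5b_twothree (n : ℕ) (hn : n ≠ 0) (h : ∀ p : ℕ, p.Prime → p ∣ n → p = 2 ∨ p = 3) :
    ∃ a b, n = 2 ^ a * 3 ^ b := by
  induction n using Nat.strong_induction_on with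
  | _ n ih =>
    by_cases h1 : n = 1
    · exact ⟨0, 0, by simp [h1]⟩
    · obtain ⟨p, hp, hpn⟩ := Nat.exists_prime_and_dvd h1
      obtain ⟨m, rfl⟩ := hpn
      have hm0 : m ≠ 0 := by
        rintro rfl
        simp at hn
      have hlt : m < p * m := by
        have h2 := hp.two_le
        have h3 := Nat.pos_of_ne_zero hm0
        nlinarith
      obtain ⟨a, b, hab⟩ := ih m hlt hm0 (fun r hr hrm => h r hr (Dvd.dvd.mul_left hrm p))
      rcases h p hp (dvd_mul_right p m) with rfl | rfl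
      · exact ⟨a + 1, b, by rw [hab]; ring⟩
      · exact ⟨a, b + 1, by rw [hab]; ring⟩

theorem OT5b (hq3 : Fintype.card F = 3) {k : ℕ} (M : Subgroup (Fin k → GL (Fin 3) F))
    (h13 : ∀ x ∈ M, x ^ 13 = 1 → x = 1) : Group.IsSolvable ↥M := by
  classical
  have hGL : Nat.card (GL (Fin 3) F) = 11232 := by
    rw [Matrix.card_GL_field, hq3]
    simp [Fin.prod_univ_three]
  have hpi : Nat.card (Fin k → GL (Fin 3) F) = 11232 ^ k := by
    rw [Nat.card_pi, Finset.prod_const, Finset.card_univ, Fintype.card_fin, hGL]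
  have hdvd : Nat.card ↥M ∣ 11232 ^ k := by
    rw [← hpi]
    exact Subgroup.card_subgroup_dvd_card M
  have h13' : ¬ 13 ∣ Nat.card ↥M := by
    intro hd
    haveI : Fact (Nat.Prime 13) := ⟨by norm_num⟩
    obtain ⟨x, hx⟩ := exists_prime_orderOf_dvd_card' 13 hd
    have hx13 : x ^ 13 = 1 := by
      rw [← hx]
      exact pow_orderOf_eq_one x
    have hx1 : (x : Fin k → GL (Fin 3) F) = 1 := h13 x x.2 (by
      have h2 := congrArg Subtype.val hx13
      simpa using h2)
    have hx0 : x = 1 := Subtype.ext hx1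
    rw [hx0, orderOf_one] at hx
    norm_num at hx
  have hprimes : ∀ p : ℕ, p.Prime → p ∣ Nat.card ↥M → p = 2 ∨ p = 3 := by
    intro p hp hpd
    have h1 : p ∣ 11232 ^ k := hpd.trans hdvd
    have h2 : p ∣ 11232 := hp.dvd_of_dvd_pow h1
    have h3 : (11232 : ℕ) = 2 ^ 5 * 3 ^ 3 * 13 := by norm_num
    rw [h3] at h2
    rcases (Nat.Prime.dvd_mul hp).1 h2 with h4 | h4
    · rcases (Nat.Prime.dvd_mul hp).1 h4 with h5 | h5
      · left
        exact (Nat.prime_dvd_prime_iff_eq hp Nat.prime_two).1 (hp.dvd_of_dvd_pow h5)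
      · right
        exact (Nat.prime_dvd_prime_iff_eq hp Nat.prime_three).1 (hp.dvd_of_dvd_pow h5)
    · exfalso
      have h6 : p = 13 := (Nat.prime_dvd_prime_iff_eq hp (by norm_num)).1 h4
      subst h6
      exact h13' hpd
  obtain ⟨a, b, hab⟩ := OT5b_twothree (Nat.card ↥M) Nat.card_pos.ne' hprimes
  exact Cfsg.Agent.Lib.Helper4.burnside 2 3 a b Nat.prime_two Nat.prime_three hab

end Cfsg.Agent.Lib.Helper46.OT5b
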