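import Mathlib

/-!
# OMC piece ARITHA (helper46, for helper47): natural number arithmetic for S2684
-/

set_option autoImplicit false

namespace Cfsg.Agent.Lib.Helper46.Omc

-- PIECE ARITHA
theorem arith_a (q m s cS cO A : ℕ) (hq : 2 ≤ q) (hs : s ≤ m) (hev : Even s)
    (h1 : (s = m → cS = q ^ m * cO) ∧ (s < m → cS = q ^ m * (q ^ (m - s) + 1) * cO))
    (h2 : cS = q ^ (2 * m * s - (3 * s ^ 2 - s) / 2) * A *
      ((q : ℕ) ^ ((m - s) ^ 2) * ∏ i : Fin (m - s), (q ^ (2 * ((i : ℕ) + 1)) - 1))) :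
    cO = q ^ (2 * m * s - (3 * s ^ 2 + s) / 2) * A *
      (if s = m then 1 else q ^ ((m - s) * (m - s - 1)) * (q ^ (m - s) - 1) *
        ∏ i : Fin (m - s - 1), (q ^ (2 * ((i : ℕ) + 1)) - 1)) := by
  have hq0 : 0 < q := by omega
  have hE : 2 * m * s - (3 * s ^ 2 - s) / 2 = (2 * m * s - (3 * s ^ 2 + s) / 2) + s := by
    obtain ⟨k, rfl⟩ := hev
    have hk2 : (k + k) ^ 2 = 4 * (k * k) := by ring
    have hT : 2 * m * (k + k) = 4 * (m * k) := by ring
    have h3 : (k + k) * k ≤ m * k := Nat.mul_le_mul_right k hs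
    have h4 : (k + k) * k = 2 * (k * k) := by ring
    have h5 : k ≤ k * k := Nat.le_mul_self k
    rw [hk2, hT]
    omega
  rw [hE, Fin.prod_univ_eq_prod_range (fun i => q ^ (2 * (i + 1)) - 1) (m - s)] at h2
  rw [Fin.prod_univ_eq_prod_range (fun i => q ^ (2 * (i + 1)) - 1) (m - s - 1)]
  generalize 2 * m * s - (3 * s ^ 2 + s) / 2 = E at h2 ⊢
  rcases Nat.eq_or_lt_of_le hs with hsm | hsm
  · rw [if_pos hsm]
    have h1' := h1.1 hsm
    subst hsm
    rw [Nat.sub_self] at h2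
    simp only [Finset.range_zero, Finset.prod_empty] at h2
    have : q ^ s * cO = q ^ s * (q ^ E * A * 1) := by
      rw [← h1', h2]
      ring
    exact Nat.eq_of_mul_eq_mul_left (pow_pos hq0 s) this
  · rw [if_neg (Nat.ne_of_lt hsm)]
    have h1' := h1.2 hsm
    obtain ⟨d, hd⟩ : ∃ d, m - s = d + 1 := ⟨m - s - 1, by omega⟩
    have hd' : m - s - 1 = d := by omega
    have hm : m = s + (d + 1) := by omega
    rw [hd, Finset.prod_range_succ] at h2
    rw [hd] at h1'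
    rw [hd, Nat.add_sub_cancel]
    have hfac : q ^ (2 * (d + 1)) - 1 = (q ^ (d + 1) + 1) * (q ^ (d + 1) - 1) := by
      have h := Nat.sq_sub_sq (q ^ (d + 1)) 1
      rw [← pow_mul, one_pow] at h
      rw [mul_comm 2 (d + 1)]
      exact h
    rw [hfac] at h2
    have hpos : 0 < q ^ m * (q ^ (d + 1) + 1) := by positivity
    apply Nat.eq_of_mul_eq_mul_left hpos
    rw [← h1', h2, hm]
    generalize (q ^ (d + 1) - 1) = X
    generalize (∏ i ∈ Finset.range d, (q ^ (2 * (i + 1)) - 1)) = P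
    ring

end Cfsg.Agent.Lib.Helper46.Omc
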