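import Cfsg.Agent.Lib.Helper47.OmcDefs

/-!
# OMC piece RANKLE (helper46, for helper47): `rank (x - 1) ≤ m` for an involution of `O⁺_{2m}`
-/

set_option autoImplicit false

namespace Cfsg.Agent.Lib.Helper46.Omc

open Cfsg.Agent.Lib.Helper47 Matrix

variable {F : Type*} [Field F]

-- PIECE RANKLE
theorem rank_le_of_inv [Fintype F] [CharP F 2] (m : ℕ)
    (x : ↥(Cfsg.isometryGroup F (Cfsg.quadFormPlus m F))) (hx : x ^ 2 = 1) :
    (omat x - 1).rank ≤ m := by
  have hMM : omat x * omat x = 1 := by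
    rw [← omat_mul, ← pow_two, hx, omat_one]
  have h2F : (2 : F) = 0 := by
    have : ((2 : ℕ) : F) = 0 := CharP.cast_eq_zero F 2
    exact_mod_cast this
  have hXX : ∀ X : Matrix (Fin m ⊕ Fin m) (Fin m ⊕ Fin m) F, X + X = 0 := by
    intro X
    rw [← two_smul F X, h2F, zero_smul]
  have hNN : (omat x - 1) * (omat x - 1) = 0 := by
    have : (omat x - 1) * (omat x - 1) = omat x * omat x + 1 - (omat x + omat x) := by
      noncomm_ring
    rw [this, hMM, hXX, hXX, sub_zero]
  have hle : LinearMap.range (omat x - 1).mulVecLin ≤ LinearMap.ker (omat x - 1).mulVecLin := by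
    rintro _ ⟨v, rfl⟩
    rw [LinearMap.mem_ker, Matrix.mulVecLin_apply, Matrix.mulVecLin_apply, Matrix.mulVec_mulVec,
      hNN, Matrix.zero_mulVec]
  have h1 := Submodule.finrank_mono hle
  have h3 := LinearMap.finrank_range_add_finrank_ker (omat x - 1).mulVecLin
  rw [Module.finrank_fintype_fun_eq_card] at h3
  have h4 : (omat x - 1).rank = Module.finrank F (LinearMap.range (omat x - 1).mulVecLin) := rfl
  have h5 : Fintype.card (Fin m ⊕ Fin m) = m + m := by simp
  omega

end Cfsg.Agent.Lib.Helper46.Omc
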