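import Mathlib
import Cfsg.Agent.Lib.Helper72.PQDefs
import Cfsg.Agent.Lib.Helper12.Ward7

/-!
# S4306 piece PQ-L3 `l3` (helper46, for helper72)
-/

set_option autoImplicit false

namespace Cfsg.Agent.Lib.Helper46.PQ

open Cfsg.Agent.Lib.Helper72.PQ
open Cfsg.Agent.Lib.Helper12.Ward (omegaSub mem_omegaSub nz_omegaSub nz_inf nz_centralizer)

universe u

theorem l3 : L3Stmt.{u} := by
  intro Γ _ _ p ℓ r q s A F V Q R h
  constructor
  · have hVc : ∀ v ∈ V, ∀ w ∈ V, v * w = w * v := h.hVc
    haveI := Fact.mk h.hr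
    have hcard1 : Nat.card V ≠ 1 := fun hc => h.hV1 (Subgroup.card_eq_one.mp hc)
    have hrd : r ∣ Nat.card V := by
      obtain ⟨k, hk⟩ := (IsPGroup.iff_card (p := r)).mp h.hVr
      have hk0 : k ≠ 0 := by
        intro h0
        rw [h0, pow_zero] at hk
        exact hcard1 hk
      rw [hk]
      exact dvd_pow_self r hk0
    obtain ⟨x, hx⟩ := exists_prime_orderOf_dvd_card' (G := ↥V) r hrd
    have hne : omegaSub V hVc r ≠ ⊥ := by
      intro hb
      have hxm : (x : Γ) ∈ omegaSub V hVc r := by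
        rw [mem_omegaSub]
        refine ⟨x.2, ?_⟩
        have h3 := pow_orderOf_eq_one x
        rw [hx] at h3
        have h4 := congrArg Subtype.val h3
        simpa using h4
      rw [hb, Subgroup.mem_bot] at hxm
      have h5 : x = 1 := Subtype.ext hxm
      rw [h5, orderOf_one] at hx
      exact h.hr.one_lt.ne hx
    rcases h.hE2 (omegaSub V hVc r) (fun v hv => hv.1)
      (fun a ha => nz_omegaSub hVc r (h.hAV ha)) (fun a ha => nz_omegaSub hVc r (h.hQV ha))
      (fun a ha => nz_omegaSub hVc r (h.hRV ha)) with h0 | h1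
    · exact absurd h0 hne
    · intro v hv
      have hvm : v ∈ omegaSub V hVc r := by
        rw [h1]
        exact hv
      exact hvm.2
  · intro N hNQ hN1 hAN hQN hRN v hv hcomm
    have hnz : ∀ g : Γ, g ∈ Subgroup.normalizer (V : Set Γ) →
        g ∈ Subgroup.normalizer (N : Set Γ) →
        g ∈ Subgroup.normalizer
          ((V ⊓ Subgroup.centralizer (N : Set Γ) : Subgroup Γ) : Set Γ) :=
      fun g h1 h2 => nz_inf h1 (nz_centralizer h2)
    rcases h.hE2 (V ⊓ Subgroup.centralizer (N : Set Γ)) inf_le_left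
      (fun a ha => hnz a (h.hAV ha) (hAN ha)) (fun a ha => hnz a (h.hQV ha) (hQN ha))
      (fun a ha => hnz a (h.hRV ha) (hRN ha)) with h0 | h1
    · have hvc : v ∈ Subgroup.centralizer (N : Set Γ) := by
        rw [Subgroup.mem_centralizer_iff]
        intro n hn
        exact hcomm n hn
      have hvm : v ∈ V ⊓ Subgroup.centralizer (N : Set Γ) := Subgroup.mem_inf.mpr ⟨hv, hvc⟩
      rw [h0, Subgroup.mem_bot] at hvm
      exact hvm
    · exfalso
      apply hN1
      rw [Subgroup.eq_bot_iff_forall]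
      intro n hn
      apply h.hE2' n (hNQ hn)
      intro v' hv'
      have hvm : v' ∈ V ⊓ Subgroup.centralizer (N : Set Γ) := by
        rw [h1]
        exact hv'
      exact Subgroup.mem_centralizer_iff.mp (Subgroup.mem_inf.mp hvm).2 n hn

end Cfsg.Agent.Lib.Helper46.PQ
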