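import Mathlib
import Cfsg.Agent.Lib.Helper72.PQDefs
import Cfsg.Agent.Lib.Helper12.Ward2

/-!
# S4306 piece PQ-LANGQ `langq` (helper46, for helper72)
-/

set_option autoImplicit false

namespace Cfsg.Agent.Lib.Helper46.PQ

open Cfsg.Agent.Lib.Helper72.PQ
open Cfsg.Agent.Lib.Helper12.Ward (conj_mem_of_nz conj_mem_of_nz')

universe u

/-- the partial products `x₀ x₁ ⋯ x_{k-1}`, `x_i = c^i x c^{-i}` -/
def langqP {Γ : Type u} [Group Γ] (c x : Γ) : ℕ → Γ
  | 0 => 1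
  | k + 1 => langqP c x k * (c ^ k * x * (c ^ k)⁻¹)

theorem langqP_zero {Γ : Type u} [Group Γ] (c x : Γ) : langqP c x 0 = 1 := rfl

theorem langqP_succ {Γ : Type u} [Group Γ] (c x : Γ) (k : ℕ) :
    langqP c x (k + 1) = langqP c x k * (c ^ k * x * (c ^ k)⁻¹) := rfl

theorem langqP_conj {Γ : Type u} [Group Γ] (c x : Γ) (k : ℕ) :
    c * langqP c x k * c⁻¹ = x⁻¹ * langqP c x (k + 1) := by
  induction k with
  | zero =>
    rw [langqP_succ, langqP_zero]
    group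
  | succ k ih =>
    have e1 : c * langqP c x (k + 1) * c⁻¹ =
        (c * langqP c x k * c⁻¹) * (c * (c ^ k * x * (c ^ k)⁻¹) * c⁻¹) := by
      rw [langqP_succ]
      group
    have e2 : c * (c ^ k * x * (c ^ k)⁻¹) * c⁻¹ = c ^ (k + 1) * x * (c ^ (k + 1))⁻¹ := by
      rw [pow_succ']
      group
    rw [e1, ih, e2, langqP_succ c x (k + 1), mul_assoc]

theorem langq : LangQStmt.{u} := by
  intro Γ _ _ s m R C R₁ c hs hR hms hcm hcR hcR₁ hCR₁ hR₁R hcomm hfpf x hx hxc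
  -- `R₁` is normalised by `R`
  have hnorm : ∀ g ∈ R, ∀ y ∈ R₁, g * y * g⁻¹ ∈ R₁ := by
    intro g hg y hy
    have h1 : g * y * g⁻¹ * y⁻¹ ∈ R₁ := hCR₁ (hcomm g hg y (hR₁R hy))
    have h2 : g * y * g⁻¹ = (g * y * g⁻¹ * y⁻¹) * y := by group
    rw [h2]
    exact R₁.mul_mem h1 hy
  have hck : ∀ k : ℕ, c ^ k ∈ Subgroup.normalizer (R : Set Γ) := fun k => Subgroup.pow_mem _ hcR k
  have hxk : ∀ k : ℕ, c ^ k * x * (c ^ k)⁻¹ ∈ R := fun k => conj_mem_of_nz (hck k) hx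
  -- `x_k ∈ x R₁`
  have h2a : ∀ k : ℕ, x⁻¹ * (c ^ k * x * (c ^ k)⁻¹) ∈ R₁ := by
    intro k
    induction k with
    | zero =>
      have : x⁻¹ * (c ^ 0 * x * (c ^ 0)⁻¹) = 1 := by
        rw [pow_zero]
        group
      rw [this]
      exact R₁.one_mem
    | succ k ih =>
      have e : x⁻¹ * (c ^ (k + 1) * x * (c ^ (k + 1))⁻¹) =
          (x⁻¹ * (c * x * c⁻¹)) * (c * (x⁻¹ * (c ^ k * x * (c ^ k)⁻¹)) * c⁻¹) := by
        rw [pow_succ']
        group
      rw [e]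
      exact R₁.mul_mem hxc (conj_mem_of_nz hcR₁ ih)
  have hPR : ∀ k : ℕ, langqP c x k ∈ R := by
    intro k
    induction k with
    | zero =>
      rw [langqP_zero]
      exact R.one_mem
    | succ k ih =>
      rw [langqP_succ]
      exact R.mul_mem ih (hxk k)
  -- `P k ∈ x^k R₁`
  have h2 : ∀ k : ℕ, (x ^ k)⁻¹ * langqP c x k ∈ R₁ := by
    intro k
    induction k with
    | zero =>
      rw [langqP_zero, pow_zero]
      simp
    | succ k ih =>
      have e : (x ^ (k + 1))⁻¹ * langqP c x (k + 1) =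
          (x⁻¹ * ((x ^ k)⁻¹ * langqP c x k) * x⁻¹⁻¹) * (x⁻¹ * (c ^ k * x * (c ^ k)⁻¹)) := by
        rw [langqP_succ, pow_succ]
        group
      rw [e]
      exact R₁.mul_mem (hnorm x⁻¹ (R.inv_mem hx) _ ih) (h2a k)
  -- the norm is fixed modulo `C`
  have hN : langqP c x m ∈ C := by
    apply hfpf _ (hPR m)
    have e1 : c * langqP c x m * c⁻¹ = x⁻¹ * langqP c x m * x := by
      rw [langqP_conj, langqP_succ, hcm]
      group
    have e2 : c * langqP c x m * c⁻¹ * (langqP c x m)⁻¹ =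
        x⁻¹ * langqP c x m * x⁻¹⁻¹ * (langqP c x m)⁻¹ := by
      rw [e1]
      group
    rw [e2]
    exact hcomm x⁻¹ (R.inv_mem hx) _ (hPR m)
  have hxm : x ^ m ∈ R₁ := by
    have e : x ^ m = langqP c x m * ((x ^ m)⁻¹ * langqP c x m)⁻¹ := by group
    rw [e]
    exact R₁.mul_mem (hCR₁ hN) (R₁.inv_mem (h2 m))
  -- `x` is a power of `x ^ m`
  have hcop : m.Coprime (orderOf x) := by
    obtain ⟨k, hk⟩ := hR ⟨x, hx⟩
    have hk' : x ^ s ^ k = 1 := by
      have := congrArg Subtype.val hk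
      simpa using this
    have hdvd : orderOf x ∣ s ^ k := orderOf_dvd_of_pow_eq_one hk'
    exact Nat.Coprime.coprime_dvd_right hdvd (Nat.Coprime.pow_right k hms)
  obtain ⟨j, hj⟩ := exists_pow_eq_self_of_coprime hcop
  rw [← hj]
  exact R₁.pow_mem hxm j

end Cfsg.Agent.Lib.Helper46.PQ
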