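import Cfsg.Agent.Lib.Helper96.PiDefs
import Cfsg.Agent.Lib.Helper96.PiGlueB
import Cfsg.Agent.Lib.Helper96.PiOmega
import Cfsg.Agent.Lib.Helper9.HeUNIPPOW

/-!
Project PI (S5989, helper96), piece ISOSUM: orthogonal sums of isometric pieces are isometric.
-/

set_option autoImplicit false
set_option linter.unusedSectionVars false
set_option linter.unusedVariables false

namespace Cfsg.Agent.Lib.Helper46.Pi

open Module Cfsg.Agent.Lib.Helper96.Sp Cfsg.Agent.Lib.Helper96.BG Cfsg.Agent.Lib.Helper96.Hy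
  Cfsg.Agent.Lib.Helper96.Pi Cfsg.Agent.Lib.Helper47

universe u

variable {F : Type u} [Field F] [Fintype F] {V : Type u} [AddCommGroup V] [Module F V]
  [FiniteDimensional F V] {B : LinearMap.BilinForm F V}

theorem isosum_inj (X Y : Submodule F V) (h : ∀ u ∈ X, u ∈ Y → u = 0) (x : X) (y : Y)
    (hxy : (x : V) + (y : V) = 0) : x = 0 ∧ y = 0 := by
  have hx : (x : V) = -(y : V) := eq_neg_of_add_eq_zero_left hxy
  have hx0 : (x : V) = 0 := h x x.2 (by rw [hx]; exact Y.neg_mem y.2)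
  have hy0 : (y : V) = 0 := by rw [hx0, zero_add] at hxy; exact hxy
  exact ⟨Subtype.ext hx0, Subtype.ext hy0⟩

/-- The sum map `X × Y → X ⊔ Y` is a linear equivalence when `X ⊓ Y = ⊥`. -/
noncomputable def isosumEquiv (X Y : Submodule F V) (h : ∀ u ∈ X, u ∈ Y → u = 0) :
    (X × Y) ≃ₗ[F] ↥(X ⊔ Y) :=
  LinearEquiv.ofBijective
    ((X.subtype.coprod Y.subtype).codRestrict (X ⊔ Y) (fun p => by
      rw [LinearMap.coprod_apply]
      exact Submodule.add_mem_sup p.1.2 p.2.2))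
    ⟨by
      rw [injective_iff_map_eq_zero]
      rintro ⟨x, y⟩ hp
      have hp' : (x : V) + (y : V) = 0 := by
        have := congrArg Subtype.val hp
        simpa using this
      obtain ⟨hx, hy⟩ := isosum_inj X Y h x y hp'
      rw [hx, hy]; rfl,
     by
      rintro ⟨w, hw⟩
      obtain ⟨x, hx, y, hy, rfl⟩ := Submodule.mem_sup.1 hw
      exact ⟨(⟨x, hx⟩, ⟨y, hy⟩), Subtype.ext (by simp)⟩⟩

theorem isosumEquiv_apply (X Y : Submodule F V) (h : ∀ u ∈ X, u ∈ Y → u = 0) (p : X × Y) :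
    ((isosumEquiv X Y h p : ↥(X ⊔ Y)) : V) = (p.1 : V) + (p.2 : V) := rfl

theorem iso_sup (hS : B.IsSymm) (h2 : (2 : F) ≠ 0) (X₁ Y₁ X₂ Y₂ : Submodule F V)
    (hX₁ : ND B X₁) (hX₂ : ND B X₂) (h1 : Orth B X₁ Y₁) (h1' : Orth B X₂ Y₂)
    (hX : Iso B X₁ X₂) (hY : Iso B Y₁ Y₂) : Iso B (X₁ ⊔ Y₁) (X₂ ⊔ Y₂) := by
  obtain ⟨eX, heX⟩ := hX
  obtain ⟨eY, heY⟩ := hY
  have d1 : ∀ u ∈ X₁, u ∈ Y₁ → u = 0 := fun u hu hu' =>
    hX₁ u hu (fun v hv => by rw [← hS.eq v u]; simpa using h1 v hv u hu')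
  have d2 : ∀ u ∈ X₂, u ∈ Y₂ → u = 0 := fun u hu hu' =>
    hX₂ u hu (fun v hv => by rw [← hS.eq v u]; simpa using h1' v hv u hu')
  refine ⟨((isosumEquiv X₁ Y₁ d1).symm.trans (eX.prodCongr eY)).trans (isosumEquiv X₂ Y₂ d2),
    fun w => ?_⟩
  obtain ⟨p, rfl⟩ := (isosumEquiv X₁ Y₁ d1).surjective w
  rw [LinearEquiv.trans_apply, LinearEquiv.trans_apply, LinearEquiv.symm_apply_apply,
    isosumEquiv_apply, isosumEquiv_apply]
  have c1 : B (p.1 : V) (p.2 : V) = 0 := h1 _ p.1.2 _ p.2.2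
  have c1' : B (p.2 : V) (p.1 : V) = 0 := by rw [← hS.eq]; simpa using c1
  have c2 : B (eX p.1 : V) (eY p.2 : V) = 0 := h1' _ (eX p.1).2 _ (eY p.2).2
  have c2' : B (eY p.2 : V) (eX p.1 : V) = 0 := by rw [← hS.eq]; simpa using c2
  simp only [LinearEquiv.prodCongr_apply, map_add, LinearMap.add_apply]
  rw [c1, c1', c2, c2', heX, heY]

end Cfsg.Agent.Lib.Helper46.Pi
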