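import Mathlib
import Cfsg.Prelude.Def_GeometricClasses
import Cfsg.Prelude.Def_LieClassical
import Cfsg.Agent.Lib.Helper46.OMPT0

/-! Project SPP (helper71; S5805/S5844), piece TRq (helper46): transport of a fixed
non-degenerate quadratic form along `glReindex`. -/

set_option autoImplicit false

namespace Cfsg.Agent.Lib.Helper46.SPPTRq

open Matrix Cfsg.Geo

variable {n : ℕ} {F : Type*} [Field F] [Fintype F]

variable {κ : Type} [Fintype κ] [DecidableEq κ]

/-- TRq -/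
theorem TRq (e : κ ≃ Fin n) (P' : Subgroup (GL (Fin n) F))
    (h : ∃ Q : (κ → F) → F, IsNondegenerateQuadraticForm Q ∧
      FixesQuadForm (matrixSet (P'.comap (glReindex e).toMonoidHom)) Q) :
    ∃ Q' : (Fin n → F) → F, IsNondegenerateQuadraticForm Q' ∧ FixesQuadForm (matrixSet P') Q' := by
  obtain ⟨Q, hQ, hfix⟩ := h
  refine ⟨Cfsg.Agent.Lib.Helper46.OMPT0.tQ e Q, Cfsg.Agent.Lib.Helper46.OMPT0.T0a e Q hQ, ?_⟩
  rintro s ⟨g', hg', rfl⟩ v
  obtain ⟨g, hg⟩ : ∃ g : GL κ F, glReindex e g = g' :=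
    ⟨(glReindex e).symm g', (glReindex e).apply_symm_apply g'⟩
  have hgmem : (g : Matrix κ κ F) ∈ matrixSet (P'.comap (glReindex e).toMonoidHom) := by
    refine ⟨g, ?_, rfl⟩
    show glReindex e g ∈ P'
    rw [hg]
    exact hg'
  show Q (((g' : GL (Fin n) F).1 *ᵥ v) ∘ e) = Q (v ∘ e)
  rw [← hg, Cfsg.Agent.Lib.Helper46.OMPT0.T0_key]
  exact hfix _ hgmem (v ∘ e)

end Cfsg.Agent.Lib.Helper46.SPPTRq
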