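import Mathlib
import Cfsg.Prelude.Def_GeometricClasses
import Cfsg.Prelude.Def_ClassicalGeometry

/-!
# S5980 piece TD2-TENSSP `mem_spGL_of_tensor` (helper46, for helper98)
-/

set_option autoImplicit false

namespace Cfsg.Agent.Lib.Helper98.TD2

open Matrix Polynomial
open scoped Kronecker

theorem td2tenssp_form_eq {F : Type*} [Field F] {κ : Type} [Fintype κ] (G : Matrix κ κ F)
    (x y : κ → F) : Cfsg.Geo.formOfGram id G x y = x ⬝ᵥ (G *ᵥ y) := by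
  simp only [Cfsg.Geo.formOfGram, dotProduct, Matrix.mulVec, id, Finset.mul_sum, mul_assoc]

theorem td2tenssp_form {F : Type*} [Field F] {κ : Type} [Fintype κ] (G K : Matrix κ κ F)
    (h : Kᵀ * G * K = G) (x y : κ → F) :
    Cfsg.Geo.formOfGram id G (K *ᵥ x) (K *ᵥ y) = Cfsg.Geo.formOfGram id G x y := by
  rw [td2tenssp_form_eq, td2tenssp_form_eq, ← Matrix.vecMul_transpose, ← Matrix.dotProduct_mulVec,
    Matrix.mulVec_mulVec, Matrix.mulVec_mulVec, h]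

theorem td2tenssp_reindex {F : Type*} [Field F] {ι κ : Type} [Fintype ι] [Fintype κ]
    (e : ι ≃ κ) (K : Matrix κ κ F) (w : ι → F) :
    Matrix.reindex e.symm e.symm K *ᵥ w = (K *ᵥ (w ∘ e.symm)) ∘ e := by
  ext i
  simp only [Matrix.mulVec, dotProduct, Matrix.reindex_apply, Matrix.submatrix_apply,
    Equiv.symm_symm, Function.comp_apply]
  exact Fintype.sum_equiv e _ _ (fun j => by simp)

theorem td2tenssp_kron {F : Type*} [Field F] {a b : ℕ}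
    (A G₁ : Matrix (Fin a) (Fin a) F) (B G₂ : Matrix (Fin b) (Fin b) F)
    (hA : Aᵀ * G₁ * A = G₁) (hB : Bᵀ * G₂ * B = G₂) :
    (A ⊗ₖ B)ᵀ * (G₁ ⊗ₖ G₂) * (A ⊗ₖ B) = G₁ ⊗ₖ G₂ := by
  have h1 : (A ⊗ₖ B)ᵀ = Aᵀ ⊗ₖ Bᵀ := (Matrix.kroneckerMap_transpose _ A B).symm
  rw [h1, ← Matrix.mul_kronecker_mul, ← Matrix.mul_kronecker_mul, hA, hB]

theorem mem_spGL_of_tensor {F : Type*} [Field F] {d a b : ℕ}
    (e : (Fin d ⊕ Fin d) ≃ Fin a × Fin b) (P : GL (Fin d ⊕ Fin d) F)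
    (f₁ : (Fin a → F) → (Fin a → F) → F) (f₂ : (Fin b → F) → (Fin b → F) → F)
    (hS : Cfsg.Geo.IsTensorFormStructure id (Cfsg.sympForm d F) f₁ f₂ e P)
    (A : Matrix (Fin a) (Fin a) F) (B : Matrix (Fin b) (Fin b) F)
    (hA : Aᵀ * Cfsg.Geo.gramMatrix f₁ * A = Cfsg.Geo.gramMatrix f₁)
    (hB : Bᵀ * Cfsg.Geo.gramMatrix f₂ * B = Cfsg.Geo.gramMatrix f₂)
    (y : GL (Fin d ⊕ Fin d) F)
    (hy : (y : Matrix (Fin d ⊕ Fin d) (Fin d ⊕ Fin d) F) =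
      (P : Matrix (Fin d ⊕ Fin d) (Fin d ⊕ Fin d) F) * Matrix.reindex e.symm e.symm (A ⊗ₖ B) *
        ((P⁻¹ : GL (Fin d ⊕ Fin d) F) : Matrix (Fin d ⊕ Fin d) (Fin d ⊕ Fin d) F)) :
    y ∈ Cfsg.spGL d F := by
  obtain ⟨c, _, hc⟩ := hS
  have hPP : (P : Matrix (Fin d ⊕ Fin d) (Fin d ⊕ Fin d) F) *
      ((P⁻¹ : GL (Fin d ⊕ Fin d) F) : Matrix (Fin d ⊕ Fin d) (Fin d ⊕ Fin d) F) = 1 := by
    rw [← Matrix.GeneralLinearGroup.coe_mul, mul_inv_cancel]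
    rfl
  -- every vector is `P *ᵥ (u' ∘ e)`
  have hrep : ∀ u : Fin d ⊕ Fin d → F,
      (P : Matrix (Fin d ⊕ Fin d) (Fin d ⊕ Fin d) F) *ᵥ
        (((((P⁻¹ : GL (Fin d ⊕ Fin d) F) : Matrix (Fin d ⊕ Fin d) (Fin d ⊕ Fin d) F) *ᵥ u) ∘
          e.symm) ∘ e) = u := by
    intro u
    have h1 : ((((P⁻¹ : GL (Fin d ⊕ Fin d) F) : Matrix (Fin d ⊕ Fin d) (Fin d ⊕ Fin d) F) *ᵥ u) ∘
        e.symm) ∘ e =
        ((P⁻¹ : GL (Fin d ⊕ Fin d) F) : Matrix (Fin d ⊕ Fin d) (Fin d ⊕ Fin d) F) *ᵥ u := by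
      ext i
      simp
    rw [h1, Matrix.mulVec_mulVec, hPP, Matrix.one_mulVec]
  have hact : ∀ u : Fin d ⊕ Fin d → F,
      (y : Matrix (Fin d ⊕ Fin d) (Fin d ⊕ Fin d) F) *ᵥ u =
        (P : Matrix (Fin d ⊕ Fin d) (Fin d ⊕ Fin d) F) *ᵥ
          (((A ⊗ₖ B) *ᵥ
            ((((P⁻¹ : GL (Fin d ⊕ Fin d) F) : Matrix (Fin d ⊕ Fin d) (Fin d ⊕ Fin d) F) *ᵥ u) ∘
              e.symm)) ∘ e) := by
    intro u
    rw [hy, ← Matrix.mulVec_mulVec, ← Matrix.mulVec_mulVec, td2tenssp_reindex]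
  intro u v
  show Cfsg.sympForm d F ((y : Matrix (Fin d ⊕ Fin d) (Fin d ⊕ Fin d) F) *ᵥ u)
    ((y : Matrix (Fin d ⊕ Fin d) (Fin d ⊕ Fin d) F) *ᵥ v) = Cfsg.sympForm d F u v
  rw [hact u, hact v, hc, td2tenssp_form _ _ (td2tenssp_kron A _ B _ hA hB), ← hc, hrep u, hrep v]

end Cfsg.Agent.Lib.Helper98.TD2
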