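import Mathlib
import Cfsg.Prelude.Def_GeometricClasses
import Cfsg.Agent.Lib.Helper97.Transv
import Cfsg.Agent.Lib.Helper97.TransvM
import Cfsg.Agent.Lib.Helper71.TP0
import Cfsg.Agent.Lib.Helper71.TP1

/-!
# S5637 piece RB (helper46, for helper71): `kron_right_nonscalar`
-/

set_option autoImplicit false

namespace Cfsg.Agent.Lib.Helper46.TPRB

open Matrix Cfsg.Agent.Lib.Helper71.TP Cfsg.Agent.Lib.Helper97
open scoped Kronecker

variable {a b : ℕ} {F : Type*} [Field F]

/-- the linear map `w ↦ u ⊗ w` -/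
def ptR (u : Fin a → F) : (Fin b → F) →ₗ[F] (Fin a × Fin b → F) where
  toFun := fun w => pt u w
  map_add' := fun w w' => pt_add_right u w w'
  map_smul' := fun c w => by simp [pt_smul_right]

/-- RB -/
theorem kron_right_nonscalar (hab : a < b) (A : Matrix (Fin a) (Fin a) F)
    (B : Matrix (Fin b) (Fin b) F)
    (S : Submodule F (Fin a × Fin b → F)) (hS : Module.finrank F ↥S ≤ a)
    (hrange : ∀ v : Fin a × Fin b → F, (A ⊗ₖ B) *ᵥ v - v ∈ S)
    (hne : A ⊗ₖ B ≠ 1) :
    ¬ ∃ c : F, B = c • (1 : Matrix (Fin b) (Fin b) F) := by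
  rintro ⟨c, rfl⟩
  have hk : A ⊗ₖ (c • (1 : Matrix (Fin b) (Fin b) F)) =
      (c • A) ⊗ₖ (1 : Matrix (Fin b) (Fin b) F) := by
    rw [Matrix.kronecker_smul, Matrix.smul_kronecker]
  rw [hk] at hrange hne
  have hcA : c • A ≠ 1 := by
    intro h1
    apply hne
    rw [h1, Matrix.one_kronecker_one]
  have hex : ∃ u : Fin a → F, (c • A) *ᵥ u - u ≠ 0 := by
    by_contra hcon
    push Not at hcon
    apply hcA
    apply Matrix.mulVec_injective
    funext u
    rw [Matrix.one_mulVec]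
    exact sub_eq_zero.mp (hcon u)
  obtain ⟨u, hu⟩ := hex
  obtain ⟨i₀, hi₀⟩ : ∃ i, ((c • A) *ᵥ u - u) i ≠ 0 := by
    by_contra hcon
    push Not at hcon
    exact hu (funext hcon)
  have hinj : Function.Injective (ptR (b := b) ((c • A) *ᵥ u - u)) := by
    intro w w' hww
    funext j
    have h1 := congrFun hww (i₀, j)
    simp only [ptR, LinearMap.coe_mk, AddHom.coe_mk, pt_apply] at h1
    exact mul_left_cancel₀ hi₀ h1
  have hle : LinearMap.range (ptR (b := b) ((c • A) *ᵥ u - u)) ≤ S := by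
    rintro _ ⟨w, rfl⟩
    have h1 := hrange (pt u w)
    rw [kron_mulVec_pt, Matrix.one_mulVec, ← pt_sub_left] at h1
    exact h1
  have h1 : Module.finrank F ↥(LinearMap.range (ptR (b := b) ((c • A) *ᵥ u - u))) = b := by
    rw [LinearMap.finrank_range_of_inj hinj, Module.finrank_fin_fun]
  have h2 := Submodule.finrank_mono hle
  omega

end Cfsg.Agent.Lib.Helper46.TPRB
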