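import Mathlib
import Cfsg.Prelude.Def_GeometricClasses
import Cfsg.Agent.Lib.Helper97.Transv
import Cfsg.Agent.Lib.Helper97.TransvM
import Cfsg.Agent.Lib.Helper71.TP0
import Cfsg.Agent.Lib.Helper71.TP1

/-!
# S5637 piece TR (helper46, for helper71): `transport`
-/

set_option autoImplicit false

namespace Cfsg.Agent.Lib.Helper46.TPTR

open Matrix Cfsg.Agent.Lib.Helper71.TP Cfsg.Agent.Lib.Helper97
open scoped Kronecker

variable {a b : ℕ} {F : Type*} [Field F]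

/-- maximality is transported along a group isomorphism -/
theorem isMaximalIn_map {G G' : Type*} [Group G] [Group G'] (Φ : G ≃* G') {K H : Subgroup G}
    (h : Cfsg.Geo.IsMaximalIn K H) :
    Cfsg.Geo.IsMaximalIn (K.map Φ.toMonoidHom) (H.map Φ.toMonoidHom) := by
  obtain ⟨hlt, hmax⟩ := h
  have hinj : Function.Injective Φ.toMonoidHom := Φ.injective
  have hsurj : Function.Surjective Φ.toMonoidHom := Φ.surjective
  refine ⟨(Subgroup.map_lt_map_iff_of_injective hinj).mpr hlt, ?_⟩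
  intro M' hHM hMK
  have h1 : H ≤ M'.comap Φ.toMonoidHom := Subgroup.map_le_iff_le_comap.mp hHM
  have h2 : M'.comap Φ.toMonoidHom ≤ K := by
    intro x hx
    obtain ⟨k, hk, hkx⟩ := hMK (Subgroup.mem_comap.mp hx)
    rw [← hinj hkx]
    exact hk
  have h3 : (M'.comap Φ.toMonoidHom).map Φ.toMonoidHom = M' :=
    Subgroup.map_comap_eq_self_of_surjective hsurj M'
  rcases hmax _ h1 h2 with h4 | h4
  · left
    rw [← h3, h4]
  · right
    rw [← h3, h4]

/-- the transport isomorphism -/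
def trPhi {n n₁ n₂ : ℕ} (e : Fin n ≃ Fin n₁ × Fin n₂) (P : GL (Fin n) F) :
    GL (Fin n₁ × Fin n₂) F ≃* GL (Fin n) F :=
  (Cfsg.Geo.glReindex e.symm).trans (MulAut.conj P)

theorem trPhi_det {n n₁ n₂ : ℕ} (e : Fin n ≃ Fin n₁ × Fin n₂) (P : GL (Fin n) F)
    (g : GL (Fin n₁ × Fin n₂) F) :
    ((trPhi e P g : GL (Fin n) F) : Matrix (Fin n) (Fin n) F).det =
      (g : Matrix (Fin n₁ × Fin n₂) (Fin n₁ × Fin n₂) F).det := by
  have h1 : (trPhi e P g : GL (Fin n) F) = P * Cfsg.Geo.glReindex e.symm g * P⁻¹ := rfl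
  have h2 : ((Cfsg.Geo.glReindex e.symm g : GL (Fin n) F) : Matrix (Fin n) (Fin n) F) =
      Matrix.reindexAlgEquiv F F e.symm (g : Matrix (Fin n₁ × Fin n₂) (Fin n₁ × Fin n₂) F) := rfl
  rw [h1, Units.val_mul, Units.val_mul, Matrix.det_mul, Matrix.det_mul, h2,
    Matrix.det_reindexAlgEquiv]
  have h3 : (P : Matrix (Fin n) (Fin n) F).det * ((P⁻¹ : GL (Fin n) F) : Matrix (Fin n) (Fin n) F).det
      = 1 := by
    rw [← Matrix.det_mul, ← Units.val_mul, mul_inv_cancel, Units.val_one, Matrix.det_one]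
  calc (P : Matrix (Fin n) (Fin n) F).det * (g : Matrix (Fin n₁ × Fin n₂) (Fin n₁ × Fin n₂) F).det *
        ((P⁻¹ : GL (Fin n) F) : Matrix (Fin n) (Fin n) F).det
      = (g : Matrix (Fin n₁ × Fin n₂) (Fin n₁ × Fin n₂) F).det *
        ((P : Matrix (Fin n) (Fin n) F).det *
          ((P⁻¹ : GL (Fin n) F) : Matrix (Fin n) (Fin n) F).det) := by ring
    _ = (g : Matrix (Fin n₁ × Fin n₂) (Fin n₁ × Fin n₂) F).det := by rw [h3, mul_one]

theorem map_specialLinear {n n₁ n₂ : ℕ} (e : Fin n ≃ Fin n₁ × Fin n₂) (P : GL (Fin n) F) :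
    (Cfsg.Geo.specialLinear (Fin n₁ × Fin n₂) F).map (trPhi e P).toMonoidHom =
      Cfsg.Geo.specialLinear (Fin n) F := by
  ext g'
  constructor
  · rintro ⟨g, hg, rfl⟩
    rw [mem_specialLinear_iff]
    have hg' : (g : Matrix (Fin n₁ × Fin n₂) (Fin n₁ × Fin n₂) F).det = 1 :=
      (mem_specialLinear_iff g).mp hg
    rw [← hg']
    exact trPhi_det e P g
  · intro hg'
    refine ⟨(trPhi e P).symm g', ?_, (trPhi e P).apply_symm_apply g'⟩
    rw [SetLike.mem_coe, mem_specialLinear_iff, ← trPhi_det e P, MulEquiv.apply_symm_apply]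
    exact (mem_specialLinear_iff g').mp hg'

theorem map_kronecker {n n₁ n₂ : ℕ} (e : Fin n ≃ Fin n₁ × Fin n₂) (P : GL (Fin n) F) :
    (Cfsg.Geo.kroneckerSubgroup n₁ n₂ F).map (trPhi e P).toMonoidHom =
      Cfsg.Geo.tensorProductSubgroup n₁ n₂ e P := by
  unfold Cfsg.Geo.tensorProductSubgroup
  rw [Subgroup.map_map]
  rfl

/-- TR -/
theorem transport {n n₁ n₂ : ℕ} (e : Fin n ≃ Fin n₁ × Fin n₂) (P : GL (Fin n) F)
    (h : Cfsg.Geo.IsMaximalIn (Cfsg.Geo.specialLinear (Fin n₁ × Fin n₂) F) (NN n₁ n₂ F)) :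
    Cfsg.Geo.IsMaximalIn (Cfsg.Geo.specialLinear (Fin n) F)
      (Cfsg.Geo.tensorProductSubgroup n₁ n₂ e P ⊓ Cfsg.Geo.specialLinear (Fin n) F) := by
  have h1 := isMaximalIn_map (trPhi e P) h
  have h2 : (NN n₁ n₂ F).map (trPhi e P).toMonoidHom =
      Cfsg.Geo.tensorProductSubgroup n₁ n₂ e P ⊓ Cfsg.Geo.specialLinear (Fin n) F := by
    unfold NN
    rw [Subgroup.map_inf _ _ _ (trPhi e P).injective, map_kronecker, map_specialLinear]
  rw [map_specialLinear, h2] at h1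
  exact h1

end Cfsg.Agent.Lib.Helper46.TPTR
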