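import Mathlib
import Cfsg.Prelude.Def_GeometricClasses
import Cfsg.Prelude.Def_LieClassical
import Cfsg.Agent.Lib.Helper47.GUSim
import Cfsg.Agent.Lib.Helper47.InvSL

/-!
# S5982, piece UF-EIGPERM (helper46 for helper96)

A diagonalisable similarity of the hermitian form: the eigenvalues are paired by a permutation.
-/

set_option autoImplicit false

universe u

namespace Cfsg.Agent.Lib.Helper46.Uf

open Polynomial Matrix
open scoped MatrixGroups

-- PIECE EIGPERM
theorem exists_perm_eig {F : Type*} [Field F] (q₀ n : ℕ) (σ : F →+* F) (hσq : ∀ x, σ x = x ^ q₀)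
    (d : Fin n → F) (G Z : Matrix (Fin n) (Fin n) F) (hG : IsUnit G.det) (μ : F)
    (hZ : ∀ u v, Cfsg.hermForm n F q₀ (Z *ᵥ u) (Z *ᵥ v) = μ * Cfsg.hermForm n F q₀ u v)
    (hGZ : Z * G = G * Matrix.diagonal d) :
    ∃ π : Equiv.Perm (Fin n), ∀ l, d (π l) * d l ^ q₀ = μ := by
  classical
  obtain ⟨B, hBdef⟩ : ∃ B : Matrix (Fin n) (Fin n) F,
      ∀ a b, B a b = Cfsg.hermForm n F q₀ (fun i => G i a) (fun i => G i b) :=
    ⟨fun a b => Cfsg.hermForm n F q₀ (fun i => G i a) (fun i => G i b), fun _ _ => rfl⟩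
  have hB : B = Gᵀ * G.map σ := by
    ext a b
    rw [hBdef]
    simp only [Cfsg.hermForm, Matrix.mul_apply, Matrix.transpose_apply, Matrix.map_apply, hσq]
  have hdet : B.det ≠ 0 := by
    rw [hB, Matrix.det_mul, Matrix.det_transpose]
    have h1 : G.det ≠ 0 := hG.ne_zero
    have h2 : (G.map σ).det = σ G.det := by
      rw [RingHom.map_det]
      rfl
    rw [h2]
    exact mul_ne_zero h1 ((map_ne_zero σ).mpr h1)
  have hπ : ∃ π : Equiv.Perm (Fin n), ∀ l, B (π l) l ≠ 0 := by
    by_contra hcon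
    push Not at hcon
    apply hdet
    rw [Matrix.det_apply]
    apply Finset.sum_eq_zero
    intro π _
    obtain ⟨l, hl⟩ := hcon π
    have hz : ∏ i, B (π i) i = 0 := Finset.prod_eq_zero (Finset.mem_univ l) hl
    rw [hz, smul_zero]
  obtain ⟨π, hπ⟩ := hπ
  refine ⟨π, fun l => ?_⟩
  have hcol : ∀ a : Fin n, Z *ᵥ (fun i => G i a) = fun i => G i a * d a := by
    intro a
    ext i
    have h := congrFun (congrFun hGZ i) a
    rw [Matrix.mul_apply, Matrix.mul_apply] at h
    simp only [Matrix.diagonal_apply, mul_ite, mul_zero, Finset.sum_ite_eq', Finset.mem_univ,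
      if_true] at h
    rw [← h]
    rfl
  have h := hZ (fun i => G i (π l)) (fun i => G i l)
  rw [hcol, hcol, ← hBdef] at h
  have h' : Cfsg.hermForm n F q₀ (fun i => G i (π l) * d (π l)) (fun i => G i l * d l) =
      d (π l) * d l ^ q₀ * B (π l) l := by
    rw [hBdef]
    simp only [Cfsg.hermForm, Finset.mul_sum]
    apply Finset.sum_congr rfl
    intro i _
    ring
  rw [h'] at h
  exact mul_right_cancel₀ (hπ l) h

end Cfsg.Agent.Lib.Helper46.Uf
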