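import Mathlib
import Cfsg.Prelude.Def_GeometricClasses
import Cfsg.Prelude.Def_LieClassical
import Cfsg.Agent.Lib.Helper47.GUSim
import Cfsg.Agent.Lib.Helper47.InvSL

/-!
# S5982, piece UF-FIXORB (helper46 for helper96)

Orbit counting for an isometry `Z` of prime order `r` of the hermitian form.
-/

set_option autoImplicit false

universe u

namespace Cfsg.Agent.Lib.Helper46.Uf

open Polynomial Matrix
open scoped MatrixGroups

-- PIECE FIXORB
theorem fix_orbit {F : Type*} [Field F] [Fintype F] (q₀ n r : ℕ) [Fact r.Prime]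
    (Z : Matrix (Fin n) (Fin n) F) (hZ : Z ^ r = 1)
    (hiso : ∀ u v, Cfsg.hermForm n F q₀ (Z *ᵥ u) (Z *ᵥ v) = Cfsg.hermForm n F q₀ u v) (t : F) :
    Nat.card {v : Fin n → F // Cfsg.hermForm n F q₀ v v = t} ≡
      Nat.card {v : Fin n → F // v ∈ LinearMap.ker (Matrix.toLin' Z - 1) ∧
        Cfsg.hermForm n F q₀ v v = t} [MOD r] := by
  classical
  haveI : Fintype {v : Fin n → F // Cfsg.hermForm n F q₀ v v = t} := Fintype.ofFinite _
  obtain ⟨f, hf⟩ : ∃ f : Function.End {v : Fin n → F // Cfsg.hermForm n F q₀ v v = t},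
      ∀ v, ((f v : {v : Fin n → F // Cfsg.hermForm n F q₀ v v = t}) : Fin n → F) =
        Z *ᵥ (v : Fin n → F) :=
    ⟨fun v => ⟨Z *ᵥ v.1, by rw [hiso]; exact v.2⟩, fun _ => rfl⟩
  have hk : ∀ (k : ℕ) (v : {v : Fin n → F // Cfsg.hermForm n F q₀ v v = t}),
      (((f ^ k) v : {v : Fin n → F // Cfsg.hermForm n F q₀ v v = t}) : Fin n → F) =
        (Z ^ k) *ᵥ (v : Fin n → F) := by
    intro k
    induction k with
    | zero =>
      intro v
      rw [pow_zero, pow_zero, Matrix.one_mulVec]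
      rfl
    | succ k ih =>
      intro v
      rw [pow_succ', pow_succ']
      change ((f ((f ^ k) v) : {v : Fin n → F // Cfsg.hermForm n F q₀ v v = t}) : Fin n → F) =
        (Z * Z ^ k) *ᵥ (v : Fin n → F)
      rw [hf, ih, Matrix.mulVec_mulVec]
  have hfr : f ^ r ^ 1 = 1 := by
    rw [pow_one]
    funext v
    apply Subtype.ext
    rw [hk, hZ, Matrix.one_mulVec]
    rfl
  have key := Equiv.Perm.card_fixedPoints_modEq (p := r) (n := 1) hfr
  have e : Function.fixedPoints f ≃ {v : Fin n → F // v ∈ LinearMap.ker (Matrix.toLin' Z - 1) ∧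
      Cfsg.hermForm n F q₀ v v = t} :=
    { toFun := fun v => ⟨(v.1 : Fin n → F), by
        have h1 : f v.1 = v.1 := v.2
        have h2 : Z *ᵥ (v.1 : Fin n → F) = (v.1 : Fin n → F) := by
          rw [← hf, h1]
        refine ⟨?_, v.1.2⟩
        rw [LinearMap.mem_ker, LinearMap.sub_apply, Matrix.toLin'_apply, h2]
        simp⟩
      invFun := fun v => ⟨⟨v.1, v.2.2⟩, by
        have h1 : (v.1 : Fin n → F) ∈ LinearMap.ker (Matrix.toLin' Z - 1) := v.2.1
        rw [LinearMap.mem_ker, LinearMap.sub_apply, sub_eq_zero, Matrix.toLin'_apply] at h1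
        show f _ = _
        apply Subtype.ext
        rw [hf]
        exact h1⟩
      left_inv := fun v => rfl
      right_inv := fun v => rfl }
  rw [Fintype.card_eq_nat_card, Fintype.card_eq_nat_card, Nat.card_congr e] at key
  exact key

end Cfsg.Agent.Lib.Helper46.Uf
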