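import Cfsg.Agent.Lib.Helper22.W2Defs

/-!
Project W2 (S4707, helper22), piece ADJSMUL: adjacency is `G`-invariant.
-/

set_option autoImplicit false

namespace Cfsg.Agent.Lib.Helper46.W2

open Cfsg Cfsg.Agent.Lib.Helper22.W2
open scoped ComplexConjugate

universe u

variable {α : Type*} [Fintype α] [DecidableEq α]

theorem adj_smul (G : Subgroup (Equiv.Perm α)) (g : G) (x y : α) (h : adj G x y) :
    adj G (g • x) (g • y) := by
  obtain ⟨hne, h3⟩ := h
  refine ⟨fun h' => hne (smul_left_cancel g h'), ?_⟩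
  rw [← h3]
  symm
  apply Nat.card_congr
  refine Equiv.subtypeEquiv (MulAction.toPerm g) ?_
  intro a
  constructor
  · rintro ⟨k, rfl⟩
    refine ⟨⟨g * k.1 * g⁻¹, ?_⟩, ?_⟩
    · rw [MulAction.mem_stabilizer_iff, mul_smul, mul_smul, inv_smul_smul]
      have hk := k.2
      rw [MulAction.mem_stabilizer_iff] at hk
      rw [hk]
    · show (g * k.1 * g⁻¹) • (g • y) = g • (k.1 • y)
      rw [mul_smul, mul_smul, inv_smul_smul]
  · rintro ⟨k, hk⟩
    refine ⟨⟨g⁻¹ * k.1 * g, ?_⟩, ?_⟩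
    · rw [MulAction.mem_stabilizer_iff, mul_smul, mul_smul]
      have hk2 := k.2
      rw [MulAction.mem_stabilizer_iff] at hk2
      rw [hk2, inv_smul_smul]
    · show (g⁻¹ * k.1 * g) • y = a
      rw [mul_smul, mul_smul, inv_smul_eq_iff]
      exact hk

end Cfsg.Agent.Lib.Helper46.W2
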