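import Cfsg.Agent.Lib.Helper22.W2Defs

/-!
Project W2 (S4707, helper22), piece ADJSYMM: adjacency is symmetric.
-/

set_option autoImplicit false

namespace Cfsg.Agent.Lib.Helper46.W2

open Cfsg Cfsg.Agent.Lib.Helper22.W2
open scoped ComplexConjugate

universe u

variable {α : Type*} [Fintype α] [DecidableEq α]

theorem ADJSYMM_map (G : Subgroup (Equiv.Perm α)) (x y : α) :
    (MulAction.stabilizer (MulAction.stabilizer G x) y).map (MulAction.stabilizer G x).subtype =
      MulAction.stabilizer G x ⊓ MulAction.stabilizer G y := by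
  ext g
  constructor
  · rintro ⟨h, hh, rfl⟩
    exact ⟨h.2, hh⟩
  · rintro ⟨hg1, hg2⟩
    exact ⟨⟨g, hg1⟩, hg2, rfl⟩

theorem ADJSYMM_card (G : Subgroup (Equiv.Perm α)) (x y : α) :
    Nat.card (MulAction.orbit (MulAction.stabilizer G x) y) *
      Nat.card ↥(MulAction.stabilizer G x ⊓ MulAction.stabilizer G y) =
      Nat.card (MulAction.stabilizer G x) := by
  have e1 : Nat.card (MulAction.orbit (MulAction.stabilizer G x) y) =
      (MulAction.stabilizer (MulAction.stabilizer G x) y).index :=
    Nat.card_congr (MulAction.orbitEquivQuotientStabilizer (MulAction.stabilizer G x) y)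
  have e2 : Nat.card ↥(MulAction.stabilizer G x ⊓ MulAction.stabilizer G y) =
      Nat.card (MulAction.stabilizer (MulAction.stabilizer G x) y) := by
    rw [← ADJSYMM_map]
    exact Nat.card_congr
      (Subgroup.equivMapOfInjective _ _ (Subgroup.subtype_injective _)).symm.toEquiv
  rw [e1, e2]
  exact Subgroup.index_mul_card _

theorem ADJSYMM_stab (G : Subgroup (Equiv.Perm α)) (g : G) (x : α) :
    Nat.card (MulAction.stabilizer G (g • x)) = Nat.card (MulAction.stabilizer G x) := by
  rw [MulAction.stabilizer_smul_eq_stabilizer_map_conj]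
  exact Nat.card_congr
    (Subgroup.equivMapOfInjective _ _ (MulAut.conj g).injective).symm.toEquiv

theorem adj_symm (G : Subgroup (Equiv.Perm α)) (hprim : MulAction.IsPreprimitive G α)
    (x y : α) (h : adj G x y) : adj G y x := by
  obtain ⟨hne, h3⟩ := h
  refine ⟨hne.symm, ?_⟩
  haveI := hprim.toIsPretransitive
  obtain ⟨g, hg⟩ := MulAction.exists_smul_eq G x y
  have hs : Nat.card (MulAction.stabilizer G y) = Nat.card (MulAction.stabilizer G x) := by
    rw [← hg]
    exact ADJSYMM_stab G g x
  have c1 := ADJSYMM_card G x y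
  have c2 := ADJSYMM_card G y x
  rw [inf_comm, hs, ← c1] at c2
  have hpos : 0 < Nat.card ↥(MulAction.stabilizer G x ⊓ MulAction.stabilizer G y) := Nat.card_pos
  rw [← h3]
  exact Nat.eq_of_mul_eq_mul_right hpos c2

end Cfsg.Agent.Lib.Helper46.W2
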